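import Cfsg.Prelude.Def_TwoFusion
import Cfsg.Agent.Lib.Helper2.Basic

set_option autoImplicit false

namespace Cfsg.Agent.Lib.Helper2

theorem inv_conj_pow {G : Type*} [Group G] (c r : G) (h : c * r * c⁻¹ = r⁻¹) (j : ℕ) :
    c * r ^ j * c⁻¹ = (r ^ j)⁻¹ := by
  rw [← conj_pow, h, inv_pow]

theorem pow_conj_of_inv {G : Type*} [Group G] (c r : G) (h : c * r * c⁻¹ = r⁻¹) (j : ℕ) :
    r ^ j * c * (r ^ j)⁻¹ = r ^ (2 * j) * c := by
  have h1 := inv_conj_pow c r h j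
  have h2 : c * (r ^ j)⁻¹ = r ^ j * c := by
    have : c * (r ^ j)⁻¹ * c⁻¹ = r ^ j := by
      have : c * (r ^ j)⁻¹ * c⁻¹ = (c * r ^ j * c⁻¹)⁻¹ := by group
      rw [this, h1, inv_inv]
    calc c * (r ^ j)⁻¹ = (c * (r ^ j)⁻¹ * c⁻¹) * c := by group
      _ = r ^ j * c := by rw [this]
  rw [mul_assoc, h2, ← mul_assoc, ← pow_add, two_mul]

theorem isolated_sq {G : Type*} [Group G] (z : G) (hz : Cfsg.IsIsolatedInvolution z) :
    z * z = 1 := by
  have := pow_orderOf_eq_one z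
  rw [hz.1, pow_two] at this
  exact this

theorem isolated_conj_sq {G : Type*} [Group G] (z : G) (hz : Cfsg.IsIsolatedInvolution z)
    (g : G) : (g * z * g⁻¹) * (g * z * g⁻¹) = 1 := by
  have : (g * z * g⁻¹) * (g * z * g⁻¹) = g * (z * z) * g⁻¹ := by group
  rw [this, isolated_sq z hz]; group

theorem isolated_conj {G : Type*} [Group G] (z : G) (hz : Cfsg.IsIsolatedInvolution z)
    (g h : G) (hc : Commute (g * z * g⁻¹) (h * z * h⁻¹)) : g * z * g⁻¹ = h * z * h⁻¹ := by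
  have h1 : Commute z ((g⁻¹ * h) * z * (g⁻¹ * h)⁻¹) := by
    have hc' : (g * z * g⁻¹) * (h * z * h⁻¹) = (h * z * h⁻¹) * (g * z * g⁻¹) := hc
    show z * ((g⁻¹ * h) * z * (g⁻¹ * h)⁻¹) = ((g⁻¹ * h) * z * (g⁻¹ * h)⁻¹) * z
    have e1 : z * ((g⁻¹ * h) * z * (g⁻¹ * h)⁻¹) = g⁻¹ * ((g * z * g⁻¹) * (h * z * h⁻¹)) * g := by
      group
    have e2 : ((g⁻¹ * h) * z * (g⁻¹ * h)⁻¹) * z = g⁻¹ * ((h * z * h⁻¹) * (g * z * g⁻¹)) * g := by
      group
    rw [e1, e2, hc']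
  have h2 := hz.2 (g⁻¹ * h) h1
  have e3 : h * z * h⁻¹ = g * ((g⁻¹ * h) * z * (g⁻¹ * h)⁻¹) * g⁻¹ := by group
  rw [e3, h2]

/-- The product of two conjugates of an isolated involution has odd order. -/
theorem isolated_odd {G : Type*} [Group G] [Finite G] (z : G)
    (hz : Cfsg.IsIsolatedInvolution z) (g h : G) :
    Odd (orderOf ((g * z * g⁻¹) * (h * z * h⁻¹))) := by
  rw [← Nat.not_even_iff_odd]
  rintro ⟨m, hm⟩
  have hss := isolated_conj_sq z hz g
  have htt := isolated_conj_sq z hz h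
  have hsinv : (g * z * g⁻¹)⁻¹ = g * z * g⁻¹ := inv_eq_of_mul_eq_one_left hss
  have htinv : (h * z * h⁻¹)⁻¹ = h * z * h⁻¹ := inv_eq_of_mul_eq_one_left htt
  generalize hs : g * z * g⁻¹ = s at *
  generalize ht : h * z * h⁻¹ = t at *
  have hsr : s * (s * t) * s⁻¹ = (s * t)⁻¹ := by
    rw [mul_inv_rev, hsinv, htinv, ← mul_assoc, hss, one_mul]
  have htr : t * (s * t) * t⁻¹ = (s * t)⁻¹ := by
    rw [mul_inv_rev, hsinv, htinv, mul_assoc, mul_assoc, htt, mul_one]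
  have hmpos : 0 < m := by
    have := orderOf_pos (s * t); omega
  have hu1 : (s * t) ^ m ≠ 1 := by
    intro h1
    have h2 := orderOf_dvd_of_pow_eq_one h1
    have := Nat.le_of_dvd hmpos h2; omega
  have huu : (s * t) ^ m * (s * t) ^ m = 1 := by
    rw [← pow_add, ← hm, pow_orderOf_eq_one]
  have hsu : s * (s * t) ^ m * s⁻¹ = (s * t) ^ m := by
    rw [inv_conj_pow s (s * t) hsr m]; exact inv_eq_of_mul_eq_one_left huu
  have hw : ∃ k : G, (s * t) ^ m * s = k * z * k⁻¹ := by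
    rcases Nat.even_or_odd' m with ⟨k, hk | hk⟩
    · refine ⟨(s * t) ^ k * g, ?_⟩
      have h1 := pow_conj_of_inv s (s * t) hsr k
      rw [hk, ← h1, ← hs]; group
    · refine ⟨(s * t) ^ (k + 1) * h, ?_⟩
      have h1 := pow_conj_of_inv t (s * t) htr (k + 1)
      have e : (s * t) ^ m * s = (s * t) ^ (2 * (k + 1)) * t := by
        have e1 : (s * t) ^ (2 * (k + 1)) = (s * t) ^ m * (s * t) := by
          rw [hk, ← pow_succ]
          congr 1
        rw [e1, mul_assoc, mul_assoc, htt, mul_one]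
      rw [e, ← h1, ← ht]; group
  obtain ⟨k, hk⟩ := hw
  have hcomm : Commute (k * z * k⁻¹) (g * z * g⁻¹) := by
    rw [← hk, hs]
    show (s * t) ^ m * s * s = s * ((s * t) ^ m * s)
    have h1 : s * (s * t) ^ m = (s * t) ^ m * s := by
      calc s * (s * t) ^ m = (s * (s * t) ^ m * s⁻¹) * s := by group
        _ = (s * t) ^ m * s := by rw [hsu]
    rw [← mul_assoc, h1]
  have h2 := isolated_conj z hz k g hcomm
  rw [← hk, hs] at h2
  exact hu1 (by simpa using h2)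

/-- Two involutions whose product has odd order `2j+1` are conjugate by `(s*t)^j`. -/
theorem invol_conj_of_odd {G : Type*} [Group G] (s t : G) (hss : s * s = 1) (htt : t * t = 1)
    (j : ℕ) (hj : orderOf (s * t) = 2 * j + 1) :
    (s * t) ^ j * s * ((s * t) ^ j)⁻¹ = t := by
  have hsinv : s⁻¹ = s := inv_eq_of_mul_eq_one_left hss
  have htinv : t⁻¹ = t := inv_eq_of_mul_eq_one_left htt
  have hsr : s * (s * t) * s⁻¹ = (s * t)⁻¹ := by
    rw [mul_inv_rev, hsinv, htinv, ← mul_assoc, hss, one_mul]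
  rw [pow_conj_of_inv s (s * t) hsr j]
  have h1 : (s * t) ^ (2 * j) * (s * t) = 1 := by
    rw [← pow_succ, ← hj, pow_orderOf_eq_one]
  have h2 : (s * t) ^ (2 * j) = (s * t)⁻¹ := eq_inv_of_mul_eq_one_left h1
  rw [h2, mul_inv_rev, hsinv, htinv, mul_assoc, hss, mul_one]

/-- Elements of odd order with equal squares are equal. -/
theorem eq_of_sq_eq_of_odd {G : Type*} [Group G] (k k' : G) (hk : Odd (orderOf k))
    (hk' : Odd (orderOf k')) (h : k ^ 2 = k' ^ 2) : k = k' := by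
  obtain ⟨a, ha⟩ := hk
  obtain ⟨b, hb⟩ := hk'
  have h1 : (k ^ 2) ^ (a + 1) = k := by
    rw [← pow_mul]
    have : 2 * (a + 1) = orderOf k + 1 := by omega
    rw [this, pow_succ, pow_orderOf_eq_one, one_mul]
  have h2 : (k ^ 2) ^ (b + 1) = k' := by
    rw [h, ← pow_mul]
    have : 2 * (b + 1) = orderOf k' + 1 := by omega
    rw [this, pow_succ, pow_orderOf_eq_one, one_mul]
  have hc : Commute k k' := by
    have : Commute ((k ^ 2) ^ (a + 1)) ((k ^ 2) ^ (b + 1)) :=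
      (Commute.refl (k ^ 2)).pow_pow _ _
    rwa [h1, h2] at this
  have h3 : (k * k'⁻¹) ^ 2 = 1 := by
    rw [(hc.inv_right).mul_pow, h, inv_pow, mul_inv_cancel]
  have h4 : (k * k'⁻¹) ^ ((2 * a + 1) * (2 * b + 1)) = 1 := by
    rw [(hc.inv_right).mul_pow, pow_mul, ← ha, pow_orderOf_eq_one, one_pow, one_mul, inv_pow,
      mul_comm, pow_mul, ← hb, pow_orderOf_eq_one, one_pow, inv_one]
  have h5 : orderOf (k * k'⁻¹) ∣ Nat.gcd 2 ((2 * a + 1) * (2 * b + 1)) :=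
    Nat.dvd_gcd (orderOf_dvd_of_pow_eq_one h3) (orderOf_dvd_of_pow_eq_one h4)
  have h6 : Nat.gcd 2 ((2 * a + 1) * (2 * b + 1)) = 1 := by
    have : Odd ((2 * a + 1) * (2 * b + 1)) := Odd.mul ⟨a, rfl⟩ ⟨b, rfl⟩
    exact Nat.coprime_two_left.mpr this
  rw [h6, Nat.dvd_one, orderOf_eq_one_iff] at h5
  exact mul_inv_eq_one.mp h5

end Cfsg.Agent.Lib.Helper2
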