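import Mathlib
import Cfsg.Prelude.Def_Involutions
import Cfsg.Agent.Lib.Helper2.Basic
import Cfsg.Agent.Lib.Helper2.Isolated

set_option autoImplicit false
set_option linter.unusedSectionVars false

/-! Strongly embedded subgroups: basic fixed point calculus.
`g⁻¹ * t * g ∈ H` means "`t` fixes the coset `gH`". -/

namespace Cfsg.Agent.Lib.Helper2.SE

variable {G : Type*} [Group G]

theorem sq_of_order_two {t : G} (ht : orderOf t = 2) : t * t = 1 := by
  have := pow_orderOf_eq_one t
  rw [ht, pow_two] at this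
  exact this

theorem ne_one_of_order_two {t : G} (ht : orderOf t = 2) : t ≠ 1 := by
  rintro rfl
  simp at ht

theorem order_two_of {t : G} (h1 : t ≠ 1) (h2 : t * t = 1) : orderOf t = 2 :=
  orderOf_eq_prime (by rw [pow_two]; exact h2) h1

theorem inv_of_order_two {t : G} (ht : orderOf t = 2) : t⁻¹ = t :=
  inv_eq_of_mul_eq_one_left (sq_of_order_two ht)

theorem order_conj (t g : G) : orderOf (g * t * g⁻¹) = orderOf t := by
  have := MulEquiv.orderOf_eq (MulAut.conj g) t
  simpa [MulAut.conj_apply] using this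

theorem order_conj' (t g : G) : orderOf (g⁻¹ * t * g) = orderOf t := by
  have := order_conj t g⁻¹
  simpa using this

/-- Two involutions whose product has even order centralize a common involution. -/
theorem central_invol_of_even [Finite G] (s t : G) (hs : orderOf s = 2) (ht : orderOf t = 2)
    (he : Even (orderOf (s * t))) :
    ∃ z : G, orderOf z = 2 ∧ z * s = s * z ∧ z * t = t * z := by
  obtain ⟨m, hm⟩ := he
  have hss := sq_of_order_two hs
  have htt := sq_of_order_two ht
  have hsinv : s⁻¹ = s := inv_of_order_two hs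
  have htinv : t⁻¹ = t := inv_of_order_two ht
  have hsr : s * (s * t) * s⁻¹ = (s * t)⁻¹ := by
    rw [mul_inv_rev, hsinv, htinv, ← mul_assoc, hss, one_mul]
  have htr : t * (s * t) * t⁻¹ = (s * t)⁻¹ := by
    rw [mul_inv_rev, hsinv, htinv, mul_assoc, mul_assoc, htt, mul_one]
  have hst1 : s * t ≠ 1 := by
    intro h
    have : s = t := by
      have h2 : s * t * t = t := by rw [h, one_mul]
      rw [mul_assoc, htt, mul_one] at h2
      exact h2
    subst this
    rw [hss] at hm
    simp at hm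
    omega
  have hmpos : 0 < m := by
    have := orderOf_pos (s * t)
    omega
  have hu1 : (s * t) ^ m ≠ 1 := by
    intro h1
    have h2 := orderOf_dvd_of_pow_eq_one h1
    have := Nat.le_of_dvd hmpos h2; omega
  have huu : (s * t) ^ m * (s * t) ^ m = 1 := by
    rw [← pow_add, ← hm, pow_orderOf_eq_one]
  have hsu : s * (s * t) ^ m * s⁻¹ = (s * t) ^ m := by
    rw [inv_conj_pow s (s * t) hsr m]; exact inv_eq_of_mul_eq_one_left huu
  have htu : t * (s * t) ^ m * t⁻¹ = (s * t) ^ m := by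
    rw [inv_conj_pow t (s * t) htr m]; exact inv_eq_of_mul_eq_one_left huu
  refine ⟨(s * t) ^ m, order_two_of hu1 huu, ?_, ?_⟩
  · calc (s * t) ^ m * s = (s * (s * t) ^ m * s⁻¹) * s := by rw [hsu]
      _ = s * (s * t) ^ m := by group
  · calc (s * t) ^ m * t = (t * (s * t) ^ m * t⁻¹) * t := by rw [htu]
      _ = t * (s * t) ^ m := by group

variable [Finite G] {H : Subgroup G}

/-- An involution of `H` lies in no conjugate `gHg⁻¹` with `g ∉ H`. -/
theorem not_mem_of_invol (hH : Cfsg.IsStronglyEmbedded H) {g t : G} (hg : g ∉ H)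
    (ht : orderOf t = 2) (htH : t ∈ H) : g⁻¹ * t * g ∉ H := by
  intro h
  have hodd := hH.2.2 g hg
  have hmem : t ∈ H ⊓ H.map (MulAut.conj g).toMonoidHom :=
    Subgroup.mem_inf.mpr ⟨htH, (mem_map_conj H g t).mpr h⟩
  have hdvd : orderOf (⟨t, hmem⟩ : ↥(H ⊓ H.map (MulAut.conj g).toMonoidHom)) ∣
      Nat.card ↥(H ⊓ H.map (MulAut.conj g).toMonoidHom) := orderOf_dvd_natCard _
  have ho : orderOf (⟨t, hmem⟩ : ↥(H ⊓ H.map (MulAut.conj g).toMonoidHom)) = 2 := by
    rw [← ht, ← Subgroup.orderOf_coe]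
  rw [ho] at hdvd
  obtain ⟨k, hk⟩ := hodd
  omega

/-- The fixed coset of an involution is unique. -/
theorem fix_unique (hH : Cfsg.IsStronglyEmbedded H) {t g₁ g₂ : G} (ht : orderOf t = 2)
    (h1 : g₁⁻¹ * t * g₁ ∈ H) (h2 : g₂⁻¹ * t * g₂ ∈ H) : g₁⁻¹ * g₂ ∈ H := by
  by_contra hcon
  have := not_mem_of_invol hH hcon (t := g₁⁻¹ * t * g₁) (by rw [order_conj']; exact ht) h1
  apply this
  have e : (g₁⁻¹ * g₂)⁻¹ * (g₁⁻¹ * t * g₁) * (g₁⁻¹ * g₂) = g₂⁻¹ * t * g₂ := by group
  rw [e]; exact h2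

/-- The centralizer of an involution of `H` lies in `H`. -/
theorem centralizer_le (hH : Cfsg.IsStronglyEmbedded H) {t x : G} (ht : orderOf t = 2)
    (htH : t ∈ H) (hx : x * t = t * x) : x ∈ H := by
  by_contra hcon
  have := not_mem_of_invol hH hcon ht htH
  apply this
  have e : x⁻¹ * t * x = t := by
    calc x⁻¹ * t * x = x⁻¹ * (t * x) := by group
      _ = x⁻¹ * (x * t) := by rw [hx]
      _ = t := by group
  rw [e]; exact htH

/-- If the involution `z` fixes `gH` and `x` commutes with `z`, then `x` fixes `gH`. -/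
theorem fix_of_comm (hH : Cfsg.IsStronglyEmbedded H) {z x g : G} (hz : orderOf z = 2)
    (hzg : g⁻¹ * z * g ∈ H) (hx : x * z = z * x) : g⁻¹ * x * g ∈ H := by
  apply centralizer_le hH (t := g⁻¹ * z * g) (by rw [order_conj']; exact hz) hzg
  calc g⁻¹ * x * g * (g⁻¹ * z * g) = g⁻¹ * (x * z) * g := by group
    _ = g⁻¹ * (z * x) * g := by rw [hx]
    _ = g⁻¹ * z * g * (g⁻¹ * x * g) := by group

theorem exists_invol (hH : Cfsg.IsStronglyEmbedded H) : ∃ t ∈ H, orderOf t = 2 := by
  have he : 2 ∣ Nat.card H := even_iff_two_dvd.mp hH.2.1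
  have : Fact (Nat.Prime 2) := ⟨Nat.prime_two⟩
  obtain ⟨x, hx⟩ := exists_prime_orderOf_dvd_card' 2 he
  exact ⟨x, x.2, by rw [Subgroup.orderOf_coe]; exact hx⟩

/-- Every involution of `G` is conjugate into `H`. -/
theorem conj_into (hH : Cfsg.IsStronglyEmbedded H) {s : G} (hs : orderOf s = 2) :
    ∃ g : G, g⁻¹ * s * g ∈ H := by
  obtain ⟨t, htH, ht⟩ := exists_invol hH
  rcases Nat.even_or_odd (orderOf (s * t)) with he | ho
  · obtain ⟨z, hz, hzs, hzt⟩ := central_invol_of_even s t hs ht he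
    have hzH : z ∈ H := centralizer_le hH ht htH hzt
    have hsH : s ∈ H := centralizer_le hH hz hzH hzs.symm
    exact ⟨1, by simpa using hsH⟩
  · obtain ⟨j, hj⟩ := ho
    have h := invol_conj_of_odd s t (sq_of_order_two hs) (sq_of_order_two ht) j hj
    refine ⟨((s * t) ^ j)⁻¹, ?_⟩
    rw [inv_inv, h]; exact htH

/-- Involutions with distinct fixed cosets have a product of odd order. -/
theorem odd_mul (hH : Cfsg.IsStronglyEmbedded H) {s t g : G} (hs : orderOf s = 2)
    (ht : orderOf t = 2) (htg : g⁻¹ * t * g ∈ H) (hsg : g⁻¹ * s * g ∉ H) :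
    Odd (orderOf (s * t)) := by
  rw [← Nat.not_even_iff_odd]
  intro he
  obtain ⟨z, hz, hzs, hzt⟩ := central_invol_of_even s t hs ht he
  obtain ⟨g', hg'⟩ := conj_into hH hz
  have h1 : g'⁻¹ * t * g' ∈ H := fix_of_comm hH hz hg' hzt.symm
  have h2 : g'⁻¹ * s * g' ∈ H := fix_of_comm hH hz hg' hzs.symm
  have h3 : g⁻¹ * g' ∈ H := fix_unique hH ht htg h1
  apply hsg
  have e : g⁻¹ * s * g = (g⁻¹ * g') * (g'⁻¹ * s * g') * (g⁻¹ * g')⁻¹ := by group
  rw [e]
  exact H.mul_mem (H.mul_mem h3 h2) (H.inv_mem h3)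

/-- Existence of an involution swapping the fixed cosets and conjugating `t` to `u`. -/
theorem exists_swap (hH : Cfsg.IsStronglyEmbedded H) {t u a b : G} (ht : orderOf t = 2)
    (hu : orderOf u = 2) (hta : a⁻¹ * t * a ∈ H) (hub : b⁻¹ * u * b ∈ H) (hab : a⁻¹ * b ∉ H) :
    ∃ s : G, orderOf s = 2 ∧ s * t * s⁻¹ = u ∧ (s * a)⁻¹ * b ∈ H := by
  have hua : a⁻¹ * u * a ∉ H := fun h => hab (fix_unique hH hu h hub)
  have hodd : Odd (orderOf (u * t)) := odd_mul hH hu ht hta hua
  have htt := sq_of_order_two ht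
  have huu := sq_of_order_two hu
  have hodd' : Odd (orderOf (t * u)) := by
    have : orderOf (t * u) = orderOf (u * t) := by
      have h1 : t * u = t * (u * t) * t⁻¹ := by group
      rw [h1, order_conj]
    rw [this]; exact hodd
  obtain ⟨j, hj⟩ := hodd'
  have hc := invol_conj_of_odd t u htt huu j hj
  have htinv : t⁻¹ = t := inv_of_order_two ht
  have huinv : u⁻¹ = u := inv_of_order_two hu
  have htr : t * (t * u) * t⁻¹ = (t * u)⁻¹ := by
    rw [mul_inv_rev, htinv, huinv, ← mul_assoc, htt, one_mul]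
  have hinv := inv_conj_pow t (t * u) htr j
  -- s = (t u)^j * t
  have h3 : t * (t * u) ^ j * t = ((t * u) ^ j)⁻¹ := by
    have := hinv
    rwa [htinv] at this
  generalize (t * u) ^ j = c at hc h3
  have hs2 : (c * t) * (c * t) = 1 := by
    calc (c * t) * (c * t) = c * (t * c * t) := by group
      _ = 1 := by rw [h3]; group
  have hconj : (c * t) * t * (c * t)⁻¹ = u := by
    rw [← hc, mul_inv_rev, htinv]
    calc c * t * t * (t * c⁻¹) = c * (t * t) * t * c⁻¹ := by group
      _ = c * t * c⁻¹ := by rw [htt, mul_one]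
  have hs1 : c * t ≠ 1 := by
    intro h1
    rw [h1] at hconj
    have : t = u := by simpa using hconj
    rw [← this] at hua
    exact hua hta
  refine ⟨c * t, order_two_of hs1 hs2, hconj, ?_⟩
  have h1 : (c * t * a)⁻¹ * u * (c * t * a) ∈ H := by
    have e : (c * t * a)⁻¹ * u * (c * t * a) = a⁻¹ * t * a := by
      rw [← hconj]; group
    rw [e]; exact hta
  exact fix_unique hH hu h1 hub

/-- Uniqueness of the swapping involution. -/
theorem swap_unique (hH : Cfsg.IsStronglyEmbedded H) {t u a s s' : G} (ht : orderOf t = 2)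
    (hta : a⁻¹ * t * a ∈ H) (hs : orderOf s = 2) (hs' : orderOf s' = 2)
    (hsa : a⁻¹ * s * a ∉ H) (hsa' : a⁻¹ * s' * a ∉ H)
    (h1 : s * t * s⁻¹ = u) (h2 : s' * t * s'⁻¹ = u) : s = s' := by
  have htt := sq_of_order_two ht
  have o1 : Odd (orderOf (s * t)) := odd_mul hH hs ht hta hsa
  have o2 : Odd (orderOf (s' * t)) := odd_mul hH hs' ht hta hsa'
  have e1 : (s * t) ^ 2 = u * t := by
    rw [pow_two, ← h1, inv_of_order_two hs]; group
  have e2 : (s' * t) ^ 2 = u * t := by
    rw [pow_two, ← h2, inv_of_order_two hs']; group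
  have := eq_of_sq_eq_of_odd (s * t) (s' * t) o1 o2 (by rw [e1, e2])
  exact mul_right_cancel this

/-- A `p`-subgroup normalizing a Sylow `p`-subgroup lies in it. -/
theorem le_sylow_of_le_normalizer {p : ℕ} (Q : Sylow p G) (N : Subgroup G) (hN : IsPGroup p N)
    (h : N ≤ Subgroup.normalizer ((Q : Subgroup G) : Set G)) : N ≤ (Q : Subgroup G) := by
  have h1 : IsPGroup p (N ⊔ (Q : Subgroup G) : Subgroup G) :=
    IsPGroup.to_sup_of_normal_right' hN Q.isPGroup' h
  have h2 := Q.is_maximal' h1 le_sup_right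
  rw [← h2]
  exact le_sup_left

end Cfsg.Agent.Lib.Helper2.SE
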