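import Mathlib
import Cfsg.Prelude.Def_Involutions
import Cfsg.Agent.Lib.Helper2.StrEmb

set_option autoImplicit false
set_option linter.unusedSectionVars false

namespace Cfsg.Agent.Lib.Helper2.SE

variable {G : Type*} [Group G] [Finite G] {H : Subgroup G}

/-- `D = H ∩ uHu⁻¹` is transitive on the involutions of `H`. -/
theorem D_trans (hH : Cfsg.IsStronglyEmbedded H) {u s t : G} (hu : orderOf u = 2) (huH : u ∉ H)
    (hs : orderOf s = 2) (hsH : s ∈ H) (ht : orderOf t = 2) (htH : t ∈ H) :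
    ∃ d ∈ (H ⊓ H.map (MulAut.conj u).toMonoidHom), d * s * d⁻¹ = t := by
  have huu := sq_of_order_two hu
  have huinv := inv_of_order_two hu
  have h1 : (1 : G)⁻¹ * t * 1 ∈ H := by simpa using htH
  have h2 : u⁻¹ * (u * s * u⁻¹) * u ∈ H := by
    have : u⁻¹ * (u * s * u⁻¹) * u = s := by group
    rw [this]; exact hsH
  have h3 : (1 : G)⁻¹ * u ∉ H := by simpa using huH
  obtain ⟨j, hj2, hjc, hjm⟩ := exists_swap hH ht (by rw [order_conj]; exact hs) h1 h2 h3
  have hjinv := inv_of_order_two hj2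
  have hjm' : j * u ∈ H := by
    have : (j * 1)⁻¹ * u = j * u := by rw [mul_one, hjinv]
    rwa [this] at hjm
  refine ⟨j * u, Subgroup.mem_inf.mpr ⟨hjm', ?_⟩, ?_⟩
  · rw [mem_map_conj]
    have e : u⁻¹ * (j * u) * u = (j * u)⁻¹ := by
      rw [mul_inv_rev, hjinv, huinv, mul_assoc, mul_assoc, huu, mul_one]
    rw [e]; exact H.inv_mem hjm'
  · have e : j * u * s * (j * u)⁻¹ = j * (u * s * u⁻¹) * j⁻¹ := by group
    rw [e, ← hjc, hjinv]
    have hjj := sq_of_order_two hj2
    calc j * (j * t * j) * j = (j * j) * t * (j * j) := by group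
      _ = t := by rw [hjj]; group

/-- There is an involution outside `H`. -/
theorem exists_invol_not_mem (hH : Cfsg.IsStronglyEmbedded H) : ∃ u : G, orderOf u = 2 ∧ u ∉ H := by
  obtain ⟨t, htH, ht⟩ := exists_invol hH
  have hne : ∃ g : G, g ∉ H := by
    by_contra h
    push Not at h
    exact hH.1 (eq_top_iff.mpr fun x _ => h x)
  obtain ⟨g, hg⟩ := hne
  refine ⟨g * t * g⁻¹, by rw [order_conj]; exact ht, ?_⟩
  intro h
  -- t' = g t g⁻¹ ∈ H is an involution of H lying in gHg⁻¹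
  have := not_mem_of_invol hH hg (t := g * t * g⁻¹) (by rw [order_conj]; exact ht) h
  apply this
  have e : g⁻¹ * (g * t * g⁻¹) * g = t := by group
  rw [e]; exact htH

/-- All involutions are conjugate. -/
theorem all_conj (hH : Cfsg.IsStronglyEmbedded H) {a b : G} (ha : orderOf a = 2) (hb : orderOf b = 2) :
    IsConj a b := by
  obtain ⟨u, hu, huH⟩ := exists_invol_not_mem hH
  obtain ⟨ga, hga⟩ := conj_into hH ha
  obtain ⟨gb, hgb⟩ := conj_into hH hb
  obtain ⟨d, -, hd⟩ := D_trans hH hu huH (by rw [order_conj']; exact ha) hga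
    (by rw [order_conj']; exact hb) hgb
  rw [isConj_iff]
  refine ⟨gb * d * ga⁻¹, ?_⟩
  have e : gb * d * ga⁻¹ * a * (gb * d * ga⁻¹)⁻¹ = gb * (d * (ga⁻¹ * a * ga) * d⁻¹) * gb⁻¹ := by group
  rw [e, hd]; group

end Cfsg.Agent.Lib.Helper2.SE
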