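import Mathlib
import Cfsg.Prelude.Def_Involutions
import Cfsg.Agent.Lib.Helper2.StrEmb2
import Cfsg.Agent.Lib.Helper9.Fpf

set_option autoImplicit false
set_option linter.unusedSectionVars false
set_option linter.style.haveILetI false

/-! Groups in which the centralizer of every involution is an elementary abelian 2-group. -/

namespace Cfsg.Agent.Lib.Helper2.BSW

open Cfsg.Agent.Lib.Helper2 Cfsg.Agent.Lib.Helper2.SE

variable {G : Type*} [Group G] [Finite G]

/-- the hypothesis -/
def CIT (G : Type*) [Group G] : Prop :=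
  ∀ t : G, orderOf t = 2 → IsMulCommutative (Subgroup.centralizer ({t} : Set G)) ∧
    ∀ c ∈ Subgroup.centralizer ({t} : Set G), c ^ 2 = 1

theorem cent_isPGroup (hC : CIT G) {t : G} (ht : orderOf t = 2) :
    IsPGroup 2 (Subgroup.centralizer ({t} : Set G)) := by
  intro c
  refine ⟨1, ?_⟩
  have := (hC t ht).2 c.1 c.2
  apply Subtype.ext
  simpa using this

theorem mem_cent {t x : G} : x ∈ Subgroup.centralizer ({t} : Set G) ↔ x * t = t * x := by
  rw [Subgroup.mem_centralizer_iff]
  constructor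
  · intro h; exact (h t rfl).symm
  · intro h y hy
    rw [Set.mem_singleton_iff] at hy
    rw [hy]; exact h.symm

theorem cent_comm (hC : CIT G) {t x y : G} (ht : orderOf t = 2) (hx : x * t = t * x)
    (hy : y * t = t * y) : x * y = y * x := by
  have h := isMulCommutative_iff.mp (hC t ht).1
    (⟨x, mem_cent.mpr hx⟩ : Subgroup.centralizer ({t} : Set G)) ⟨y, mem_cent.mpr hy⟩
  exact congrArg Subtype.val h

/-- a nontrivial Sylow 2-subgroup has a central involution -/
theorem exists_central_invol (T : Sylow 2 G) (hT : (T : Subgroup G) ≠ ⊥) :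
    ∃ z ∈ (T : Subgroup G), orderOf z = 2 ∧ ∀ x ∈ (T : Subgroup G), x * z = z * x := by
  haveI : Nontrivial ↥(T : Subgroup G) := (Subgroup.nontrivial_iff_ne_bot _).mpr hT
  have hTp : IsPGroup 2 ↥(T : Subgroup G) := T.isPGroup'
  haveI := hTp.center_nontrivial
  have hcp : IsPGroup 2 (Subgroup.center ↥(T : Subgroup G)) := hTp.to_subgroup _
  have h2 : 2 ∣ Nat.card (Subgroup.center ↥(T : Subgroup G)) := by
    rcases hcp.card_eq_or_dvd with h | h
    · exfalso
      have := Finite.one_lt_card (α := Subgroup.center ↥(T : Subgroup G))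
      omega
    · exact h
  have : Fact (Nat.Prime 2) := ⟨Nat.prime_two⟩
  obtain ⟨z, hz⟩ := exists_prime_orderOf_dvd_card' 2 h2
  refine ⟨((z : ↥(T : Subgroup G)) : G), (z : ↥(T : Subgroup G)).2, ?_, ?_⟩
  · rw [Subgroup.orderOf_coe, Subgroup.orderOf_coe]; exact hz
  · intro x hx
    have := (Subgroup.mem_center_iff.mp z.2) ⟨x, hx⟩
    exact congrArg Subtype.val this

/-- `T` is the centralizer of each of its involutions. -/
theorem cent_eq (hC : CIT G) (T : Sylow 2 G) (hT : (T : Subgroup G) ≠ ⊥) {t : G} (ht : orderOf t = 2)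
    (htT : t ∈ (T : Subgroup G)) : Subgroup.centralizer ({t} : Set G) = (T : Subgroup G) := by
  obtain ⟨z, hzT, hz, hzc⟩ := exists_central_invol T hT
  have h1 : Subgroup.centralizer ({z} : Set G) = (T : Subgroup G) := by
    apply T.is_maximal' (cent_isPGroup hC hz)
    intro x hx
    exact mem_cent.mpr (hzc x hx)
  apply T.is_maximal' (cent_isPGroup hC ht)
  intro x hx
  rw [mem_cent]
  have hx' : x * z = z * x := hzc x hx
  have ht' : t * z = z * t := hzc t htT
  exact cent_comm hC hz hx' ht'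

theorem sq_eq_one_of_mem (hC : CIT G) (T : Sylow 2 G) (hT : (T : Subgroup G) ≠ ⊥) {x : G}
    (hx : x ∈ (T : Subgroup G)) : x * x = 1 := by
  obtain ⟨z, hzT, hz, hzc⟩ := exists_central_invol T hT
  have := (hC z hz).2 x (mem_cent.mpr (hzc x hx))
  rwa [pow_two] at this

/-- involutions of `N(T)` lie in `T` -/
theorem invol_mem (T : Sylow 2 G) {w : G} (hw : orderOf w = 2)
    (hwN : w ∈ Subgroup.normalizer ((T : Subgroup G) : Set G)) : w ∈ (T : Subgroup G) := by
  have hp : IsPGroup 2 (Subgroup.zpowers w) := by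
    have : Fact (Nat.Prime 2) := ⟨Nat.prime_two⟩
    apply IsPGroup.of_card (n := 1)
    rw [Nat.card_zpowers, hw, pow_one]
  have hle : Subgroup.zpowers w ≤ Subgroup.normalizer ((T : Subgroup G) : Set G) :=
    (Subgroup.zpowers_le).mpr hwN
  exact le_sylow_of_le_normalizer T _ hp hle (Subgroup.mem_zpowers w)

theorem stronglyEmbedded (hC : CIT G) (T : Sylow 2 G) (hT : (T : Subgroup G) ≠ ⊥)
    (hnn : ¬ (T : Subgroup G).Normal) :
    Cfsg.IsStronglyEmbedded (Subgroup.normalizer ((T : Subgroup G) : Set G)) := by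
  refine ⟨fun h => hnn (Subgroup.normalizer_eq_top_iff.mp h), ?_, ?_⟩
  · have h1 : 2 ∣ Nat.card (T : Subgroup G) := by
      rcases (T.isPGroup').card_eq_or_dvd with h | h
      · exfalso
        haveI : Nontrivial ↥(T : Subgroup G) := (Subgroup.nontrivial_iff_ne_bot _).mpr hT
        have := Finite.one_lt_card (α := ↥(T : Subgroup G))
        omega
      · exact h
    have h2 : Nat.card (T : Subgroup G) ∣ Nat.card (Subgroup.normalizer ((T : Subgroup G) : Set G)) :=
      Subgroup.card_dvd_of_le Subgroup.le_normalizer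
    exact even_iff_two_dvd.mpr (h1.trans h2)
  · intro g hg
    rw [← Nat.not_even_iff_odd]
    intro he
    have : Fact (Nat.Prime 2) := ⟨Nat.prime_two⟩
    obtain ⟨w', hw'⟩ := exists_prime_orderOf_dvd_card' 2 (even_iff_two_dvd.mp he)
    have hw2' : orderOf (w' : G) = 2 := by rw [Subgroup.orderOf_coe]; exact hw'
    have hw1a := (Subgroup.mem_inf.mp w'.2).1
    have hw1a' := (mem_map_conj _ g _).mp (Subgroup.mem_inf.mp w'.2).2
    obtain ⟨w, hw2, hw1, hw1'⟩ : ∃ w : G, orderOf w = 2 ∧
        w ∈ Subgroup.normalizer ((T : Subgroup G) : Set G) ∧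
        g⁻¹ * w * g ∈ Subgroup.normalizer ((T : Subgroup G) : Set G) := ⟨w', hw2', hw1a, hw1a'⟩
    have hwT : w ∈ (T : Subgroup G) := invol_mem T hw2 hw1
    have hwT' : g⁻¹ * w * g ∈ (T : Subgroup G) :=
      invol_mem T (by rw [order_conj']; exact hw2) hw1'
    have hc1 := cent_eq hC T hT hw2 hwT
    have hc2 := cent_eq hC T hT (t := g⁻¹ * w * g) (by rw [order_conj']; exact hw2) hwT'
    apply hg
    rw [Subgroup.mem_normalizer_iff]
    intro x
    have e1 : x ∈ (T : Subgroup G) ↔ x * (g⁻¹ * w * g) = (g⁻¹ * w * g) * x := by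
      rw [← mem_cent, hc2]
    have e2 : g * x * g⁻¹ ∈ (T : Subgroup G) ↔ (g * x * g⁻¹) * w = w * (g * x * g⁻¹) := by
      rw [← mem_cent, hc1]
    rw [e1, e2]
    constructor
    · intro h
      calc g * x * g⁻¹ * w = g * (x * (g⁻¹ * w * g)) * g⁻¹ := by group
        _ = g * ((g⁻¹ * w * g) * x) * g⁻¹ := by rw [h]
        _ = w * (g * x * g⁻¹) := by group
    · intro h
      calc x * (g⁻¹ * w * g) = g⁻¹ * (g * x * g⁻¹ * w) * g := by group
        _ = g⁻¹ * (w * (g * x * g⁻¹)) * g := by rw [h]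
        _ = g⁻¹ * w * g * x := by group

end Cfsg.Agent.Lib.Helper2.BSW
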