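import Mathlib
import Cfsg.Prelude.Def_Involutions
import Cfsg.Agent.Lib.Helper2.BSW

set_option autoImplicit false
set_option linter.unusedSectionVars false
set_option linter.style.haveILetI false

namespace Cfsg.Agent.Lib.Helper2.BSW

open Cfsg.Agent.Lib.Helper2 Cfsg.Agent.Lib.Helper2.SE

variable {G : Type*} [Group G] [Finite G]

/-- An element of `D = H ∩ uHu⁻¹` of order at most two is trivial. -/
theorem eq_one_of_sq_of_mem_D {H : Subgroup G} (hH : Cfsg.IsStronglyEmbedded H) {u k : G} (huH : u ∉ H)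
    (hk : k ∈ H ⊓ H.map (MulAut.conj u).toMonoidHom) (hkk : k * k = 1) : k = 1 := by
  by_contra h1
  have hk2 : orderOf k = 2 := order_two_of h1 hkk
  exact not_mem_of_invol hH huH hk2 (Subgroup.mem_inf.mp hk).1
    ((mem_map_conj H u k).mp (Subgroup.mem_inf.mp hk).2)

variable (hC : CIT G) (T : Sylow 2 G) (hT : (T : Subgroup G) ≠ ⊥) (hnn : ¬ (T : Subgroup G).Normal)

include hC hT hnn

theorem u_inverts {u : G} (hu : orderOf u = 2) (huH : u ∉ Subgroup.normalizer ((T : Subgroup G) : Set G)) :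
    ∀ d ∈ Subgroup.normalizer ((T : Subgroup G) : Set G) ⊓
      (Subgroup.normalizer ((T : Subgroup G) : Set G)).map (MulAut.conj u).toMonoidHom,
      u * d * u⁻¹ = d⁻¹ := by
  have hSE := stronglyEmbedded hC T hT hnn
  have huu := sq_of_order_two hu
  have huinv := inv_of_order_two hu
  apply Cfsg.Agent.Lib.Helper9.fpf_conj_inverts _ u huu
  · intro k hk
    have hk1 := (Subgroup.mem_inf.mp hk).1
    have hk2 := (mem_map_conj _ u k).mp (Subgroup.mem_inf.mp hk).2
    refine Subgroup.mem_inf.mpr ⟨?_, conj_mem_map_conj _ u k hk1⟩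
    have e : u * k * u⁻¹ = u⁻¹ * k * u := by rw [huinv]
    rw [e]; exact hk2
  · intro k hk hfix
    have hcomm : k * u = u * k := by
      calc k * u = (u * k * u⁻¹) * u := by rw [hfix]
        _ = u * k := by group
    have hkk : k * k = 1 := by
      have := (hC u hu).2 k (mem_cent.mpr hcomm)
      rwa [pow_two] at this
    exact eq_one_of_sq_of_mem_D hSE huH hk hkk

theorem exists_invol_T : ∃ t ∈ (T : Subgroup G), orderOf t = 2 := by
  obtain ⟨z, hzT, hz, -⟩ := exists_central_invol T hT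
  exact ⟨z, hzT, hz⟩

theorem H_eq_mul {u : G} (hu : orderOf u = 2) (huH : u ∉ Subgroup.normalizer ((T : Subgroup G) : Set G))
    {h : G} (hh : h ∈ Subgroup.normalizer ((T : Subgroup G) : Set G)) :
    ∃ d ∈ Subgroup.normalizer ((T : Subgroup G) : Set G) ⊓
      (Subgroup.normalizer ((T : Subgroup G) : Set G)).map (MulAut.conj u).toMonoidHom,
      ∃ c ∈ (T : Subgroup G), d * c = h := by
  have hSE := stronglyEmbedded hC T hT hnn
  obtain ⟨t₀, ht₀T, ht₀⟩ := exists_invol_T hC T hT hnn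
  have ht₀H : t₀ ∈ Subgroup.normalizer ((T : Subgroup G) : Set G) := Subgroup.le_normalizer ht₀T
  have h1 : h * t₀ * h⁻¹ ∈ (T : Subgroup G) := (Subgroup.mem_normalizer_iff.mp hh t₀).mp ht₀T
  have h1H : h * t₀ * h⁻¹ ∈ Subgroup.normalizer ((T : Subgroup G) : Set G) := Subgroup.le_normalizer h1
  obtain ⟨d, hd, hdc⟩ := D_trans hSE hu huH ht₀ ht₀H (by rw [order_conj]; exact ht₀) h1H
  refine ⟨d, hd, d⁻¹ * h, ?_, by group⟩
  rw [← cent_eq hC T hT ht₀ ht₀T, mem_cent]
  calc d⁻¹ * h * t₀ = d⁻¹ * (h * t₀ * h⁻¹) * h := by group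
    _ = d⁻¹ * (d * t₀ * d⁻¹) * h := by rw [hdc]
    _ = t₀ * (d⁻¹ * h) := by group

theorem isComplement {u : G} (hu : orderOf u = 2) (huH : u ∉ Subgroup.normalizer ((T : Subgroup G) : Set G)) :
    Subgroup.IsComplement'
      ((Subgroup.normalizer ((T : Subgroup G) : Set G) ⊓
        (Subgroup.normalizer ((T : Subgroup G) : Set G)).map (MulAut.conj u).toMonoidHom).subgroupOf
          (Subgroup.normalizer ((T : Subgroup G) : Set G)))
      ((T : Subgroup G).subgroupOf (Subgroup.normalizer ((T : Subgroup G) : Set G))) := by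
  have hSE := stronglyEmbedded hC T hT hnn
  apply Subgroup.isComplement'_of_disjoint_and_mul_eq_univ
  · rw [Subgroup.disjoint_def]
    intro x hx1 hx2
    rw [Subgroup.mem_subgroupOf] at hx1 hx2
    have := eq_one_of_sq_of_mem_D hSE huH hx1 (sq_eq_one_of_mem hC T hT hx2)
    exact Subtype.ext this
  · rw [Set.eq_univ_iff_forall]
    intro h
    obtain ⟨d, hd, c, hc, hdc⟩ := H_eq_mul hC T hT hnn hu huH h.2
    refine ⟨⟨d, (Subgroup.mem_inf.mp hd).1⟩, ?_, ⟨c, Subgroup.le_normalizer hc⟩, ?_, ?_⟩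
    · exact Subgroup.mem_subgroupOf.mpr hd
    · exact Subgroup.mem_subgroupOf.mpr hc
    · exact Subtype.ext hdc

/-- `|D| = |T| - 1`. -/
theorem card_D {u : G} (hu : orderOf u = 2) (huH : u ∉ Subgroup.normalizer ((T : Subgroup G) : Set G)) :
    Nat.card ↥(Subgroup.normalizer ((T : Subgroup G) : Set G) ⊓
      (Subgroup.normalizer ((T : Subgroup G) : Set G)).map (MulAut.conj u).toMonoidHom)
      = Nat.card (T : Subgroup G) - 1 := by
  have hSE := stronglyEmbedded hC T hT hnn
  obtain ⟨t₀, ht₀T, ht₀⟩ := exists_invol_T hC T hT hnn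
  have ht₀H : t₀ ∈ Subgroup.normalizer ((T : Subgroup G) : Set G) := Subgroup.le_normalizer ht₀T
  have key : Nat.card ↥(Subgroup.normalizer ((T : Subgroup G) : Set G) ⊓
      (Subgroup.normalizer ((T : Subgroup G) : Set G)).map (MulAut.conj u).toMonoidHom)
      = Nat.card {t : G // t ∈ (((T : Subgroup G) : Set G) \ {1})} := by
    let f : ↥(Subgroup.normalizer ((T : Subgroup G) : Set G) ⊓
      (Subgroup.normalizer ((T : Subgroup G) : Set G)).map (MulAut.conj u).toMonoidHom) →
        {t : G // t ∈ (((T : Subgroup G) : Set G) \ {1})} := fun d =>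
      ⟨(d : G) * t₀ * (d : G)⁻¹, by
        refine ⟨?_, ?_⟩
        · exact (Subgroup.mem_normalizer_iff.mp (Subgroup.mem_inf.mp d.2).1 t₀).mp ht₀T
        · intro h
          have h' : (d : G) * t₀ * (d : G)⁻¹ = 1 := h
          have : t₀ = 1 := by
            have := congrArg (fun z => (d : G)⁻¹ * z * (d : G)) h'
            simpa [mul_assoc] using this
          exact ne_one_of_order_two ht₀ this⟩
    apply Nat.card_eq_of_bijective f
    constructor
    · rintro ⟨d, hd⟩ ⟨d', hd'⟩ h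
      have h1 : d * t₀ * d⁻¹ = d' * t₀ * d'⁻¹ := congrArg Subtype.val h
      have hcomm : (d⁻¹ * d') * t₀ = t₀ * (d⁻¹ * d') := by
        calc (d⁻¹ * d') * t₀ = d⁻¹ * (d' * t₀ * d'⁻¹) * d' := by group
          _ = d⁻¹ * (d * t₀ * d⁻¹) * d' := by rw [h1]
          _ = t₀ * (d⁻¹ * d') := by group
      have hsq : (d⁻¹ * d') * (d⁻¹ * d') = 1 := by
        have := (hC t₀ ht₀).2 _ (mem_cent.mpr hcomm)
        rwa [pow_two] at this
      have := eq_one_of_sq_of_mem_D hSE huH (Subgroup.mul_mem _ (Subgroup.inv_mem _ hd) hd') hsq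
      apply Subtype.ext
      show d = d'
      calc d = d * (d⁻¹ * d') := by rw [this, mul_one]
        _ = d' := by group
    · rintro ⟨t, htT, ht1⟩
      have ht1' : t ≠ 1 := ht1
      have ht2 : orderOf t = 2 := order_two_of ht1' (sq_eq_one_of_mem hC T hT htT)
      obtain ⟨d, hd, hdc⟩ := D_trans hSE hu huH ht₀ ht₀H ht2 (Subgroup.le_normalizer htT)
      exact ⟨⟨d, hd⟩, Subtype.ext hdc⟩
  rw [key]
  have h1 : Nat.card {t : G // t ∈ (((T : Subgroup G) : Set G) \ {1})}
      = (((T : Subgroup G) : Set G) \ {1}).ncard := Nat.card_coe_set_eq _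
  have h2 : Nat.card (T : Subgroup G) = ((T : Subgroup G) : Set G).ncard := Nat.card_coe_set_eq _
  rw [h1, h2]
  exact Set.ncard_sdiff_singleton_of_mem (Subgroup.one_mem _)

theorem card_H {u : G} (hu : orderOf u = 2) (huH : u ∉ Subgroup.normalizer ((T : Subgroup G) : Set G)) :
    Nat.card (Subgroup.normalizer ((T : Subgroup G) : Set G)) =
      Nat.card (T : Subgroup G) * (Nat.card (T : Subgroup G) - 1) := by
  have h := (isComplement hC T hT hnn hu huH).card_mul_card
  have e1 := Nat.card_congr (Subgroup.subgroupOfEquivOfLe (inf_le_left :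
    Subgroup.normalizer ((T : Subgroup G) : Set G) ⊓
      (Subgroup.normalizer ((T : Subgroup G) : Set G)).map (MulAut.conj u).toMonoidHom ≤
      Subgroup.normalizer ((T : Subgroup G) : Set G))).toEquiv
  have e2 := Nat.card_congr (Subgroup.subgroupOfEquivOfLe (Subgroup.le_normalizer :
    (T : Subgroup G) ≤ Subgroup.normalizer ((T : Subgroup G) : Set G))).toEquiv
  rw [e1, e2, card_D hC T hT hnn hu huH] at h
  rw [← h, mul_comm]

end Cfsg.Agent.Lib.Helper2.BSW
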