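import Mathlib
import Cfsg.Prelude.Def_Involutions
import Cfsg.Agent.Lib.Helper2.BSW2
import Cfsg.Agent.Lib.Lead.Coprime

set_option autoImplicit false
set_option linter.unusedSectionVars false
set_option linter.style.haveILetI false

/-! Groups whose involution centralizers are elementary abelian: the action on `G/N(T)`
is sharply triply transitive. -/

namespace Cfsg.Agent.Lib.Helper2.BSW

open Cfsg.Agent.Lib.Helper2 Cfsg.Agent.Lib.Helper2.SE

variable {G : Type*} [Group G] [Finite G]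

/-- `N(T)` -/
abbrev HN (T : Sylow 2 G) : Subgroup G := Subgroup.normalizer ((T : Subgroup G) : Set G)

/-- two point stabilizer of `H` and `gH` -/
abbrev Dg (T : Sylow 2 G) (g : G) : Subgroup G := HN T ⊓ (HN T).map (MulAut.conj g).toMonoidHom

theorem mem_Dg (T : Sylow 2 G) {g x : G} : x ∈ Dg T g ↔ x ∈ HN T ∧ g⁻¹ * x * g ∈ HN T := by
  rw [Subgroup.mem_inf, mem_map_conj]

theorem Dg_le (T : Sylow 2 G) {g g' : G} (h : g⁻¹ * g' ∈ HN T) : Dg T g ≤ Dg T g' := by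
  intro x hx
  rw [mem_Dg] at hx ⊢
  refine ⟨hx.1, ?_⟩
  have e : g'⁻¹ * x * g' = (g⁻¹ * g')⁻¹ * (g⁻¹ * x * g) * (g⁻¹ * g') := by group
  rw [e]
  exact (HN T).mul_mem ((HN T).mul_mem ((HN T).inv_mem h) hx.2) h

theorem Dg_congr (T : Sylow 2 G) {g g' : G} (h : g⁻¹ * g' ∈ HN T) : Dg T g = Dg T g' := by
  apply le_antisymm (Dg_le T h)
  apply Dg_le T
  have e : g'⁻¹ * g = (g⁻¹ * g')⁻¹ := by group
  rw [e]; exact (HN T).inv_mem h

theorem two_lt_card_of_not_cyclic (T : Sylow 2 G) (hnc : ¬ IsCyclic (T : Subgroup G)) :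
    2 < Nat.card (T : Subgroup G) := by
  by_contra h
  push Not at h
  apply hnc
  have hpos : 0 < Nat.card (T : Subgroup G) := Nat.card_pos
  have h12 : Nat.card (T : Subgroup G) = 1 ∨ Nat.card (T : Subgroup G) = 2 := by omega
  rcases h12 with hcard | hcard
  · have : Subsingleton (T : Subgroup G) := (Nat.card_eq_one_iff_unique.mp hcard).1
    exact isCyclic_of_subsingleton
  · have : Fact (Nat.Prime 2) := ⟨Nat.prime_two⟩
    exact isCyclic_of_prime_card hcard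

variable (hC : CIT G) (T : Sylow 2 G) (hT : (T : Subgroup G) ≠ ⊥) (hnn : ¬ (T : Subgroup G).Normal)

include hC hT hnn

theorem exists_invol_coset {g : G} (hg : g ∉ HN T) :
    ∃ v : G, orderOf v = 2 ∧ v ∉ HN T ∧ v⁻¹ * g ∈ HN T := by
  have hSE := stronglyEmbedded hC T hT hnn
  obtain ⟨t₀, ht₀T, ht₀⟩ := exists_invol_T hC T hT hnn
  have ht₀H : t₀ ∈ HN T := Subgroup.le_normalizer ht₀T
  have h1 : (1 : G)⁻¹ * t₀ * 1 ∈ HN T := by simpa using ht₀H
  have h2 : g⁻¹ * (g * t₀ * g⁻¹) * g ∈ HN T := by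
    have : g⁻¹ * (g * t₀ * g⁻¹) * g = t₀ := by group
    rw [this]; exact ht₀H
  have h3 : (1 : G)⁻¹ * g ∉ HN T := by simpa using hg
  obtain ⟨s, hs2, -, hs⟩ := exists_swap hSE ht₀ (by rw [order_conj]; exact ht₀) h1 h2 h3
  rw [mul_one] at hs
  refine ⟨s, hs2, ?_, hs⟩
  intro hsH
  apply hg
  have e : g = s * (s⁻¹ * g) := by group
  rw [e]; exact (HN T).mul_mem hsH hs

theorem card_Dg {g : G} (hg : g ∉ HN T) : Nat.card (Dg T g) = Nat.card (T : Subgroup G) - 1 := by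
  obtain ⟨v, hv2, hvH, hvg⟩ := exists_invol_coset hC T hT hnn hg
  rw [← Dg_congr T hvg]
  exact card_D hC T hT hnn hv2 hvH

theorem inverts_Dg {g v : G} (hv : orderOf v = 2) (hvH : v ∉ HN T) (hvg : v⁻¹ * g ∈ HN T) :
    ∀ d ∈ Dg T g, v * d * v⁻¹ = d⁻¹ := by
  rw [← Dg_congr T hvg]
  exact u_inverts hC T hT hnn hv hvH

theorem Dg_comm {g : G} (hg : g ∉ HN T) {a b : G} (ha : a ∈ Dg T g) (hb : b ∈ Dg T g) :
    a * b = b * a := by
  obtain ⟨v, hv2, hvH, hvg⟩ := exists_invol_coset hC T hT hnn hg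
  have hi := inverts_Dg hC T hT hnn hv2 hvH hvg
  have h1 := hi a ha
  have h2 := hi b hb
  have h3 := hi (a * b) ((Dg T g).mul_mem ha hb)
  have e : v * (a * b) * v⁻¹ = (v * a * v⁻¹) * (v * b * v⁻¹) := by group
  rw [e, h1, h2] at h3
  have h4 : (a⁻¹ * b⁻¹)⁻¹ = ((a * b)⁻¹)⁻¹ := by rw [h3]
  rw [mul_inv_rev, inv_inv, inv_inv, inv_inv] at h4
  exact h4.symm

theorem eq_one_of_mem_T_of_mem_Dg {g x : G} (hg : g ∉ HN T) (hxT : x ∈ (T : Subgroup G))
    (hxD : x ∈ Dg T g) : x = 1 :=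
  eq_one_of_sq_of_mem_D (stronglyEmbedded hC T hT hnn) hg hxD (sq_eq_one_of_mem hC T hT hxT)

theorem exists_ne_one_Dg (hq : 2 < Nat.card (T : Subgroup G)) {g : G} (hg : g ∉ HN T) :
    ∃ d ∈ Dg T g, d ≠ 1 := by
  have hc := card_Dg hC T hT hnn hg
  have h1 : 1 < Nat.card (Dg T g) := by omega
  have : Nontrivial (Dg T g) := (Finite.one_lt_card_iff_nontrivial).mp h1
  obtain ⟨d, hd⟩ := exists_ne (1 : Dg T g)
  exact ⟨d.1, d.2, fun h => hd (Subtype.ext h)⟩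

theorem H_eq_mul' {g : G} (hg : g ∉ HN T) {h : G} (hh : h ∈ HN T) :
    ∃ d ∈ Dg T g, ∃ c ∈ (T : Subgroup G), d * c = h := by
  obtain ⟨v, hv2, hvH, hvg⟩ := exists_invol_coset hC T hT hnn hg
  rw [← Dg_congr T hvg]
  exact H_eq_mul hC T hT hnn hv2 hvH hh

/-- an element of `T` conjugating `d ∈ D` into `D` centralizes `d` -/
theorem comm_T_Dg {g c d : G} (hg : g ∉ HN T) (hc : c ∈ (T : Subgroup G)) (hd : d ∈ Dg T g)
    (h : c * d * c⁻¹ ∈ Dg T g) : c * d * c⁻¹ = d := by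
  have hdH : d ∈ HN T := ((mem_Dg T).mp hd).1
  have h1 : d * c⁻¹ * d⁻¹ ∈ (T : Subgroup G) :=
    (Subgroup.mem_normalizer_iff.mp hdH c⁻¹).mp ((T : Subgroup G).inv_mem hc)
  have h2 : c * d * c⁻¹ * d⁻¹ ∈ (T : Subgroup G) := by
    have e : c * d * c⁻¹ * d⁻¹ = c * (d * c⁻¹ * d⁻¹) := by group
    rw [e]; exact (T : Subgroup G).mul_mem hc h1
  have h3 : c * d * c⁻¹ * d⁻¹ ∈ Dg T g := (Dg T g).mul_mem h ((Dg T g).inv_mem hd)
  have h4 := eq_one_of_mem_T_of_mem_Dg hC T hT hnn hg h2 h3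
  exact mul_inv_eq_one.mp h4

/-- `D = H ∩ uHu⁻¹` fixes no third coset. -/
theorem fix_Dg (hq : 2 < Nat.card (T : Subgroup G)) {u g : G} (hu : u ∉ HN T) (hg : g ∉ HN T)
    (hug : u⁻¹ * g ∉ HN T) (hfix : ∀ d ∈ Dg T u, g⁻¹ * d * g ∈ HN T) : False := by
  obtain ⟨u₁, hu₁2, hu₁H, hu₁⟩ := exists_invol_coset hC T hT hnn hu
  obtain ⟨v, hv2, hvH, hv⟩ := exists_invol_coset hC T hT hnn hg
  obtain ⟨v'', hv''2, hv''H, hv''⟩ := exists_invol_coset hC T hT hnn hug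
  have hi1 := inverts_Dg hC T hT hnn hu₁2 hu₁H hu₁
  have hle : Dg T u ≤ Dg T g := fun d hd => (mem_Dg T).mpr ⟨((mem_Dg T).mp hd).1, hfix d hd⟩
  have hEq : Dg T u = Dg T g := by
    have hc1 := card_Dg hC T hT hnn hu
    have hc2 := card_Dg hC T hT hnn hg
    exact Subgroup.eq_of_le_of_card_ge hle (by rw [hc1, hc2])
  have hi2 : ∀ d ∈ Dg T u, v * d * v⁻¹ = d⁻¹ := by
    rw [hEq]; exact inverts_Dg hC T hT hnn hv2 hvH hv
  have hi3' := inverts_Dg hC T hT hnn hv''2 hv''H hv''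
  have hi3 : ∀ d ∈ Dg T u, (u * v'' * u⁻¹) * d * (u * v'' * u⁻¹)⁻¹ = d⁻¹ := by
    intro d hd
    have hm : u⁻¹ * d * u ∈ Dg T (u⁻¹ * g) := by
      rw [mem_Dg]
      refine ⟨((mem_Dg T).mp hd).2, ?_⟩
      have e : (u⁻¹ * g)⁻¹ * (u⁻¹ * d * u) * (u⁻¹ * g) = g⁻¹ * d * g := by group
      rw [e]; exact hfix d hd
    have := hi3' _ hm
    calc (u * v'' * u⁻¹) * d * (u * v'' * u⁻¹)⁻¹
        = u * (v'' * (u⁻¹ * d * u) * v''⁻¹) * u⁻¹ := by group
      _ = u * (u⁻¹ * d * u)⁻¹ * u⁻¹ := by rw [this]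
      _ = d⁻¹ := by group
  obtain ⟨w, hw⟩ : ∃ w : G, w = v * (u * v'' * u⁻¹) * u₁ := ⟨_, rfl⟩
  have hwinv : ∀ d ∈ Dg T u, w * d * w⁻¹ = d⁻¹ := by
    intro d hd
    have a1 := hi1 d hd
    have a2 := hi3 d⁻¹ ((Dg T u).inv_mem hd)
    have a3 := hi2 d hd
    rw [inv_inv] at a2
    calc w * d * w⁻¹
        = v * ((u * v'' * u⁻¹) * (u₁ * d * u₁⁻¹) * (u * v'' * u⁻¹)⁻¹) * v⁻¹ := by rw [hw]; group
      _ = v * ((u * v'' * u⁻¹) * d⁻¹ * (u * v'' * u⁻¹)⁻¹) * v⁻¹ := by rw [a1]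
      _ = v * d * v⁻¹ := by rw [a2]
      _ = d⁻¹ := a3
  have hwH : w ∈ HN T := by
    have hvv := sq_of_order_two hv2
    have e : w = (v * v) * (v⁻¹ * g) * (v''⁻¹ * (u⁻¹ * g))⁻¹ * (u₁⁻¹ * u)⁻¹ := by rw [hw]; group
    rw [e, hvv, one_mul]
    exact (HN T).mul_mem ((HN T).mul_mem hv ((HN T).inv_mem hv'')) ((HN T).inv_mem hu₁)
  obtain ⟨d₀, hd₀, c, hc, hdc⟩ := H_eq_mul' hC T hT hnn hu hwH
  have hcinv : ∀ d ∈ Dg T u, c * d * c⁻¹ = d⁻¹ := by
    intro d hd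
    have hc' : c = d₀⁻¹ * w := by rw [← hdc]; group
    have a1 := hwinv d hd
    have a2 := Dg_comm hC T hT hnn hu ((Dg T u).inv_mem hd₀) ((Dg T u).inv_mem hd)
    calc c * d * c⁻¹ = d₀⁻¹ * (w * d * w⁻¹) * d₀ := by rw [hc']; group
      _ = d₀⁻¹ * d⁻¹ * d₀ := by rw [a1]
      _ = d⁻¹ * d₀⁻¹ * d₀ := by rw [a2]
      _ = d⁻¹ := by group
  obtain ⟨d, hd, hd1⟩ := exists_ne_one_Dg hC T hT hnn hq hu
  have h1 := hcinv d hd
  have h2 := comm_T_Dg hC T hT hnn hu hc hd (by rw [h1]; exact (Dg T u).inv_mem hd)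
  rw [h1] at h2
  have h3 : d * d = 1 := by
    calc d * d = d * d⁻¹ := by rw [h2]
      _ = 1 := mul_inv_cancel d
  exact hd1 (eq_one_of_sq_of_mem_D (stronglyEmbedded hC T hT hnn) hu hd h3)

theorem fixed_iff (hq : 2 < Nat.card (T : Subgroup G)) {u g : G} (hu : u ∉ HN T) :
    (∀ d ∈ Dg T u, g⁻¹ * d * g ∈ HN T) ↔ (g ∈ HN T ∨ u⁻¹ * g ∈ HN T) := by
  constructor
  · intro h
    by_contra hcon
    push Not at hcon
    exact fix_Dg hC T hT hnn hq hu hcon.1 hcon.2 h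
  · rintro (h | h) d hd
    · exact (HN T).mul_mem ((HN T).mul_mem ((HN T).inv_mem h) ((mem_Dg T).mp hd).1) h
    · have e : g⁻¹ * d * g = (u⁻¹ * g)⁻¹ * (u⁻¹ * d * u) * (u⁻¹ * g) := by group
      rw [e]
      exact (HN T).mul_mem ((HN T).mul_mem ((HN T).inv_mem h) ((mem_Dg T).mp hd).2) h

theorem mem_Dg_of_mem_normalizer (hq : 2 < Nat.card (T : Subgroup G)) {u w : G} (hu : u ∉ HN T)
    (hwH : w ∈ HN T) (hwN : w ∈ Subgroup.normalizer ((Dg T u : Subgroup G) : Set G)) :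
    w ∈ Dg T u := by
  obtain ⟨d₀, hd₀, c, hc, hdc⟩ := H_eq_mul' hC T hT hnn hu hwH
  have hcN : c ∈ Subgroup.normalizer ((Dg T u : Subgroup G) : Set G) := by
    have hc' : c = d₀⁻¹ * w := by rw [← hdc]; group
    rw [hc']
    exact Subgroup.mul_mem _ (Subgroup.inv_mem _ (Subgroup.le_normalizer hd₀)) hwN
  have hcomm : ∀ d ∈ Dg T u, c * d * c⁻¹ = d := fun d hd =>
    comm_T_Dg hC T hT hnn hu hc hd ((Subgroup.mem_normalizer_iff.mp hcN d).mp hd)
  have hc1 : c = 1 := by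
    by_contra hne
    have hc2 : orderOf c = 2 := order_two_of hne (sq_eq_one_of_mem hC T hT hc)
    have hcent := cent_eq hC T hT hc2 hc
    obtain ⟨d, hd, hd1⟩ := exists_ne_one_Dg hC T hT hnn hq hu
    apply hd1
    apply eq_one_of_mem_T_of_mem_Dg hC T hT hnn hu _ hd
    rw [← hcent, mem_cent]
    have := hcomm d hd
    calc d * c = (c * d * c⁻¹) * c := by rw [this]
      _ = c * d := by group
  rw [← hdc, hc1, mul_one]; exact hd₀

theorem normalizer_Dg (hq : 2 < Nat.card (T : Subgroup G)) {u : G} (hu2 : orderOf u = 2)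
    (hu : u ∉ HN T) :
    Subgroup.normalizer ((Dg T u : Subgroup G) : Set G) = Dg T u ⊔ Subgroup.zpowers u := by
  have hinv := u_inverts hC T hT hnn hu2 hu
  have huu := sq_of_order_two hu2
  have huinv := inv_of_order_two hu2
  have huN : u ∈ Subgroup.normalizer ((Dg T u : Subgroup G) : Set G) := by
    rw [Subgroup.mem_normalizer_iff]
    intro d
    constructor
    · intro hd
      rw [hinv d hd]; exact (Dg T u).inv_mem hd
    · intro hd
      have := hinv _ hd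
      have e : u * (u * d * u⁻¹) * u⁻¹ = d := by
        rw [huinv]
        calc u * (u * d * u) * u = (u * u) * d * (u * u) := by group
          _ = d := by rw [huu]; group
      rw [e] at this
      rw [this]; exact (Dg T u).inv_mem hd
  apply le_antisymm
  · intro w hw
    have hfix : ∀ d ∈ Dg T u, w⁻¹ * d * w ∈ HN T := by
      intro d hd
      have hw' := Subgroup.inv_mem _ hw
      have := (Subgroup.mem_normalizer_iff.mp hw' d).mp hd
      rw [inv_inv] at this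
      exact ((mem_Dg T).mp this).1
    rcases (fixed_iff hC T hT hnn hq hu).mp hfix with h | h
    · exact Subgroup.mem_sup_left (mem_Dg_of_mem_normalizer hC T hT hnn hq hu h hw)
    · have h2 : u⁻¹ * w ∈ Dg T u := mem_Dg_of_mem_normalizer hC T hT hnn hq hu h
        (Subgroup.mul_mem _ (Subgroup.inv_mem _ huN) hw)
      have e : w = (u * (u⁻¹ * w) * u⁻¹) * u := by group
      rw [e]
      apply Subgroup.mul_mem
      · apply Subgroup.mem_sup_left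
        exact (Subgroup.mem_normalizer_iff.mp huN _).mp h2
      · exact Subgroup.mem_sup_right (Subgroup.mem_zpowers u)
  · apply sup_le Subgroup.le_normalizer
    rw [Subgroup.zpowers_le]; exact huN

/-- `T` is transitive on the cosets other than `H`. -/
theorem T_trans (hq : 2 < Nat.card (T : Subgroup G)) {a b : G} (ha : a ∉ HN T) (hb : b ∉ HN T) :
    ∃ c ∈ (T : Subgroup G), (c * a)⁻¹ * b ∈ HN T := by
  have hca := card_Dg hC T hT hnn ha
  have hcb := card_Dg hC T hT hnn hb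
  have hHN : Dg T a ≤ Subgroup.normalizer (((T : Subgroup G)) : Set G) := inf_le_left
  have hK : Dg T b ≤ (T : Subgroup G) ⊔ Dg T a := by
    intro x hx
    obtain ⟨d, hd, c, hc, hdc⟩ := H_eq_mul' hC T hT hnn ha ((mem_Dg T).mp hx).1
    rw [← hdc]
    exact Subgroup.mul_mem _ (Subgroup.mem_sup_right hd) (Subgroup.mem_sup_left hc)
  have hcop : (Nat.card (T : Subgroup G)).Coprime (Nat.card (Dg T a)) := by
    rw [hca]
    have hpos : 0 < Nat.card (T : Subgroup G) := Nat.card_pos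
    obtain ⟨m, hm⟩ : ∃ m, Nat.card (T : Subgroup G) = m + 1 := ⟨Nat.card (T : Subgroup G) - 1, by omega⟩
    rw [hm]
    simp
  have hsolv : Group.IsSolvable (T : Subgroup G) ∨ Group.IsSolvable (Dg T a) := by
    left
    have : Fact (Nat.Prime 2) := ⟨Nat.prime_two⟩
    have : Group.IsNilpotent (T : Subgroup G) := T.isPGroup'.isNilpotent
    infer_instance
  obtain ⟨n, hn, hconj⟩ := Cfsg.Agent.Lib.Lead.sz_conj (T : Subgroup G) (Dg T a) (Dg T b) hHN hK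
    (by rw [hca, hcb]) hcop hsolv
  refine ⟨n, hn, ?_⟩
  by_contra hcon
  have hnH : n ∈ HN T := Subgroup.le_normalizer hn
  have hna : n * a ∉ HN T := fun h => ha (by
    have e : a = n⁻¹ * (n * a) := by group
    rw [e]; exact (HN T).mul_mem ((HN T).inv_mem hnH) h)
  have hbna : b⁻¹ * (n * a) ∉ HN T := fun h => hcon (by
    have e : (n * a)⁻¹ * b = (b⁻¹ * (n * a))⁻¹ := by group
    rw [e]; exact (HN T).inv_mem h)
  apply fix_Dg hC T hT hnn hq hb hna hbna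
  intro d hd
  rw [← hconj, Cfsg.Agent.Lib.Lead.mem_conj_smul] at hd
  have e : (n * a)⁻¹ * d * (n * a) = a⁻¹ * (n⁻¹ * d * n) * a := by group
  rw [e]; exact ((mem_Dg T).mp hd).2

theorem eq_one_of_fix3 {u c₀ g : G} (hu : u ∉ HN T) (hc₀ : c₀ ∈ (T : Subgroup G)) (hc₀1 : c₀ ≠ 1)
    (h1 : g ∈ HN T) (h2 : u⁻¹ * g * u ∈ HN T) (h3 : (c₀ * u)⁻¹ * g * (c₀ * u) ∈ HN T) : g = 1 := by
  have hgD : g ∈ Dg T u := (mem_Dg T).mpr ⟨h1, h2⟩
  have hc₀H : c₀ ∈ HN T := Subgroup.le_normalizer hc₀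
  have hg' : c₀⁻¹ * g * c₀⁻¹⁻¹ ∈ Dg T u := by
    rw [inv_inv, mem_Dg]
    refine ⟨(HN T).mul_mem ((HN T).mul_mem ((HN T).inv_mem hc₀H) h1) hc₀H, ?_⟩
    have e : u⁻¹ * (c₀⁻¹ * g * c₀) * u = (c₀ * u)⁻¹ * g * (c₀ * u) := by group
    rw [e]; exact h3
  have hcomm := comm_T_Dg hC T hT hnn hu ((T : Subgroup G).inv_mem hc₀) hgD hg'
  rw [inv_inv] at hcomm
  have hc2 : orderOf c₀ = 2 := order_two_of hc₀1 (sq_eq_one_of_mem hC T hT hc₀)
  have hcent := cent_eq hC T hT hc2 hc₀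
  apply eq_one_of_mem_T_of_mem_Dg hC T hT hnn hu _ hgD
  rw [← hcent, mem_cent]
  calc g * c₀ = c₀ * (c₀⁻¹ * g * c₀) := by group
    _ = c₀ * g := by rw [hcomm]

theorem mk_ne_one_iff {a : G} : (QuotientGroup.mk a : G ⧸ HN T) ≠ QuotientGroup.mk 1 ↔ a ∉ HN T := by
  rw [ne_eq, QuotientGroup.eq, mul_one, inv_mem_iff]

/-- `T` is regular on the cosets other than `H`. -/
theorem T_regular (hq : 2 < Nat.card (T : Subgroup G)) (x y : G ⧸ HN T)
    (hx : x ≠ QuotientGroup.mk 1) (hy : y ≠ QuotientGroup.mk 1) :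
    ∃! t : G, t ∈ T ∧ t • x = y := by
  have hSE := stronglyEmbedded hC T hT hnn
  induction x using QuotientGroup.induction_on with
  | H a =>
  induction y using QuotientGroup.induction_on with
  | H b =>
  have ha : a ∉ HN T := (mk_ne_one_iff hC T hT hnn).mp hx
  have hb : b ∉ HN T := (mk_ne_one_iff hC T hT hnn).mp hy
  obtain ⟨c, hc, hcab⟩ := T_trans hC T hT hnn hq ha hb
  refine ⟨c, ⟨hc, ?_⟩, ?_⟩
  · rw [MulAction.Quotient.smul_mk, smul_eq_mul, QuotientGroup.eq]; exact hcab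
  · rintro t ⟨ht, hta⟩
    have ht' : t ∈ (T : Subgroup G) := ht
    rw [MulAction.Quotient.smul_mk, smul_eq_mul, QuotientGroup.eq] at hta
    have hta' : (t * a)⁻¹ * b ∈ HN T := hta
    have hk : a⁻¹ * (t⁻¹ * c) * a ∈ HN T := by
      have e : a⁻¹ * (t⁻¹ * c) * a = ((t * a)⁻¹ * b) * ((c * a)⁻¹ * b)⁻¹ := by group
      rw [e]; exact (HN T).mul_mem hta' ((HN T).inv_mem hcab)
    have hkT : t⁻¹ * c ∈ (T : Subgroup G) := (T : Subgroup G).mul_mem ((T : Subgroup G).inv_mem ht') hc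
    by_contra hne
    have hk1 : t⁻¹ * c ≠ 1 := by
      intro h
      apply hne
      calc t = t * (t⁻¹ * c) := by rw [h, mul_one]
        _ = c := by group
    have hk2 : orderOf (t⁻¹ * c) = 2 := order_two_of hk1 (sq_eq_one_of_mem hC T hT hkT)
    exact not_mem_of_invol hSE ha hk2 (Subgroup.le_normalizer hkT) hk

theorem normal_form (hq : 2 < Nat.card (T : Subgroup G)) {u c₀ : G} (hu2 : orderOf u = 2)
    (hu : u ∉ HN T) (hc₀ : c₀ ∈ (T : Subgroup G)) (hc₀1 : c₀ ≠ 1)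
    (x₁ x₂ x₃ : G ⧸ HN T) (h12 : x₁ ≠ x₂) (h13 : x₁ ≠ x₃) (h23 : x₂ ≠ x₃) :
    ∃ g : G, g • x₁ = QuotientGroup.mk 1 ∧ g • x₂ = QuotientGroup.mk u ∧
      g • x₃ = QuotientGroup.mk (c₀ * u) := by
  have hSE := stronglyEmbedded hC T hT hnn
  induction x₁ using QuotientGroup.induction_on with
  | H a =>
  have e1 : a⁻¹ • (QuotientGroup.mk a : G ⧸ HN T) = QuotientGroup.mk 1 := by
    rw [MulAction.Quotient.smul_mk, smul_eq_mul, inv_mul_cancel]
  have hy2 : a⁻¹ • x₂ ≠ QuotientGroup.mk 1 := by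
    rw [← e1]; intro h; exact h12 (smul_left_cancel _ h).symm
  have hy3 : a⁻¹ • x₃ ≠ QuotientGroup.mk 1 := by
    rw [← e1]; intro h; exact h13 (smul_left_cancel _ h).symm
  have hmu : (QuotientGroup.mk u : G ⧸ HN T) ≠ QuotientGroup.mk 1 :=
    (mk_ne_one_iff hC T hT hnn).mpr hu
  obtain ⟨t, ⟨htT, ht⟩, -⟩ := T_regular hC T hT hnn hq (a⁻¹ • x₂) (QuotientGroup.mk u) hy2 hmu
  have htT' : t ∈ (T : Subgroup G) := htT
  have htH : t ∈ HN T := Subgroup.le_normalizer htT'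
  have et : t • (QuotientGroup.mk 1 : G ⧸ HN T) = QuotientGroup.mk 1 := by
    rw [MulAction.Quotient.smul_mk, smul_eq_mul, QuotientGroup.eq, mul_one, mul_one]
    exact (HN T).inv_mem htH
  have hz3 : t • a⁻¹ • x₃ ≠ QuotientGroup.mk 1 := by
    rw [← et]; intro h; exact hy3 (smul_left_cancel _ h)
  have hz3u : t • a⁻¹ • x₃ ≠ QuotientGroup.mk u := by
    rw [← ht]; intro h
    exact h23 (smul_left_cancel _ (smul_left_cancel _ h)).symm
  obtain ⟨c₁, ⟨hc₁T, hc₁⟩, -⟩ := T_regular hC T hT hnn hq (QuotientGroup.mk u) (t • a⁻¹ • x₃) hmu hz3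
  have hc₁T' : c₁ ∈ (T : Subgroup G) := hc₁T
  have hc₁1 : c₁ ≠ 1 := by
    intro h
    rw [h, one_smul] at hc₁
    exact hz3u hc₁.symm
  have hc₁2 : orderOf c₁ = 2 := order_two_of hc₁1 (sq_eq_one_of_mem hC T hT hc₁T')
  have hc₀2 : orderOf c₀ = 2 := order_two_of hc₀1 (sq_eq_one_of_mem hC T hT hc₀)
  obtain ⟨d, hd, hdc⟩ := D_trans hSE hu2 hu hc₁2 (Subgroup.le_normalizer hc₁T') hc₀2
    (Subgroup.le_normalizer hc₀)
  have hdH : d ∈ HN T := (Subgroup.mem_inf.mp hd).1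
  have hdu : u⁻¹ * d * u ∈ HN T := (mem_map_conj _ u d).mp (Subgroup.mem_inf.mp hd).2
  refine ⟨d * t * a⁻¹, ?_, ?_, ?_⟩
  · rw [mul_smul, mul_smul, e1, et, MulAction.Quotient.smul_mk, smul_eq_mul, QuotientGroup.eq, mul_one, mul_one]
    exact (HN T).inv_mem hdH
  · rw [mul_smul, mul_smul, ht, MulAction.Quotient.smul_mk, smul_eq_mul, QuotientGroup.eq]
    have e : (d * u)⁻¹ * u = (u⁻¹ * d * u)⁻¹ := by group
    rw [e]; exact (HN T).inv_mem hdu
  · rw [mul_smul, mul_smul, ← hc₁, MulAction.Quotient.smul_mk, smul_eq_mul, MulAction.Quotient.smul_mk,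
      smul_eq_mul, QuotientGroup.eq, ← hdc]
    have e : (d * (c₁ * u))⁻¹ * (d * c₁ * d⁻¹ * u) = (u⁻¹ * d * u)⁻¹ := by group
    rw [e]; exact (HN T).inv_mem hdu

end Cfsg.Agent.Lib.Helper2.BSW
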