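import Mathlib

set_option autoImplicit false

namespace Cfsg.Agent.Lib.Helper2.Class3

open scoped commutatorElement

variable {G : Type*} [Group G]

/-- `u * v = v * u * w`, `w` central: `u ^ k * v = v * u ^ k * w ^ k`. -/
theorem pow_left (u v w : G) (h : u * v = v * u * w) (hw : ∀ g : G, Commute w g) (k : ℕ) :
    u ^ k * v = v * u ^ k * w ^ k := by
  induction k with
  | zero => simp
  | succ k ih =>
    have hwk : ∀ g : G, Commute (w ^ k) g := fun g => (hw g).pow_left k
    calc u ^ (k + 1) * v = u * (u ^ k * v) := by rw [pow_succ', mul_assoc]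
      _ = u * (v * u ^ k * w ^ k) := by rw [ih]
      _ = (u * v) * u ^ k * w ^ k := by simp only [mul_assoc]
      _ = (v * u * w) * u ^ k * w ^ k := by rw [h]
      _ = v * u * (w * (u ^ k * w ^ k)) := by simp only [mul_assoc]
      _ = v * u * ((u ^ k * w ^ k) * w) := by rw [(hw _).eq]
      _ = v * (u * u ^ k) * (w ^ k * w) := by simp only [mul_assoc]
      _ = v * u ^ (k + 1) * w ^ (k + 1) := by rw [← pow_succ', ← pow_succ]

/-- `u * v = v * u * w`, `w` central: `u * v ^ n = v ^ n * u * w ^ n`. -/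
theorem pow_right (u v w : G) (h : u * v = v * u * w) (hw : ∀ g : G, Commute w g) (n : ℕ) :
    u * v ^ n = v ^ n * u * w ^ n := by
  induction n with
  | zero => simp
  | succ n ih =>
    calc u * v ^ (n + 1) = (u * v ^ n) * v := by rw [pow_succ, mul_assoc]
      _ = (v ^ n * u * w ^ n) * v := by rw [ih]
      _ = v ^ n * u * (w ^ n * v) := by simp only [mul_assoc]
      _ = v ^ n * u * (v * w ^ n) := by rw [((hw v).pow_left n).eq]
      _ = v ^ n * (u * v) * w ^ n := by simp only [mul_assoc]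
      _ = v ^ n * (v * u * w) * w ^ n := by rw [h]
      _ = (v ^ n * v) * u * (w * w ^ n) := by simp only [mul_assoc]
      _ = v ^ (n + 1) * u * w ^ (n + 1) := by rw [← pow_succ, ← pow_succ']

section
variable (x y c d e : G) (h1 : y * x = x * y * c) (h2 : c * x = x * c * d)
  (h3 : c * y = y * c * e) (hd : ∀ g : G, Commute d g) (he : ∀ g : G, Commute e g)

include h1 h2 hd in
/-- `y * x ^ n = x ^ n * y * c ^ n * d ^ (n choose 2)` -/
theorem y_xpow (n : ℕ) : y * x ^ n = x ^ n * y * c ^ n * d ^ (n.choose 2) := by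
  induction n with
  | zero => simp
  | succ n ih =>
    have hL1 := pow_left c x d h2 hd n
    have hch : (n + 1).choose 2 = n + n.choose 2 := by
      rw [Nat.choose_succ_succ, Nat.choose_one_right]
    calc y * x ^ (n + 1) = (y * x ^ n) * x := by rw [pow_succ, mul_assoc]
      _ = (x ^ n * y * c ^ n * d ^ (n.choose 2)) * x := by rw [ih]
      _ = x ^ n * y * c ^ n * (d ^ (n.choose 2) * x) := by simp only [mul_assoc]
      _ = x ^ n * y * c ^ n * (x * d ^ (n.choose 2)) := by rw [((hd x).pow_left _).eq]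
      _ = x ^ n * y * (c ^ n * x) * d ^ (n.choose 2) := by simp only [mul_assoc]
      _ = x ^ n * y * (x * c ^ n * d ^ n) * d ^ (n.choose 2) := by rw [hL1]
      _ = x ^ n * (y * x) * c ^ n * (d ^ n * d ^ (n.choose 2)) := by simp only [mul_assoc]
      _ = x ^ n * (x * y * c) * c ^ n * d ^ (n + n.choose 2) := by rw [h1, ← pow_add]
      _ = (x ^ n * x) * y * (c * c ^ n) * d ^ (n + n.choose 2) := by simp only [mul_assoc]
      _ = x ^ (n + 1) * y * c ^ (n + 1) * d ^ ((n + 1).choose 2) := by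
        rw [← pow_succ, ← pow_succ', hch]

include h1 h3 he in
/-- `y ^ n * x = x * y ^ n * c ^ n * e ^ (n choose 2)` -/
theorem ypow_x (n : ℕ) : y ^ n * x = x * y ^ n * c ^ n * e ^ (n.choose 2) := by
  induction n with
  | zero => simp
  | succ n ih =>
    have hL2 := pow_left c y e h3 he n
    have hch : (n + 1).choose 2 = n + n.choose 2 := by
      rw [Nat.choose_succ_succ, Nat.choose_one_right]
    calc y ^ (n + 1) * x = y * (y ^ n * x) := by rw [pow_succ', mul_assoc]
      _ = y * (x * y ^ n * c ^ n * e ^ (n.choose 2)) := by rw [ih]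
      _ = (y * x) * y ^ n * c ^ n * e ^ (n.choose 2) := by simp only [mul_assoc]
      _ = (x * y * c) * y ^ n * c ^ n * e ^ (n.choose 2) := by rw [h1]
      _ = x * y * (c * y ^ n) * c ^ n * e ^ (n.choose 2) := by simp only [mul_assoc]
      _ = x * y * (y ^ n * c * e ^ n) * c ^ n * e ^ (n.choose 2) := by
        rw [pow_right c y e h3 he n]
      _ = x * (y * y ^ n) * c * (e ^ n * (c ^ n * e ^ (n.choose 2))) := by simp only [mul_assoc]
      _ = x * (y * y ^ n) * c * ((c ^ n * e ^ (n.choose 2)) * e ^ n) := by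
        rw [((he _).pow_left n).eq]
      _ = x * (y * y ^ n) * (c * c ^ n) * (e ^ (n.choose 2) * e ^ n) := by simp only [mul_assoc]
      _ = x * y ^ (n + 1) * c ^ (n + 1) * e ^ ((n + 1).choose 2) := by
        rw [← pow_succ', ← pow_succ', ← pow_add, hch, Nat.add_comm (n.choose 2) n]

include h1 h2 h3 hd he in
/-- the class-three collection formula -/
theorem mul_pow_formula (n : ℕ) :
    (x * y) ^ n = x ^ n * y ^ n * c ^ (n.choose 2) * d ^ (n.choose 3) *
      e ^ (n.choose 3 + (n + 1).choose 3) := by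
  induction n with
  | zero => simp [Nat.choose_eq_zero_of_lt]
  | succ n ih =>
    have hch2 : (n + 1).choose 2 = n + n.choose 2 := by
      rw [Nat.choose_succ_succ, Nat.choose_one_right]
    have hch3 : (n + 1).choose 3 = n.choose 2 + n.choose 3 := Nat.choose_succ_succ n 2
    have hch3' : (n + 1 + 1).choose 3 = (n + 1).choose 2 + (n + 1).choose 3 :=
      Nat.choose_succ_succ (n + 1) 2
    obtain ⟨a, ha⟩ : ∃ a, a = n.choose 2 := ⟨_, rfl⟩
    obtain ⟨α, hα⟩ : ∃ α, α = n.choose 3 := ⟨_, rfl⟩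
    obtain ⟨β, hβ⟩ : ∃ β, β = n.choose 3 + (n + 1).choose 3 := ⟨_, rfl⟩
    rw [← hβ, ← ha, ← hα] at ih
    have hL1 := pow_left c x d h2 hd a
    have hL2 := pow_left c y e h3 he (n + a)
    have hL3 := ypow_x x y c e h1 h3 he n
    rw [← ha] at hL3
    have hD : ∀ (k : ℕ) (g : G), Commute (d ^ k) g := fun k g => (hd g).pow_left k
    have hE : ∀ (k : ℕ) (g : G), Commute (e ^ k) g := fun k g => (he g).pow_left k
    have hfin : e ^ (n + a) * e ^ β * d ^ α * d ^ a * e ^ a =
        d ^ ((n + 1).choose 3) * e ^ ((n + 1).choose 3 + (n + 1 + 1).choose 3) := by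
      have hcomm : e ^ (n + a + β) * d ^ (α + a) = d ^ (α + a) * e ^ (n + a + β) :=
        ((he d).pow_pow _ _).eq
      calc e ^ (n + a) * e ^ β * d ^ α * d ^ a * e ^ a
          = (e ^ (n + a) * e ^ β) * (d ^ α * d ^ a) * e ^ a := by simp only [mul_assoc]
        _ = e ^ (n + a + β) * d ^ (α + a) * e ^ a := by rw [← pow_add, ← pow_add]
        _ = d ^ (α + a) * e ^ (n + a + β) * e ^ a := by rw [hcomm]
        _ = d ^ (α + a) * e ^ (n + a + β + a) := by rw [mul_assoc, ← pow_add]
        _ = d ^ ((n + 1).choose 3) * e ^ ((n + 1).choose 3 + (n + 1 + 1).choose 3) := by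
          have e1 : α + a = (n + 1).choose 3 := by omega
          have e2 : n + a + β + a = (n + 1).choose 3 + (n + 1 + 1).choose 3 := by omega
          rw [e1, e2]
    calc (x * y) ^ (n + 1) = (x * y) ^ n * (x * y) := pow_succ _ _
      _ = x ^ n * y ^ n * c ^ a * d ^ α * e ^ β * (x * y) := by rw [ih]
      _ = x ^ n * y ^ n * c ^ a * (d ^ α * (e ^ β * (x * y))) := by simp only [mul_assoc]
      _ = x ^ n * y ^ n * c ^ a * ((x * y) * e ^ β * d ^ α) := by
        rw [(hE β (x * y)).eq, (hD α _).eq]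
      _ = x ^ n * y ^ n * (c ^ a * x) * y * e ^ β * d ^ α := by simp only [mul_assoc]
      _ = x ^ n * y ^ n * (x * c ^ a * d ^ a) * y * e ^ β * d ^ α := by rw [hL1]
      _ = x ^ n * (y ^ n * x) * c ^ a * (d ^ a * (y * e ^ β * d ^ α)) := by
        simp only [mul_assoc]
      _ = x ^ n * (x * y ^ n * c ^ n * e ^ a) * c ^ a * ((y * e ^ β * d ^ α) * d ^ a) := by
        rw [hL3, (hD a _).eq]
      _ = x ^ n * x * y ^ n * c ^ n * (e ^ a * (c ^ a * (y * e ^ β * d ^ α * d ^ a))) := by
        simp only [mul_assoc]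
      _ = x ^ n * x * y ^ n * c ^ n * ((c ^ a * (y * e ^ β * d ^ α * d ^ a)) * e ^ a) := by
        rw [(hE a _).eq]
      _ = x ^ n * x * y ^ n * (c ^ n * c ^ a * y) * (e ^ β * d ^ α * d ^ a * e ^ a) := by
        simp only [mul_assoc]
      _ = x ^ n * x * y ^ n * (c ^ (n + a) * y) * (e ^ β * d ^ α * d ^ a * e ^ a) := by
        rw [← pow_add]
      _ = x ^ n * x * y ^ n * (y * c ^ (n + a) * e ^ (n + a)) *
            (e ^ β * d ^ α * d ^ a * e ^ a) := by rw [hL2]
      _ = (x ^ n * x) * (y ^ n * y) * c ^ (n + a) *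
            (e ^ (n + a) * e ^ β * d ^ α * d ^ a * e ^ a) := by simp only [mul_assoc]
      _ = x ^ (n + 1) * y ^ (n + 1) * c ^ ((n + 1).choose 2) *
            (d ^ ((n + 1).choose 3) * e ^ ((n + 1).choose 3 + (n + 1 + 1).choose 3)) := by
        rw [← pow_succ, ← pow_succ, hfin, hch2, ha]
      _ = x ^ (n + 1) * y ^ (n + 1) * c ^ ((n + 1).choose 2) * d ^ ((n + 1).choose 3) *
            e ^ ((n + 1).choose 3 + (n + 1 + 1).choose 3) := by simp only [mul_assoc]

end

/-- closure of the elements of order dividing `p` has exponent `p` as soon as that set is closed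
under products -/
theorem closure_pow_eq_one (p : ℕ) (hmul : ∀ a b : G, a ^ p = 1 → b ^ p = 1 → (a * b) ^ p = 1)
    (g : G) (hg : g ∈ Subgroup.closure {x : G | x ^ p = 1}) : g ^ p = 1 := by
  induction hg using Subgroup.closure_induction with
  | mem x hx => exact hx
  | one => exact one_pow p
  | mul a b _ _ ha hb => exact hmul a b ha hb
  | inv a _ ha => rw [inv_pow, ha, inv_one]

theorem pow_eq_one_of_dvd (p : ℕ) (z : G) (hz : z ^ p = 1) (m : ℕ) (hm : p ∣ m) : z ^ m = 1 := by
  obtain ⟨k, rfl⟩ := hm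
  rw [pow_mul, hz, one_pow]

/-- in a group of class at most three, the commutator data of two elements -/
theorem setup (hcl : ⁅⁅commutator G, (⊤ : Subgroup G)⁆, (⊤ : Subgroup G)⁆ = ⊥) (x y : G) :
    ∃ c d e : G, c ∈ commutator G ∧ d ∈ ⁅commutator G, (⊤ : Subgroup G)⁆ ∧
      e ∈ ⁅commutator G, (⊤ : Subgroup G)⁆ ∧
      y * x = x * y * c ∧ c * x = x * c * d ∧ c * y = y * c * e ∧
      (∀ g : G, Commute d g) ∧ (∀ g : G, Commute e g) := by
  have hc : (x * y)⁻¹ * (y * x) ∈ commutator G := by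
    have h0 : (x * y)⁻¹ * (y * x) = ⁅y⁻¹, x⁻¹⁆ := by rw [commutatorElement_def]; group
    rw [h0, commutator_def]
    exact Subgroup.commutator_mem_commutator (Subgroup.mem_top _) (Subgroup.mem_top _)
  obtain ⟨c, hcdef⟩ : ∃ c, c = (x * y)⁻¹ * (y * x) := ⟨_, rfl⟩
  rw [← hcdef] at hc
  have hd : (x * c)⁻¹ * (c * x) ∈ ⁅commutator G, (⊤ : Subgroup G)⁆ := by
    have h0 : (x * c)⁻¹ * (c * x) = ⁅c⁻¹, x⁻¹⁆ := by rw [commutatorElement_def]; group
    rw [h0]
    exact Subgroup.commutator_mem_commutator (Subgroup.inv_mem _ hc) (Subgroup.mem_top _)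
  have he : (y * c)⁻¹ * (c * y) ∈ ⁅commutator G, (⊤ : Subgroup G)⁆ := by
    have h0 : (y * c)⁻¹ * (c * y) = ⁅c⁻¹, y⁻¹⁆ := by rw [commutatorElement_def]; group
    rw [h0]
    exact Subgroup.commutator_mem_commutator (Subgroup.inv_mem _ hc) (Subgroup.mem_top _)
  have hcent : ∀ z ∈ ⁅commutator G, (⊤ : Subgroup G)⁆, ∀ g : G, Commute z g := by
    intro z hz g
    have h1 : ⁅z, g⁆ ∈ ⁅⁅commutator G, (⊤ : Subgroup G)⁆, (⊤ : Subgroup G)⁆ :=
      Subgroup.commutator_mem_commutator hz (Subgroup.mem_top g)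
    rw [hcl, Subgroup.mem_bot] at h1
    exact commutatorElement_eq_one_iff_commute.mp h1
  refine ⟨c, (x * c)⁻¹ * (c * x), (y * c)⁻¹ * (c * y), hc, hd, he, ?_, ?_, ?_,
    hcent _ hd, hcent _ he⟩
  · rw [hcdef]; group
  · group
  · group

/-- consequences of `x ^ p = 1` and `y ^ p = 1` for the commutator data -/
theorem orders (p : ℕ) (x y c d e : G) (h1 : y * x = x * y * c) (h2 : c * x = x * c * d)
    (h3 : c * y = y * c * e) (hd : ∀ g : G, Commute d g) (he : ∀ g : G, Commute e g) :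
    (x ^ p = 1 → d ^ p = 1 ∧ c ^ p * d ^ (p.choose 2) = 1) ∧ (y ^ p = 1 → e ^ p = 1) := by
  constructor
  · intro hx
    constructor
    · have h := pow_right c x d h2 hd p
      rw [hx, mul_one, one_mul] at h
      have h' : c * 1 = c * d ^ p := by rw [mul_one]; exact h
      exact (mul_left_cancel h').symm
    · have h := y_xpow x y c d h1 h2 hd p
      rw [hx, mul_one, one_mul, mul_assoc] at h
      have h' : y * 1 = y * (c ^ p * d ^ (p.choose 2)) := by rw [mul_one]; exact h
      exact (mul_left_cancel h').symm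
  · intro hy
    have h := pow_right c y e h3 he p
    rw [hy, mul_one, one_mul] at h
    have h' : c * 1 = c * e ^ p := by rw [mul_one]; exact h
    exact (mul_left_cancel h').symm

/-- for `p > 3`, in a group of class at most three, the elements of order dividing `p` generate
a subgroup of exponent dividing `p` -/
theorem omega_exp (p : ℕ) (hp : p.Prime) (hp3 : 3 < p)
    (hcl : ⁅⁅commutator G, (⊤ : Subgroup G)⁆, (⊤ : Subgroup G)⁆ = ⊥)
    (g : G) (hg : g ∈ Subgroup.closure {x : G | x ^ p = 1}) : g ^ p = 1 := by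
  apply closure_pow_eq_one p _ g hg
  intro a b ha hb
  obtain ⟨c, d, e, -, -, -, h1, h2, h3, hd, he⟩ := setup hcl a b
  obtain ⟨hA, hB⟩ := orders p a b c d e h1 h2 h3 hd he
  obtain ⟨hdp, hcd⟩ := hA ha
  have hep := hB hb
  have hdvd2 : p ∣ p.choose 2 := hp.dvd_choose_self (by norm_num) (by omega)
  have hdvd3 : p ∣ p.choose 3 := hp.dvd_choose_self (by norm_num) hp3
  have hdvd3' : p ∣ (p + 1).choose 3 := by
    rw [Nat.choose_succ_succ p 2]; exact dvd_add hdvd2 hdvd3
  have hcp : c ^ p = 1 := by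
    rw [pow_eq_one_of_dvd p d hdp _ hdvd2, mul_one] at hcd
    exact hcd
  rw [mul_pow_formula a b c d e h1 h2 h3 hd he p, ha, hb,
    pow_eq_one_of_dvd p c hcp _ hdvd2, pow_eq_one_of_dvd p d hdp _ hdvd3,
    pow_eq_one_of_dvd p e hep _ (dvd_add hdvd3 hdvd3')]
  simp

end Cfsg.Agent.Lib.Helper2.Class3
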