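import Mathlib
import Cfsg.Agent.Lib.Helper2.Fpf

/-!
# Groups of exponent dividing 6: an `A₄`-lemma

If the alternating group `A₄ = ⟨a, b, c⟩ ⋊ ⟨s⟩` acts on a finite solvable group `P` of odd order so
that all four classes of elements of order three act as splitting automorphisms, then the four-group
acts trivially.
-/

namespace Cfsg.Agent.Lib.Helper2.Exp6

open Cfsg.Agent.Lib.Helper2

universe u

theorem map_mem_commutator {P : Type*} [Group P] (f : P →* P) {x : P} (hx : x ∈ commutator P) :
    f x ∈ commutator P := by
  have h1 : f x ∈ (commutator P).map f := ⟨x, hx, rfl⟩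
  rw [commutator_def, Subgroup.map_commutator] at h1
  rw [commutator_def]
  exact Subgroup.commutator_mono le_top le_top h1

theorem eq_one_of_pow_four {A : Type*} [Group A] [Finite A] (hodd : Odd (Nat.card A)) (g : A)
    (hg : g ^ 4 = 1) : g = 1 := by
  have h1 : orderOf g ∣ 4 := orderOf_dvd_of_pow_eq_one hg
  have h2 : orderOf g ∣ Nat.card A := orderOf_dvd_natCard g
  have h3 : Nat.Coprime 4 (Nat.card A) := by
    have : Nat.Coprime 2 (Nat.card A) := Nat.coprime_two_left.mpr hodd
    exact Nat.Coprime.pow_left 2 this
  have h4 : orderOf g = 1 := Nat.eq_one_of_dvd_coprimes h3 h1 h2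
  exact orderOf_eq_one_iff.mp h4

theorem eq_one_of_sq {A : Type*} [Group A] [Finite A] (hodd : Odd (Nat.card A)) (g : A)
    (hg : g ^ 2 = 1) : g = 1 := by
  apply eq_one_of_pow_four hodd
  have : g ^ 4 = (g ^ 2) ^ 2 := by rw [← pow_mul]
  rw [this, hg, one_pow]

theorem a4_trivial : ∀ (n : ℕ) (P : Type u) [Group P] [Finite P] [Group.IsSolvable P], Nat.card P = n →
    Odd (Nat.card P) → ∀ a b c s : P →* P,
    (∀ x, a (a x) = x) → (∀ x, a (b x) = c x) → (∀ x, a (c x) = b x) →
    (∀ x, s x * s (s x) * x = 1) →
    (∀ x, a (s x) * c (s (s x)) * x = 1) →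
    (∀ x, b (s x) * a (s (s x)) * x = 1) →
    (∀ x, c (s x) * b (s (s x)) * x = 1) →
    ∀ x, a x = x := by
  intro n
  induction n using Nat.strong_induction_on with
  | _ n ih =>
    intro P _ _ _ hcard hodd a b c s haa hab hac e1 e2 e3 e4 x
    rcases subsingleton_or_nontrivial P with hsub | hnt
    · exact Subsingleton.elim _ _
    · have hD : commutator P < ⊤ := Group.IsSolvable.commutator_lt_top_of_nontrivial P
      obtain ⟨D, hDdef⟩ : ∃ D : Subgroup P, D = commutator P := ⟨_, rfl⟩
      rw [← hDdef] at hD
      have hDa : ∀ y ∈ D, a y ∈ D := fun y hy => by rw [hDdef] at hy ⊢; exact map_mem_commutator a hy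
      have hDb : ∀ y ∈ D, b y ∈ D := fun y hy => by rw [hDdef] at hy ⊢; exact map_mem_commutator b hy
      have hDc : ∀ y ∈ D, c y ∈ D := fun y hy => by rw [hDdef] at hy ⊢; exact map_mem_commutator c hy
      have hDs : ∀ y ∈ D, s y ∈ D := fun y hy => by rw [hDdef] at hy ⊢; exact map_mem_commutator s hy
      have hcardD : Nat.card D < n := by
        rw [← hcard]
        have h1 : Nat.card D * D.index = Nat.card P := Subgroup.card_mul_index D
        have h2 : D.index ≠ 1 := fun h => hD.ne (Subgroup.index_eq_one.mp h)
        have h3 : D.index ≠ 0 := Subgroup.index_ne_zero_of_finite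
        have h4 : 0 < Nat.card D := Nat.card_pos
        nlinarith [Nat.lt_of_le_of_ne (Nat.one_le_iff_ne_zero.mpr h3) (Ne.symm h2)]
      have hoddD : Odd (Nat.card D) := Odd.of_dvd_nat hodd (Subgroup.card_subgroup_dvd_card D)
      have hD' := ih (Nat.card D) hcardD D rfl hoddD (Fpf.res a D hDa) (Fpf.res b D hDb)
        (Fpf.res c D hDc) (Fpf.res s D hDs)
        (fun y => Subtype.ext (haa y)) (fun y => Subtype.ext (hab y)) (fun y => Subtype.ext (hac y))
        (fun y => Subtype.ext (e1 y)) (fun y => Subtype.ext (e2 y)) (fun y => Subtype.ext (e3 y))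
        (fun y => Subtype.ext (e4 y))
      have hDfix : ∀ y ∈ D, a y = y := fun y hy => congrArg Subtype.val (hD' ⟨y, hy⟩)
      -- the abelianisation
      have hoddA : Odd (Nat.card (Abelianization P)) := by
        have h1 : Nat.card (Abelianization P) = (commutator P).index := rfl
        rw [h1]
        exact Odd.of_dvd_nat hodd (Subgroup.index_dvd_card _)
      obtain ⟨Nh, hNh⟩ : ∃ Nh : P →* Abelianization P, ∀ y, Nh y =
          Abelianization.of y * Abelianization.of (a y) * Abelianization.of (b y) *
            Abelianization.of (c y) :=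
        ⟨Abelianization.of * Abelianization.of.comp a * Abelianization.of.comp b *
          Abelianization.of.comp c, fun y => rfl⟩
      have h1 : Nh (s x) * Nh (s (s x)) * Nh x = 1 := by
        rw [← map_mul, ← map_mul, e1 x, map_one]
      have h2 : Nh (s x) * Nh (s (s x)) * (Abelianization.of x) ^ 4 = 1 := by
        have f1 := congrArg Abelianization.of (e1 x)
        have f2 := congrArg Abelianization.of (e2 x)
        have f3 := congrArg Abelianization.of (e3 x)
        have f4 := congrArg Abelianization.of (e4 x)
        simp only [map_mul, map_one] at f1 f2 f3 f4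
        rw [hNh, hNh]
        have : Abelianization.of (s x) * Abelianization.of (a (s x)) * Abelianization.of (b (s x)) *
            Abelianization.of (c (s x)) * (Abelianization.of (s (s x)) *
            Abelianization.of (a (s (s x))) * Abelianization.of (b (s (s x))) *
            Abelianization.of (c (s (s x)))) * (Abelianization.of x) ^ 4 =
            (Abelianization.of (s x) * Abelianization.of (s (s x)) * Abelianization.of x) *
            (Abelianization.of (a (s x)) * Abelianization.of (c (s (s x))) * Abelianization.of x) *
            (Abelianization.of (b (s x)) * Abelianization.of (a (s (s x))) * Abelianization.of x) *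
            (Abelianization.of (c (s x)) * Abelianization.of (b (s (s x))) * Abelianization.of x) := by
          simp only [pow_succ, pow_zero, one_mul]
          ac_rfl
        rw [this, f1, f2, f3, f4]
        simp
      have h3 : (Abelianization.of x) ^ 4 = Nh x := by
        have : Nh (s x) * Nh (s (s x)) * (Abelianization.of x) ^ 4 =
            Nh (s x) * Nh (s (s x)) * Nh x := by rw [h1, h2]
        exact mul_left_cancel this
      have h4 : (Abelianization.of (a x)) ^ 4 = (Abelianization.of x) ^ 4 := by
        have := congrArg (Abelianization.map a) h3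
        rw [map_pow, Abelianization.map_of, hNh] at this
        simp only [map_mul, Abelianization.map_of] at this
        rw [haa, hab, hac] at this
        rw [this, h3, hNh]
        ac_rfl
      have h5 : Abelianization.of (x⁻¹ * a x) = 1 := by
        apply eq_one_of_pow_four hoddA
        rw [map_mul, map_inv, mul_pow, inv_pow, h4]
        simp
      have h6 : x⁻¹ * a x ∈ D := by
        rw [hDdef, ← Abelianization.ker_of, MonoidHom.mem_ker]
        exact h5
      have h7 := hDfix _ h6
      rw [map_mul, map_inv, haa] at h7
      -- `(a x)⁻¹ * x = x⁻¹ * a x`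
      have h8 : (x⁻¹ * a x) ^ 2 = 1 := by
        have : (x⁻¹ * a x)⁻¹ = x⁻¹ * a x := by
          rw [mul_inv_rev, inv_inv]; exact h7
        rw [pow_two]
        nth_rewrite 1 [← this]
        exact inv_mul_cancel _
      have h9 := eq_one_of_sq hodd _ h8
      have : a x = x * (x⁻¹ * a x) := by group
      rw [this, h9, mul_one]

end Cfsg.Agent.Lib.Helper2.Exp6
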