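import Mathlib

/-!
Gaschütz's theorem via crossed homomorphisms: averaging a crossed homomorphism `U → K`
over `G ⧸ U`.
-/

set_option autoImplicit false

namespace Cfsg.Agent.Lib.Helper2.Gaschutz

open scoped IsMulCommutative Pointwise

variable {G : Type*} [Group G]

theorem conjNormal_self (K : Subgroup G) [K.Normal] [IsMulCommutative K] (k x : ↥K) :
    MulAut.conjNormal (k : G) x = x := by
  apply Subtype.ext
  rw [MulAut.conjNormal_apply]
  exact congrArg Subtype.val (mul_inv_cancel_comm k x)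

/-- the `K`-part with respect to a complement `A` of `K` in `K ⊔ A` -/
theorem exists_proj (K A : Subgroup G) [K.Normal] [IsMulCommutative K] (hAK : A ⊓ K = ⊥) :
    ∃ π : G → ↥K, (∀ u ∈ K ⊔ A, ((π u : G))⁻¹ * u ∈ A) ∧
      (∀ u : G, ∀ k : ↥K, (k : G)⁻¹ * u ∈ A → k = π u) ∧
      (∀ u ∈ K ⊔ A, ∀ v ∈ K ⊔ A, π (u * v) = π u * MulAut.conjNormal u (π v)) ∧
      (∀ k : ↥K, π (k : G) = k) := by
  classical
  have hex : ∀ u ∈ K ⊔ A, ∃ k : ↥K, (k : G)⁻¹ * u ∈ A := by
    intro u hu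
    have : u ∈ (K : Set G) * (A : Set G) := by
      rw [← Subgroup.normal_mul]; exact hu
    obtain ⟨k, hk, a, ha, rfl⟩ := Set.mem_mul.mp this
    exact ⟨⟨k, hk⟩, by simpa using ha⟩
  let π : G → ↥K := fun u => if h : ∃ k : ↥K, (k : G)⁻¹ * u ∈ A then h.choose else 1
  have hπ1 : ∀ u ∈ K ⊔ A, ((π u : G))⁻¹ * u ∈ A := by
    intro u hu
    have h := hex u hu
    simp only [π, dif_pos h]
    exact h.choose_spec
  have huniq : ∀ u : G, ∀ k : ↥K, (k : G)⁻¹ * u ∈ A → k = π u := by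
    intro u k hk
    have h : ∃ k : ↥K, (k : G)⁻¹ * u ∈ A := ⟨k, hk⟩
    have h2 : ((π u : G))⁻¹ * u ∈ A := by
      simp only [π, dif_pos h]
      exact h.choose_spec
    have h3 : (k : G)⁻¹ * (π u : G) ∈ A := by
      have := A.mul_mem hk (A.inv_mem h2)
      simpa [mul_assoc] using this
    have h4 : (k : G)⁻¹ * (π u : G) ∈ A ⊓ K := ⟨h3, K.mul_mem (K.inv_mem k.2) (π u).2⟩
    rw [hAK, Subgroup.mem_bot] at h4
    exact Subtype.ext (inv_mul_eq_one.mp h4)
  refine ⟨π, hπ1, huniq, ?_, ?_⟩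
  · intro u hu v hv
    symm
    apply huniq
    have ha := hπ1 u hu
    have hb := hπ1 v hv
    have hc : (u * ((π v : G))⁻¹ * u⁻¹) * ((π u : G))⁻¹
        = ((π u : G))⁻¹ * (u * ((π v : G))⁻¹ * u⁻¹) := by
      have h1 : u * ((π v : G))⁻¹ * u⁻¹ ∈ K := ‹K.Normal›.conj_mem _ (K.inv_mem (π v).2) u
      have := mul_comm (⟨_, h1⟩ : ↥K) (π u)⁻¹
      exact congrArg Subtype.val this
    have e : ((π u * MulAut.conjNormal u (π v) : ↥K) : G)⁻¹ * (u * v)
        = (((π u : G))⁻¹ * u) * (((π v : G))⁻¹ * v) := by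
      rw [Subgroup.coe_mul, MulAut.conjNormal_apply]
      calc ((π u : G) * (u * (π v : G) * u⁻¹))⁻¹ * (u * v)
          = (u * ((π v : G))⁻¹ * u⁻¹) * ((π u : G))⁻¹ * (u * v) := by group
        _ = ((π u : G))⁻¹ * (u * ((π v : G))⁻¹ * u⁻¹) * (u * v) := by rw [hc]
        _ = (((π u : G))⁻¹ * u) * (((π v : G))⁻¹ * v) := by group
    rw [e]
    exact A.mul_mem ha hb
  · intro k
    symm
    apply huniq
    rw [inv_mul_cancel]; exact A.one_mem

/-- a crossed homomorphism `G → K` restricting to the `n`-th power on `K` (with `n` prime to `|K|`)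
gives a complement. -/
theorem exists_complement_of_crossed [Finite G] (K : Subgroup G) [K.Normal] [IsMulCommutative K]
    (n : ℕ) (hcop : (Nat.card K).Coprime n) (φ : G → ↥K)
    (hφ : ∀ g h : G, φ (g * h) = φ g * MulAut.conjNormal g (φ h))
    (hφK : ∀ k : ↥K, φ (k : G) = k ^ n) :
    ∃ H : Subgroup G, K.IsComplement' H := by
  have h1 : φ 1 = 1 := by
    have := hφ 1 1
    rw [mul_one, map_one, MulAut.one_apply] at this
    exact left_eq_mul.mp this
  let H : Subgroup G :=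
    { carrier := {g | φ g = 1}
      mul_mem' := by
        intro a b ha hb
        show φ (a * b) = 1
        rw [hφ, show φ a = 1 from ha, show φ b = 1 from hb, map_one, one_mul]
      one_mem' := h1
      inv_mem' := by
        intro a ha
        show φ a⁻¹ = 1
        have := hφ a a⁻¹
        rw [mul_inv_cancel, h1, show φ a = 1 from ha, one_mul] at this
        exact (MulEquiv.map_eq_one_iff _).mp this.symm }
  have hH : ∀ g, g ∈ H ↔ φ g = 1 := fun g => Iff.rfl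
  refine ⟨H, Subgroup.isComplement'_of_disjoint_and_mul_eq_univ ?_ ?_⟩
  · rw [Subgroup.disjoint_def]
    intro x hxK hxH
    have h2 := hφK ⟨x, hxK⟩
    rw [(hH x).mp hxH] at h2
    have h3 : powCoprime hcop ⟨x, hxK⟩ = powCoprime hcop 1 := by
      rw [powCoprime_apply, powCoprime_apply, one_pow]; exact h2.symm
    exact congrArg Subtype.val ((powCoprime hcop).injective h3)
  · rw [Set.eq_univ_iff_forall]
    intro g
    obtain ⟨k, hk⟩ : ∃ k : ↥K, k ^ n = φ g :=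
      ⟨(powCoprime hcop).symm (φ g), (powCoprime hcop).apply_symm_apply (φ g)⟩
    refine Set.mem_mul.mpr ⟨(k : G), k.2, (k : G)⁻¹ * g, ?_, by group⟩
    show φ ((k : G)⁻¹ * g) = 1
    have e : ((k : G))⁻¹ = ((k⁻¹ : ↥K) : G) := rfl
    rw [hφ, e, conjNormal_self, hφK, inv_pow, hk, inv_mul_cancel]

/-- averaging a crossed homomorphism on `U` over `G ⧸ U` -/
theorem exists_crossed [Finite G] (K U : Subgroup G) [K.Normal] [IsMulCommutative K] (hKU : K ≤ U)
    (π : G → ↥K) (hπ : ∀ u ∈ U, ∀ v ∈ U, π (u * v) = π u * MulAut.conjNormal u (π v))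
    (hπK : ∀ k : ↥K, π (k : G) = k) :
    ∃ φ : G → ↥K, (∀ g h : G, φ (g * h) = φ g * MulAut.conjNormal g (φ h)) ∧
      (∀ k : ↥K, φ (k : G) = k ^ U.index) := by
  classical
  haveI : Fintype (G ⧸ U) := Fintype.ofFinite _
  obtain ⟨s, hs⟩ : ∃ s : G ⧸ U → G, ∀ q : G ⧸ U, ((s q : G) : G ⧸ U) = q :=
    ⟨Quotient.out, fun q => QuotientGroup.out_eq' q⟩
  have hsm : ∀ (g : G) (q : G ⧸ U), g • q = ((g * s q : G) : G ⧸ U) := by
    intro g q
    conv_lhs => rw [← hs q]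
    rfl
  have hmem : ∀ (g : G) (q : G ⧸ U), (s (g • q))⁻¹ * g * s q ∈ U := by
    intro g q
    rw [mul_assoc, ← QuotientGroup.eq, hs, hsm]
  obtain ⟨F, hFdef⟩ : ∃ F : G → G ⧸ U → ↥K, ∀ g q, F g q =
      MulAut.conjNormal (s (g • q)) (π ((s (g • q))⁻¹ * g * s q)) := ⟨_, fun _ _ => rfl⟩
  have hF : ∀ g h q, F (g * h) q = F g (h • q) * MulAut.conjNormal g (F h q) := by
    intro g h q
    rw [hFdef, hFdef, hFdef, mul_smul]
    have e : (s (g • h • q))⁻¹ * (g * h) * s q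
        = ((s (g • h • q))⁻¹ * g * s (h • q)) * ((s (h • q))⁻¹ * h * s q) := by group
    rw [e, hπ _ (hmem g (h • q)) _ (hmem h q), map_mul]
    congr 1
    rw [← MulAut.mul_apply, ← MulAut.mul_apply, ← map_mul, ← map_mul]
    congr 2
    group
  refine ⟨fun g => ∏ q, F g q, ?_, ?_⟩
  · intro g h
    simp only [hF, Finset.prod_mul_distrib, map_prod]
    congr 1
    exact Equiv.prod_comp (MulAction.toPerm h) (F g)
  · intro k
    have hkq : ∀ q : G ⧸ U, (k : G) • q = q := by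
      intro q
      rw [hsm]
      conv_rhs => rw [← hs q]
      rw [QuotientGroup.eq]
      apply hKU
      have := ‹K.Normal›.conj_mem _ (K.inv_mem k.2) (s q)⁻¹
      simpa [mul_assoc] using this
    have hFk : ∀ q, F (k : G) q = k := by
      intro q
      rw [hFdef, hkq]
      have hm : (s q)⁻¹ * (k : G) * s q ∈ K := by
        have := ‹K.Normal›.conj_mem _ k.2 (s q)⁻¹
        simpa using this
      have : π ((s q)⁻¹ * (k : G) * s q) = ⟨_, hm⟩ := hπK ⟨_, hm⟩
      rw [this]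
      apply Subtype.ext
      rw [MulAut.conjNormal_apply]
      group
    simp only [hFk, Finset.prod_const, Finset.card_univ]
    rw [Subgroup.index_eq_card, Nat.card_eq_fintype_card]

/-- Gaschütz, existence. -/
theorem gaschutz_exists [Finite G] (K U : Subgroup G) [K.Normal] [IsMulCommutative K]
    (hKU : K ≤ U) (hcop : (Nat.card K).Coprime U.index)
    (A : Subgroup G) (hAK : A ⊓ K = ⊥) (hKA : K ⊔ A = U) :
    ∃ H : Subgroup G, Subgroup.IsComplement' K H := by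
  obtain ⟨π, -, -, hπ, hπK⟩ := exists_proj K A hAK
  rw [hKA] at hπ
  obtain ⟨φ, h1, h2⟩ := exists_crossed K U hKU π hπ hπK
  exact exists_complement_of_crossed K U.index hcop φ h1 h2

/-- a crossed homomorphism trivial on `U` (of index prime to `|K|`) is principal -/
theorem conj_of_crossed [Finite G] (K U : Subgroup G) [K.Normal] [IsMulCommutative K]
    (hcop : (Nat.card K).Coprime U.index)
    (δ : G → ↥K) (hδ : ∀ g h : G, δ (g * h) = δ g * MulAut.conjNormal g (δ h))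
    (hδU : ∀ u ∈ U, δ u = 1) :
    ∃ c : ↥K, ∀ g : G, δ g = c * (MulAut.conjNormal g c)⁻¹ := by
  classical
  haveI : Fintype (G ⧸ U) := Fintype.ofFinite _
  obtain ⟨s, hs⟩ : ∃ s : G ⧸ U → G, ∀ q : G ⧸ U, ((s q : G) : G ⧸ U) = q :=
    ⟨Quotient.out, fun q => QuotientGroup.out_eq' q⟩
  have hsm : ∀ (g : G) (q : G ⧸ U), g • q = ((g * s q : G) : G ⧸ U) := by
    intro g q
    conv_lhs => rw [← hs q]
    rfl
  have hmem : ∀ (g : G) (q : G ⧸ U), (s (g • q))⁻¹ * (g * s q) ∈ U := by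
    intro g q
    rw [← QuotientGroup.eq, hs, hsm]
  have hδr : ∀ (x : G) (u : G), u ∈ U → δ (x * u) = δ x := by
    intro x u hu; rw [hδ, hδU u hu, map_one, mul_one]
  have hkey : ∀ g q, δ (s (g • q)) = δ g * MulAut.conjNormal g (δ (s q)) := by
    intro g q
    rw [← hδ, ← hδr (s (g • q)) _ (hmem g q)]
    congr 1; group
  obtain ⟨c', hc'⟩ : ∃ c' : ↥K, c' = ∏ q : G ⧸ U, δ (s q) := ⟨_, rfl⟩
  have hsum : ∀ g : G, c' = δ g ^ U.index * MulAut.conjNormal g c' := by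
    intro g
    have e1 : ∏ q : G ⧸ U, δ (s (g • q)) = c' := by
      rw [hc']; exact Equiv.prod_comp (MulAction.toPerm g) (fun q => δ (s q))
    have e2 : ∏ q : G ⧸ U, δ (s (g • q)) = δ g ^ U.index * MulAut.conjNormal g c' := by
      simp only [hkey, Finset.prod_mul_distrib, Finset.prod_const, Finset.card_univ, ← map_prod]
      rw [← hc', Subgroup.index_eq_card, Nat.card_eq_fintype_card]
    exact e1.symm.trans e2
  obtain ⟨c, hc⟩ : ∃ c : ↥K, c ^ U.index = c' :=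
    ⟨(powCoprime hcop).symm c', (powCoprime hcop).apply_symm_apply c'⟩
  refine ⟨c, fun g => ?_⟩
  apply (powCoprime hcop).injective
  show δ g ^ U.index = (c * (MulAut.conjNormal g c)⁻¹) ^ U.index
  rw [mul_pow, inv_pow, ← map_pow, hc, eq_mul_inv_iff_mul_eq]
  exact (hsum g).symm

/-- Gaschütz, conjugacy. -/
theorem gaschutz_conj [Finite G] (K U : Subgroup G) [K.Normal] [IsMulCommutative K]
    (hKU : K ≤ U) (hcop : (Nat.card K).Coprime U.index)
    (H₀ H₁ : Subgroup G) (h₀ : Subgroup.IsComplement' K H₀) (h₁ : Subgroup.IsComplement' K H₁)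
    (hU : H₀ ⊓ U = H₁ ⊓ U) :
    ∃ c : ↥K, MulAut.conj (c : G) • H₀ = H₁ := by
  have hd0 : H₀ ⊓ K = ⊥ := by rw [inf_comm]; exact h₀.disjoint.eq_bot
  have hd1 : H₁ ⊓ K = ⊥ := by rw [inf_comm]; exact h₁.disjoint.eq_bot
  have hs0 : K ⊔ H₀ = ⊤ := h₀.sup_eq_top
  have hs1 : K ⊔ H₁ = ⊤ := h₁.sup_eq_top
  obtain ⟨π₀, hπ0, hu0, hc0, hk0⟩ := exists_proj K H₀ hd0
  obtain ⟨π₁, hπ1, hu1, hc1, hk1⟩ := exists_proj K H₁ hd1
  rw [hs0] at hπ0 hc0
  rw [hs1] at hπ1 hc1
  have hδ : ∀ g h, π₀ (g * h) * (π₁ (g * h))⁻¹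
      = π₀ g * (π₁ g)⁻¹ * MulAut.conjNormal g (π₀ h * (π₁ h)⁻¹) := by
    intro g h
    rw [hc0 g trivial h trivial, hc1 g trivial h trivial, map_mul, map_inv, mul_inv]
    exact mul_mul_mul_comm _ _ _ _
  have hδU : ∀ u ∈ U, π₀ u * (π₁ u)⁻¹ = 1 := by
    intro u hu
    have ha : ((π₀ u : G))⁻¹ * u ∈ H₀ ⊓ U :=
      ⟨hπ0 u trivial, U.mul_mem (U.inv_mem (hKU (π₀ u).2)) hu⟩
    rw [hU] at ha
    rw [hu1 u (π₀ u) ha.1, mul_inv_cancel]
  obtain ⟨c, hc⟩ := conj_of_crossed K U hcop (fun g => π₀ g * (π₁ g)⁻¹) hδ hδU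
  refine ⟨c, ?_⟩
  have hle : MulAut.conj (c : G) • H₀ ≤ H₁ := by
    intro x hx
    rw [Subgroup.mem_smul_pointwise_iff_exists] at hx
    obtain ⟨h, hh, rfl⟩ := hx
    have h1 : π₀ h = 1 := (hu0 h 1 (by simpa using hh)).symm
    have h2 := hc h
    simp only [h1, one_mul] at h2
    have h3 := hπ1 h trivial
    have e : ((π₁ h : G))⁻¹ * h = (c : G) * h * (c : G)⁻¹ := by
      have := congrArg Subtype.val h2
      rw [Subgroup.coe_inv, Subgroup.coe_mul, Subgroup.coe_inv, MulAut.conjNormal_apply] at this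
      rw [this]; group
    rw [e] at h3
    simpa [MulAut.smul_def, MulAut.conj_apply] using h3
  apply Subgroup.eq_of_le_of_card_ge hle
  have e1 := h₀.card_mul_card
  have e2 := h₁.card_mul_card
  have e3 : Nat.card ↥(MulAut.conj (c : G) • H₀) = Nat.card H₀ :=
    (Nat.card_congr (Subgroup.equivSMul (MulAut.conj (c : G)) H₀).toEquiv).symm
  rw [e3]
  have hKpos : 0 < Nat.card K := Nat.card_pos
  exact le_of_eq (Nat.eq_of_mul_eq_mul_left hKpos (e2.trans e1.symm))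

end Cfsg.Agent.Lib.Helper2.Gaschutz
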