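import Mathlib
import Cfsg.Prelude.Def_Local
import Cfsg.Agent.Lib.Helper2.Comp7
import Cfsg.Agent.Lib.Helper4.CoprimeGen

set_option autoImplicit false
set_option linter.unusedSectionVars false
set_option linter.style.haveILetI false

/-! coprime generation by centralizers of hyperplanes of an elementary abelian group -/

namespace Cfsg.Agent.Lib.Helper2.Gen

open Cfsg
open Cfsg.Agent.Lib.Helper2.Comp

variable {H : Type*} [Group H]

theorem relIndex_le_of_le_sup_zpowers {A D : Subgroup H} {b : H} {p : ℕ} (hp : 0 < p)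
    (hAc : ∀ x ∈ A, ∀ y ∈ A, x * y = y * x) (hDA : D ≤ A) (hbA : b ∈ A) (hb : b ^ p = 1)
    (h : A ≤ D ⊔ Subgroup.zpowers b) : D.relIndex A ≤ p := by
  have hnorm : Subgroup.zpowers b ≤ Subgroup.normalizer (D : Set H) := by
    rw [Subgroup.zpowers_le, Subgroup.mem_normalizer_iff]
    intro d
    constructor
    · intro hd
      have e : b * d * b⁻¹ = d := by
        rw [hAc b hbA d (hDA hd)]; group
      rw [e]; exact hd
    · intro hd
      have h1 : b * (b * d * b⁻¹) = (b * d * b⁻¹) * b := hAc b hbA _ (hDA hd)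
      have h3 : b * d * b⁻¹ = d := by
        calc b * d * b⁻¹ = b⁻¹ * (b * (b * d * b⁻¹)) := by group
          _ = b⁻¹ * ((b * d * b⁻¹) * b) := by rw [h1]
          _ = d := by group
      rw [h3] at hd; exact hd
  let f : Fin p → (A ⧸ D.subgroupOf A) := fun i =>
    QuotientGroup.mk (⟨b ^ (i : ℕ), A.pow_mem hbA _⟩ : A)
  have hf : Function.Surjective f := by
    intro q
    induction q using QuotientGroup.induction_on with
    | H x =>
    obtain ⟨d, hd, c, hc, hx⟩ := Cfsg.Agent.Lib.Lead.mem_sup_of_le_normalizer hnorm (h x.2)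
    obtain ⟨j, rfl⟩ := Subgroup.mem_zpowers_iff.mp hc
    have hj : b ^ j = b ^ (j % (p : ℤ)) := zpow_eq_zpow_emod' j hb
    have hp' : (p : ℤ) ≠ 0 := by exact_mod_cast hp.ne'
    have hnn : 0 ≤ j % (p : ℤ) := Int.emod_nonneg j hp'
    have hlt : j % (p : ℤ) < p := Int.emod_lt_of_pos j (by exact_mod_cast hp)
    obtain ⟨i, hi⟩ := Int.eq_ofNat_of_zero_le hnn
    have hip : i < p := by
      have : (i : ℤ) < p := by rw [← hi]; exact hlt
      exact_mod_cast this
    refine ⟨⟨i, hip⟩, ?_⟩
    show (QuotientGroup.mk (⟨b ^ i, A.pow_mem hbA _⟩ : A) : A ⧸ D.subgroupOf A) = QuotientGroup.mk x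
    rw [QuotientGroup.eq, Subgroup.mem_subgroupOf]
    have hbi : b ^ j = b ^ i := by rw [hj, hi, zpow_natCast]
    have hxe : (x : H) = d * b ^ i := by rw [hx, hbi]
    have hcomm : d * b ^ i = b ^ i * d := hAc d (hDA hd) _ (A.pow_mem hbA _)
    have e : ((⟨b ^ i, A.pow_mem hbA _⟩ : A)⁻¹ * x : A) = (b ^ i)⁻¹ * (x : H) := rfl
    rw [e, hxe, hcomm, inv_mul_cancel_left]
    exact hd
  have h1 := Nat.card_le_card_of_surjective f hf
  rw [Nat.card_fin] at h1
  exact h1

/-- generation by centralizers of hyperplanes: if `R₀` contains `C_X(B)` for all `B ≤ A` of index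
at most `p`, then it contains `C_X(D)` for all `D ≤ A`. -/
theorem centralizer_le_of_hyperplanes [Finite H] (p : ℕ) [Fact p.Prime] (A X : Subgroup H)
    (hA : IsElementaryAbelian p A) (hX : (Nat.card X).Coprime p)
    (hAX : A ≤ Subgroup.normalizer (X : Set H)) (R₀ : Subgroup H)
    (hR : ∀ B : Subgroup H, B ≤ A → B.relIndex A ≤ p →
      X ⊓ Subgroup.centralizer (B : Set H) ≤ R₀) :
    ∀ D : Subgroup H, D ≤ A → X ⊓ Subgroup.centralizer (D : Set H) ≤ R₀ := by
  have hpp : p.Prime := Fact.out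
  have hAc : ∀ x ∈ A, ∀ y ∈ A, x * y = y * x := by
    intro x hx y hy
    have := hA.1
    exact setLike_mul_comm hx hy
  intro D
  induction' hm : Nat.card A - Nat.card D using Nat.strong_induction_on with m ih generalizing D
  intro hDA
  by_cases hidx : D.relIndex A ≤ p
  · exact hR D hDA hidx
  · rw [not_le] at hidx
    have hDne : ¬ A ≤ D := by
      intro h
      have h1 : D.relIndex A = 1 := Subgroup.relIndex_eq_one.mpr h
      rw [h1] at hidx
      exact absurd hidx (not_lt.mpr hpp.one_lt.le)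
    obtain ⟨b, hbA, hbD⟩ := SetLike.not_le_iff_exists.mp hDne
    have hD1ne : ¬ A ≤ D ⊔ Subgroup.zpowers b := by
      intro h
      exact absurd (relIndex_le_of_le_sup_zpowers hpp.pos hAc hDA hbA (hA.2 b hbA) h)
        (not_le.mpr hidx)
    obtain ⟨a, haA, haD⟩ := SetLike.not_le_iff_exists.mp hD1ne
    have hAC : A ≤ Subgroup.centralizer (D : Set H) := by
      intro x hx
      rw [Subgroup.mem_centralizer_iff]
      intro d hd
      exact hAc d (hDA hd) x hx
    have hAN : A ≤ Subgroup.normalizer ((X ⊓ Subgroup.centralizer (D : Set H) : Subgroup H) : Set H) :=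
      le_normalizer_inf hAX (hAC.trans Subgroup.le_normalizer)
    have key : ∀ x ∈ A, x ∉ D →
        X ⊓ Subgroup.centralizer (D : Set H) ⊓ Subgroup.centralizer ({x} : Set H) ≤ R₀ := by
      intro x hxA hxD
      have hlt : D < D ⊔ Subgroup.zpowers x := by
        refine lt_of_le_of_ne le_sup_left (fun h => hxD ?_)
        rw [h]
        exact (le_sup_right : Subgroup.zpowers x ≤ D ⊔ Subgroup.zpowers x) (Subgroup.mem_zpowers x)
      have hle : D ⊔ Subgroup.zpowers x ≤ A := sup_le hDA (Subgroup.zpowers_le.mpr hxA)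
      have hcard : Nat.card D < Nat.card ↥(D ⊔ Subgroup.zpowers x) :=
        Cfsg.Agent.Lib.Lead.card_lt_of_lt hlt
      have hcardA : Nat.card ↥(D ⊔ Subgroup.zpowers x) ≤ Nat.card A :=
        Nat.le_of_dvd Nat.card_pos (Subgroup.card_dvd_of_le hle)
      have h2 := ih (Nat.card A - Nat.card ↥(D ⊔ Subgroup.zpowers x)) (by omega)
        (D ⊔ Subgroup.zpowers x) rfl hle
      refine le_trans ?_ h2
      intro y hy
      obtain ⟨hy1, hyx⟩ := Subgroup.mem_inf.mp hy
      obtain ⟨hyX, hyD⟩ := Subgroup.mem_inf.mp hy1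
      refine Subgroup.mem_inf.mpr ⟨hyX, ?_⟩
      have h3 : D ⊔ Subgroup.zpowers x ≤ Subgroup.centralizer ({y} : Set H) := by
        apply sup_le
        · intro d hd
          rw [Subgroup.mem_centralizer_singleton_iff]
          exact Subgroup.mem_centralizer_iff.mp hyD d hd
        · rw [Subgroup.zpowers_le, Subgroup.mem_centralizer_singleton_iff]
          exact (Subgroup.mem_centralizer_singleton_iff.mp hyx).symm
      rw [Subgroup.mem_centralizer_iff]
      intro z hz
      exact Subgroup.mem_centralizer_singleton_iff.mp (h3 hz)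
    apply Cfsg.Agent.Lib.Helper4.coprime_generation (p := p) a b (hA.2 a haA) (hA.2 b hbA)
      (hAc a haA b hbA) (X ⊓ Subgroup.centralizer (D : Set H)) (hAN haA) (hAN hbA)
      (Nat.Coprime.coprime_dvd_left (Subgroup.card_dvd_of_le inf_le_left) hX) R₀
      (key b hbA hbD)
    intro i
    apply key (a * b ^ i) (A.mul_mem haA (A.pow_mem hbA i))
    intro h
    apply haD
    have e : a = (a * b ^ i) * (b ^ i)⁻¹ := by group
    rw [e]
    exact Subgroup.mul_mem _ ((le_sup_left : D ≤ D ⊔ Subgroup.zpowers b) h)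
      ((le_sup_right : Subgroup.zpowers b ≤ D ⊔ Subgroup.zpowers b)
        (Subgroup.inv_mem _ (Subgroup.pow_mem _ (Subgroup.mem_zpowers b) i)))

/-- `X = ⟨C_X(B) | B ≤ A of index ≤ p⟩` -/
theorem le_of_hyperplanes [Finite H] (p : ℕ) [Fact p.Prime] (A X : Subgroup H)
    (hA : IsElementaryAbelian p A) (hX : (Nat.card X).Coprime p)
    (hAX : A ≤ Subgroup.normalizer (X : Set H)) (R₀ : Subgroup H)
    (hR : ∀ B : Subgroup H, B ≤ A → B.relIndex A ≤ p →
      X ⊓ Subgroup.centralizer (B : Set H) ≤ R₀) : X ≤ R₀ := by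
  have h := centralizer_le_of_hyperplanes p A X hA hX hAX R₀ hR ⊥ bot_le
  refine le_trans ?_ h
  intro x hx
  refine Subgroup.mem_inf.mpr ⟨hx, ?_⟩
  rw [Subgroup.mem_centralizer_iff]
  intro z hz
  have hz1 : z = 1 := by simpa using hz
  rw [hz1]; simp

end Cfsg.Agent.Lib.Helper2.Gen
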