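import Mathlib
import Cfsg.Agent.Lib.Lead.PQ
import Cfsg.Agent.Lib.Helper6.OmegaCent
import Cfsg.Agent.Lib.Helper6.NormGrow
import Cfsg.Agent.Lib.Helper2.Comp11

set_option autoImplicit false
set_option linter.unusedSectionVars false
set_option linter.style.haveILetI false

/-! The strengthening of Thompson's `P × Q` lemma for odd primes (`P` only normalizes `Q`),
by a fixed-point count on the kernel of a symmetrized norm map. -/

namespace Cfsg.Agent.Lib.Helper2.PQ

open scoped commutatorElement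

variable {X : Type*} [Group X]

/-- product of a list times the product of the reversed list -/
def symProd (l : List X) : X := l.prod * l.reverse.prod

theorem symProd_nil : symProd ([] : List X) = 1 := by simp [symProd]

theorem symProd_cons (x : X) (l : List X) : symProd (x :: l) = x * symProd l * x := by
  unfold symProd
  rw [List.prod_cons, List.reverse_cons, List.prod_append, List.prod_singleton]
  simp [mul_assoc]

theorem symProd_mem (U : Subgroup X) {l : List X} (hl : ∀ x ∈ l, x ∈ U) : symProd l ∈ U := by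
  unfold symProd
  apply U.mul_mem (Subgroup.list_prod_mem U hl)
  apply Subgroup.list_prod_mem U
  intro x hx
  exact hl x (List.mem_reverse.mp hx)

/-- in a subgroup whose commutators are central, `symProd` does not depend on the order -/
theorem symProd_perm (U : Subgroup X)
    (hU : ∀ a ∈ U, ∀ b ∈ U, ∀ c ∈ U, ⁅a, b⁆ * c = c * ⁅a, b⁆) {l₁ l₂ : List X}
    (h : l₁.Perm l₂) : (∀ x ∈ l₁, x ∈ U) → symProd l₁ = symProd l₂ := by
  induction h with
  | nil => intro _; rfl
  | cons x _ ih =>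
    intro hl
    rw [symProd_cons, symProd_cons, ih (fun y hy => hl y (List.mem_cons_of_mem _ hy))]
  | swap x y l =>
    intro hl
    have hy : y ∈ U := hl y (by simp)
    have hx : x ∈ U := hl x (by simp)
    have hF : symProd l ∈ U := symProd_mem U (fun z hz => hl z (by simp [hz]))
    rw [symProd_cons, symProd_cons, symProd_cons, symProd_cons]
    have hc : ⁅y⁻¹, x⁻¹⁆ * (symProd l * y * x) = (symProd l * y * x) * ⁅y⁻¹, x⁻¹⁆ :=
      hU _ (U.inv_mem hy) _ (U.inv_mem hx) _ (U.mul_mem (U.mul_mem hF hy) hx)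
    calc y * (x * symProd l * x) * y
        = x * y * (⁅y⁻¹, x⁻¹⁆ * (symProd l * y * x)) * ⁅y⁻¹, x⁻¹⁆⁻¹ := by
          rw [commutatorElement_def]; group
      _ = x * y * ((symProd l * y * x) * ⁅y⁻¹, x⁻¹⁆) * ⁅y⁻¹, x⁻¹⁆⁻¹ := by rw [hc]
      _ = x * (y * symProd l * y) * x := by group
  | trans h₁ _ ih₁ ih₂ =>
    intro hl
    rw [ih₁ hl]
    exact ih₂ (fun z hz => hl z (h₁.mem_iff.mpr hz))

theorem conj_symProd (a : X) (l : List X) :
    a * symProd l * a⁻¹ = symProd (l.map (fun y => a * y * a⁻¹)) := by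
  induction l with
  | nil => simp [symProd_nil]
  | cons x l ih =>
    rw [List.map_cons, symProd_cons, symProd_cons, ← ih]
    group

theorem commute_symProd (z : X) {l : List X} (hz : ∀ x ∈ l, Commute z x) :
    Commute z (symProd l) := by
  induction l with
  | nil => rw [symProd_nil]; exact Commute.one_right z
  | cons x l ih =>
    rw [symProd_cons]
    have hx : Commute z x := hz x (by simp)
    exact (hx.mul_right (ih (fun y hy => hz y (by simp [hy])))).mul_right hx

theorem symProd_map_mul (z : X) (l : List X) (hz : ∀ x ∈ l, Commute z x) :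
    symProd (l.map (fun x => x * z)) = symProd l * z ^ (2 * l.length) := by
  induction l with
  | nil => simp [symProd_nil]
  | cons x l ih =>
    have hx : Commute z x := hz x (by simp)
    have hS : Commute z (symProd l) := commute_symProd z (fun y hy => hz y (by simp [hy]))
    rw [List.map_cons, symProd_cons, symProd_cons, ih (fun y hy => hz y (by simp [hy])),
      List.length_cons]
    have e1 : z * symProd l = symProd l * z := hS.eq
    have e2 : z * x = x * z := hx.eq
    have e3 : z ^ (2 * l.length) * x = x * z ^ (2 * l.length) := (hx.pow_left _).eq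
    calc x * z * (symProd l * z ^ (2 * l.length)) * (x * z)
        = x * (z * symProd l) * (z ^ (2 * l.length) * x) * z := by group
      _ = x * (symProd l * z) * (x * z ^ (2 * l.length)) * z := by rw [e1, e3]
      _ = x * symProd l * (z * x) * z ^ (2 * l.length) * z := by group
      _ = x * symProd l * (x * z) * z ^ (2 * l.length) * z := by rw [e2]
      _ = x * symProd l * x * z ^ (2 * (l.length + 1)) := by
          rw [mul_add, mul_one, pow_add, pow_two]; group

/-- the symmetrized norm of `x` under conjugation by the elements of the list `L` -/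
def cnrm (L : List X) (x : X) : X := symProd (L.map (fun q => q * x * q⁻¹))

theorem perm_map_of_bij {L : List X} (hnd : L.Nodup) (σ : X → X) (hinj : Function.Injective σ)
    (hmem : ∀ y, y ∈ L.map σ ↔ y ∈ L) : (L.map σ).Perm L :=
  (List.perm_ext_iff_of_nodup (hnd.map hinj) hnd).mpr hmem


theorem cnrm_one (L : List X) : cnrm L (1 : X) = 1 := by
  induction L with
  | nil => simp [cnrm, symProd_nil]
  | cons q L ih =>
    unfold cnrm at ih ⊢
    rw [List.map_cons, symProd_cons, ih]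
    simp

section

variable {Q G : Subgroup X} {L : List X}

theorem cnrm_mem (hLQ : ∀ q, q ∈ L ↔ q ∈ Q) (hQG : Q ≤ Subgroup.normalizer (G : Set X))
    {x : X} (hx : x ∈ G) : cnrm L x ∈ G := by
  apply symProd_mem G
  intro y hy
  obtain ⟨q, hq, rfl⟩ := List.mem_map.mp hy
  exact (Subgroup.mem_normalizer_iff.mp (hQG ((hLQ q).mp hq)) x).mp hx

theorem conj_cnrm (hLQ : ∀ q, q ∈ L ↔ q ∈ Q) (hnd : L.Nodup)
    (hQG : Q ≤ Subgroup.normalizer (G : Set X))
    (hU : ∀ a ∈ G, ∀ b ∈ G, ∀ c ∈ G, ⁅a, b⁆ * c = c * ⁅a, b⁆)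
    {a : X} (haQ : a ∈ Subgroup.normalizer (Q : Set X)) (haG : a ∈ Subgroup.normalizer (G : Set X))
    {x : X} (hx : x ∈ G) : a * cnrm L x * a⁻¹ = cnrm L (a * x * a⁻¹) := by
  unfold cnrm
  rw [conj_symProd, List.map_map]
  have e : (fun y => a * y * a⁻¹) ∘ (fun q => q * x * q⁻¹) =
      (fun q => q * (a * x * a⁻¹) * q⁻¹) ∘ (fun q => a * q * a⁻¹) := by
    funext q
    simp only [Function.comp_apply]
    group
  rw [e, ← List.map_map]
  have hperm : (L.map (fun q => a * q * a⁻¹)).Perm L := by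
    apply perm_map_of_bij hnd
    · intro q1 q2 h
      simpa using h
    · intro y
      rw [List.mem_map, hLQ]
      constructor
      · rintro ⟨q, hq, rfl⟩
        exact (Subgroup.mem_normalizer_iff.mp haQ q).mp ((hLQ q).mp hq)
      · intro hy
        refine ⟨a⁻¹ * y * a, (hLQ _).mpr ?_, by group⟩
        rw [Subgroup.mem_normalizer_iff] at haQ
        rw [haQ]
        have e2 : a * (a⁻¹ * y * a) * a⁻¹ = y := by group
        rw [e2]
        exact hy
  apply symProd_perm G hU (hperm.map _)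
  intro y hy
  obtain ⟨q', hq', rfl⟩ := List.mem_map.mp hy
  obtain ⟨q, hq, rfl⟩ := List.mem_map.mp hq'
  have h1 : a * q * a⁻¹ ∈ Q := (Subgroup.mem_normalizer_iff.mp haQ q).mp ((hLQ q).mp hq)
  have h2 : a * x * a⁻¹ ∈ G := (Subgroup.mem_normalizer_iff.mp haG x).mp hx
  exact (Subgroup.mem_normalizer_iff.mp (hQG h1) _).mp h2

theorem cnrm_conj (hLQ : ∀ q, q ∈ L ↔ q ∈ Q) (hnd : L.Nodup)
    (hQG : Q ≤ Subgroup.normalizer (G : Set X))
    (hU : ∀ a ∈ G, ∀ b ∈ G, ∀ c ∈ G, ⁅a, b⁆ * c = c * ⁅a, b⁆)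
    {q₀ : X} (hq₀ : q₀ ∈ Q) {x : X} (hx : x ∈ G) : cnrm L (q₀ * x * q₀⁻¹) = cnrm L x := by
  unfold cnrm
  have e : (fun q => q * (q₀ * x * q₀⁻¹) * q⁻¹) = (fun q => q * x * q⁻¹) ∘ (fun q => q * q₀) := by
    funext q
    simp only [Function.comp_apply]
    group
  rw [e, ← List.map_map]
  have hperm : (L.map (fun q => q * q₀)).Perm L := by
    apply perm_map_of_bij hnd
    · intro q1 q2 h
      simpa using h
    · intro y
      rw [List.mem_map, hLQ]
      constructor
      · rintro ⟨q, hq, rfl⟩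
        exact Q.mul_mem ((hLQ q).mp hq) hq₀
      · intro hy
        exact ⟨y * q₀⁻¹, (hLQ _).mpr (Q.mul_mem hy (Q.inv_mem hq₀)), by group⟩
  apply symProd_perm G hU (hperm.map _)
  intro y hy
  obtain ⟨q', hq', rfl⟩ := List.mem_map.mp hy
  obtain ⟨q, hq, rfl⟩ := List.mem_map.mp hq'
  have h1 : q * q₀ ∈ Q := Q.mul_mem ((hLQ q).mp hq) hq₀
  exact (Subgroup.mem_normalizer_iff.mp (hQG h1) _).mp hx

theorem cnrm_mem_centralizer (hLQ : ∀ q, q ∈ L ↔ q ∈ Q) (hnd : L.Nodup)
    (hQG : Q ≤ Subgroup.normalizer (G : Set X))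
    (hU : ∀ a ∈ G, ∀ b ∈ G, ∀ c ∈ G, ⁅a, b⁆ * c = c * ⁅a, b⁆)
    {x : X} (hx : x ∈ G) : cnrm L x ∈ Subgroup.centralizer (Q : Set X) := by
  rw [Subgroup.mem_centralizer_iff]
  intro q hq
  have h1 := conj_cnrm hLQ hnd hQG hU (Subgroup.le_normalizer hq) (hQG hq) hx
  rw [cnrm_conj hLQ hnd hQG hU hq hx] at h1
  calc q * cnrm L x = q * cnrm L x * q⁻¹ * q := by group
    _ = cnrm L x * q := by rw [h1]

theorem cnrm_mul (hLQ : ∀ q, q ∈ L ↔ q ∈ Q) (hQG : Q ≤ Subgroup.normalizer (G : Set X))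
    {x z : X} (hx : x ∈ G) (hzQ : z ∈ Subgroup.centralizer (Q : Set X))
    (hzG : z ∈ Subgroup.centralizer (G : Set X)) :
    cnrm L (x * z) = cnrm L x * z ^ (2 * L.length) := by
  unfold cnrm
  have e : L.map (fun q => q * (x * z) * q⁻¹) =
      (L.map (fun q => q * x * q⁻¹)).map (fun y => y * z) := by
    rw [List.map_map]
    apply List.map_congr_left
    intro q hq
    simp only [Function.comp_apply]
    have h1 : q * z = z * q := Subgroup.mem_centralizer_iff.mp hzQ q ((hLQ q).mp hq)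
    calc q * (x * z) * q⁻¹ = q * x * (z * q⁻¹) := by group
      _ = q * x * (q⁻¹ * (q * z) * q⁻¹) := by group
      _ = q * x * (q⁻¹ * (z * q) * q⁻¹) := by rw [h1]
      _ = q * x * q⁻¹ * z := by group
  rw [e, symProd_map_mul, List.length_map]
  intro y hy
  obtain ⟨q, hq, rfl⟩ := List.mem_map.mp hy
  have h2 : q * x * q⁻¹ ∈ G := (Subgroup.mem_normalizer_iff.mp (hQG ((hLQ q).mp hq)) x).mp hx
  exact (Subgroup.mem_centralizer_iff.mp hzG _ h2).symm

theorem cnrm_central {z : X} (hLQ : ∀ q, q ∈ L ↔ q ∈ Q)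
    (hQG : Q ≤ Subgroup.normalizer (G : Set X)) (hzQ : z ∈ Subgroup.centralizer (Q : Set X))
    (hzG : z ∈ Subgroup.centralizer (G : Set X)) : cnrm L z = z ^ (2 * L.length) := by
  have h := cnrm_mul hLQ hQG (x := 1) (z := z) G.one_mem hzQ hzG
  rw [one_mul, cnrm_one, one_mul] at h
  exact h

end


/-- the fixed-point count: in a class-two `PQ`-invariant `p`-group `G` (`p` odd) with
`[G,G] ≤ C_G(Q) ≤ Z(G)` and `Q` not centralizing `G`, `P` has a fixed point outside `C_G(Q)` -/
theorem exists_fixed_of_class_two [Finite X] (p : ℕ) [Fact p.Prime] (hp2 : p ≠ 2)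
    (P Q G : Subgroup X) (hP : IsPGroup p P) (hQ : (Nat.card Q).Coprime p)
    (hPQ : P ≤ Subgroup.normalizer (Q : Set X)) (hG : IsPGroup p G)
    (hPG : P ≤ Subgroup.normalizer (G : Set X)) (hQG : Q ≤ Subgroup.normalizer (G : Set X))
    (hcl : ⁅G, G⁆ ≤ Subgroup.centralizer (Q : Set X))
    (hCZ : G ⊓ Subgroup.centralizer (Q : Set X) ≤ Subgroup.centralizer (G : Set X))
    (hlt : ¬ G ≤ Subgroup.centralizer (Q : Set X)) :
    ∃ x ∈ G, x ≠ 1 ∧ x ∈ Subgroup.centralizer (P : Set X) ∧
      x ∉ Subgroup.centralizer (Q : Set X) := by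
  classical
  have hpp : p.Prime := Fact.out
  obtain ⟨L, hLdef⟩ : ∃ L, L = (Set.toFinite (Q : Set X)).toFinset.toList := ⟨_, rfl⟩
  have hLQ : ∀ q, q ∈ L ↔ q ∈ Q := by
    intro q
    rw [hLdef, Finset.mem_toList, Set.Finite.mem_toFinset]
    rfl
  have hnd : L.Nodup := by rw [hLdef]; exact Finset.nodup_toList _
  have hlen : L.length = Nat.card Q := by
    rw [hLdef, Finset.length_toList, ← Set.ncard_eq_toFinset_card, ← Nat.card_coe_set_eq]
    rfl
  have hn2 : (2 * L.length).Coprime p := by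
    rw [hlen]
    exact Nat.Coprime.mul_left ((Nat.coprime_primes Nat.prime_two hpp).mpr (Ne.symm hp2)) hQ
  have hGG : ⁅G, G⁆ ≤ G :=
    Cfsg.Agent.Lib.Lead.commutator_le_of_le_normalizer G G Subgroup.le_normalizer
  have hU : ∀ a ∈ G, ∀ b ∈ G, ∀ c ∈ G, ⁅a, b⁆ * c = c * ⁅a, b⁆ := by
    intro a ha b hb c hc
    have h1 : ⁅a, b⁆ ∈ ⁅G, G⁆ := Subgroup.commutator_mem_commutator ha hb
    have h2 : ⁅a, b⁆ ∈ Subgroup.centralizer (G : Set X) := hCZ ⟨hGG h1, hcl h1⟩
    exact (Subgroup.mem_centralizer_iff.mp h2 c hc).symm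
  have hpow : ∀ z ∈ G, z ^ (2 * L.length) = 1 → z = 1 := by
    intro z hz hz1
    apply Cfsg.Agent.Lib.Helper2.Comp.eq_one_of_mem_pGroup_of_coprime p hG hz
    exact Nat.Coprime.coprime_dvd_left (orderOf_dvd_of_pow_eq_one hz1) hn2
  obtain ⟨C, hCdef⟩ : ∃ C, C = G ⊓ Subgroup.centralizer (Q : Set X) := ⟨_, rfl⟩
  have hCG : C ≤ G := by rw [hCdef]; exact inf_le_left
  have hCQ : C ≤ Subgroup.centralizer (Q : Set X) := by rw [hCdef]; exact inf_le_right
  have hCZ' : C ≤ Subgroup.centralizer (G : Set X) := by rw [hCdef]; exact hCZ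
  have hClt : C < G := lt_of_le_of_ne hCG (fun h => hlt (h ▸ hCQ))
  let M := {x : X // x ∈ G ∧ cnrm L x = 1}
  let f : M × ↥C → ↥G := fun mz => ⟨mz.1.1 * mz.2.1, G.mul_mem mz.1.2.1 (hCG mz.2.2)⟩
  have hf : Function.Bijective f := by
    constructor
    · rintro ⟨⟨m, hm, hm1⟩, ⟨z, hz⟩⟩ ⟨⟨m', hm', hm1'⟩, ⟨z', hz'⟩⟩ h
      have h0 : m * z = m' * z' := congrArg Subtype.val h
      have h1 : m' = m * (z * z'⁻¹) := by rw [← mul_assoc, h0]; group
      have hzz : z * z'⁻¹ ∈ C := C.mul_mem hz (C.inv_mem hz')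
      have h2 : cnrm L m' = cnrm L m * (z * z'⁻¹) ^ (2 * L.length) := by
        rw [h1]; exact cnrm_mul hLQ hQG hm (hCQ hzz) (hCZ' hzz)
      rw [hm1', hm1, one_mul] at h2
      have h3 : z * z'⁻¹ = 1 := hpow _ (hCG hzz) h2.symm
      have h4 : z = z' := mul_inv_eq_one.mp h3
      have h5 : m = m' := by rw [h1, h3, mul_one]
      subst h4
      subst h5
      rfl
    · rintro ⟨x, hx⟩
      have hw : cnrm L x ∈ C := by
        rw [hCdef]; exact ⟨cnrm_mem hLQ hQG hx, cnrm_mem_centralizer hLQ hnd hQG hU hx⟩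
      obtain ⟨w, hwdef⟩ : ∃ w, w = (cnrm L x)⁻¹ := ⟨_, rfl⟩
      have hwC : w ∈ C := by rw [hwdef]; exact C.inv_mem hw
      have hcop : (2 * L.length).Coprime (orderOf w) := by
        obtain ⟨k, hk⟩ := (IsPGroup.iff_orderOf.mp hG) ⟨w, hCG hwC⟩
        rw [Subgroup.orderOf_mk] at hk
        rw [hk]; exact Nat.Coprime.pow_right k hn2
      obtain ⟨m, hm⟩ := exists_pow_eq_self_of_coprime hcop
      have hzC : w ^ m ∈ C := C.pow_mem hwC m
      have h1 : cnrm L (x * w ^ m) = 1 := by
        rw [cnrm_mul hLQ hQG hx (hCQ hzC) (hCZ' hzC), ← pow_mul, mul_comm m, pow_mul, hm, hwdef,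
          mul_inv_cancel]
      refine ⟨(⟨x * w ^ m, G.mul_mem hx (hCG hzC), h1⟩, ⟨(w ^ m)⁻¹, C.inv_mem hzC⟩), ?_⟩
      apply Subtype.ext
      show x * w ^ m * (w ^ m)⁻¹ = x
      group
  have hcard : Nat.card M * Nat.card C = Nat.card G := by
    rw [← Nat.card_prod]; exact Nat.card_congr (Equiv.ofBijective f hf)
  have hpM : p ∣ Nat.card M := by
    obtain ⟨a, ha⟩ := IsPGroup.iff_card.mp hG
    have hlt' := Cfsg.Agent.Lib.Helper6.card_lt_card_of_lt hClt
    have hdvd : Nat.card M ∣ p ^ a := by rw [← ha, ← hcard]; exact dvd_mul_right _ _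
    obtain ⟨j, -, hj⟩ := (Nat.dvd_prime_pow hpp).mp hdvd
    have hj0 : j ≠ 0 := by
      rintro rfl
      rw [pow_zero] at hj
      rw [hj, one_mul] at hcard
      omega
    rw [hj]; exact dvd_pow_self p hj0
  letI act : MulAction ↥P M :=
    { smul := fun a x => ⟨(a : X) * x.1 * (a : X)⁻¹,
        (Subgroup.mem_normalizer_iff.mp (hPG a.2) x.1).mp x.2.1,
        by rw [← conj_cnrm hLQ hnd hQG hU (hPQ a.2) (hPG a.2) x.2.1, x.2.2]; group⟩
      one_smul := fun x => by
        apply Subtype.ext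
        show ((1 : ↥P) : X) * x.1 * ((1 : ↥P) : X)⁻¹ = x.1
        simp
      mul_smul := fun a b x => by
        apply Subtype.ext
        show ((a * b : ↥P) : X) * x.1 * ((a * b : ↥P) : X)⁻¹ =
          (a : X) * ((b : X) * x.1 * (b : X)⁻¹) * (a : X)⁻¹
        simp [mul_assoc] }
  have hmod := hP.card_modEq_card_fixedPoints M
  have hpF : p ∣ Nat.card (MulAction.fixedPoints ↥P M) :=
    (Nat.modEq_zero_iff_dvd).mp ((hmod.symm).trans (Nat.modEq_zero_iff_dvd.mpr hpM))
  have h1fix : (⟨1, G.one_mem, cnrm_one L⟩ : M) ∈ MulAction.fixedPoints ↥P M := by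
    rw [MulAction.mem_fixedPoints]
    intro a
    apply Subtype.ext
    show (a : X) * 1 * (a : X)⁻¹ = 1
    simp
  have hcardF : 1 < Nat.card (MulAction.fixedPoints ↥P M) := by
    have hpos : 0 < Nat.card (MulAction.fixedPoints ↥P M) :=
      Nat.card_pos_iff.mpr ⟨⟨⟨_, h1fix⟩⟩, inferInstance⟩
    have h2 := Nat.le_of_dvd hpos hpF
    have h3 := hpp.two_le
    omega
  have hnt : Nontrivial (MulAction.fixedPoints ↥P M) := Finite.one_lt_card_iff_nontrivial.mp hcardF
  obtain ⟨⟨y, hy⟩, hne⟩ := exists_ne (⟨_, h1fix⟩ : MulAction.fixedPoints ↥P M)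
  have hy1 : y.1 ≠ 1 := by
    intro h
    apply hne
    apply Subtype.ext
    apply Subtype.ext
    exact h
  refine ⟨y.1, y.2.1, hy1, ?_, ?_⟩
  · rw [Subgroup.mem_centralizer_iff]
    intro a ha
    have h1 := MulAction.mem_fixedPoints.mp hy ⟨a, ha⟩
    have h2 : a * y.1 * a⁻¹ = y.1 := congrArg Subtype.val h1
    calc a * y.1 = a * y.1 * a⁻¹ * a := by group
      _ = y.1 * a := by rw [h2]
  · intro hyQ
    have hyC : y.1 ∈ C := by rw [hCdef]; exact ⟨y.2.1, hyQ⟩
    have h3 := cnrm_central (G := G) hLQ hQG (hCQ hyC) (hCZ' hyC)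
    rw [y.2.2] at h3
    exact hy1 (hpow _ y.2.1 h3.symm)


open Cfsg.Agent.Lib.Lead in
/-- **Thompson's `P × Q` lemma for odd primes, `P` normalizing `Q`** (order-`p` form):
if `Q` centralizes every element of order dividing `p` of `C_G(P)`, then `Q` centralizes `G`. -/
theorem pq_odd [Finite X] (p : ℕ) [Fact p.Prime] (hp2 : p ≠ 2) (P Q : Subgroup X)
    (hP : IsPGroup p P) (hQ : (Nat.card Q).Coprime p)
    (hPQ : P ≤ Subgroup.normalizer (Q : Set X)) :
    ∀ (n : ℕ) (G : Subgroup X), Nat.card G = n → IsPGroup p G →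
      P ≤ Subgroup.normalizer (G : Set X) → Q ≤ Subgroup.normalizer (G : Set X) →
      (∀ x ∈ G, x ∈ Subgroup.centralizer (P : Set X) → x ^ p = 1 →
        x ∈ Subgroup.centralizer (Q : Set X)) → ⁅G, Q⁆ = ⊥ := by
  have hpp : p.Prime := Fact.out
  intro n
  induction n using Nat.strong_induction_on with
  | _ n ih =>
  intro G hn hG hPG hQG hC
  have hcopG : (Nat.card Q).Coprime (Nat.card G) := by
    obtain ⟨k, hk⟩ := IsPGroup.iff_card.mp hG
    rw [hk]; exact Nat.Coprime.pow_right k hQ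
  haveI : Group.IsNilpotent G := hG.isNilpotent
  have hWG : ⁅G, Q⁆ ≤ G := commutator_le_of_le_normalizer G Q hQG
  have hWW : ⁅⁅G, Q⁆, Q⁆ = ⁅G, Q⁆ :=
    commutator_commutator_eq_of_coprime Q G hQG hcopG (Or.inr inferInstance)
  have ih' : ∀ H : Subgroup X, H < G → P ≤ Subgroup.normalizer (H : Set X) →
      Q ≤ Subgroup.normalizer (H : Set X) → H ≤ Subgroup.centralizer (Q : Set X) := by
    intro H hH hPH hQH
    have h1 := ih _ (hn ▸ Cfsg.Agent.Lib.Helper6.card_lt_card_of_lt hH) H rfl (hG.to_le hH.le)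
      hPH hQH (fun x hx => hC x (hH.le hx))
    exact Subgroup.commutator_eq_bot_iff_le_centralizer.mp h1
  by_cases hW : ⁅G, Q⁆ = G
  · by_contra hne
    have hnc : ¬ G ≤ Subgroup.centralizer (Q : Set X) :=
      fun h => hne (Subgroup.commutator_eq_bot_iff_le_centralizer.mpr h)
    have hG1 : G ≠ ⊥ := by
      rintro rfl
      exact hne (Subgroup.commutator_bot_left Q)
    have hG'lt : ⁅G, G⁆ < G := commutator_lt_of_pgroups hG hG Subgroup.le_normalizer hG1
    have hG'Q : ⁅G, G⁆ ≤ Subgroup.centralizer (Q : Set X) :=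
      ih' _ hG'lt (fun x hx => mem_normalizer_commutator (hPG hx) (hPG hx))
        (fun x hx => mem_normalizer_commutator (hQG hx) (hQG hx))
    have hCZ : G ⊓ Subgroup.centralizer (Q : Set X) ≤ Subgroup.centralizer (G : Set X) := by
      obtain ⟨C, hCdef⟩ : ∃ C, C = G ⊓ Subgroup.centralizer (Q : Set X) := ⟨_, rfl⟩
      rw [← hCdef]
      have hCG : C ≤ G := by rw [hCdef]; exact inf_le_left
      have hCQ : C ≤ Subgroup.centralizer (Q : Set X) := by rw [hCdef]; exact inf_le_right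
      have h1 : ⁅⁅Q, C⁆, G⁆ = ⊥ := by
        have h0 : ⁅Q, C⁆ = ⊥ := by
          rw [Subgroup.commutator_comm]
          exact Subgroup.commutator_eq_bot_iff_le_centralizer.mpr hCQ
        rw [h0]; exact Subgroup.commutator_bot_left G
      have h2 : ⁅⁅C, G⁆, Q⁆ = ⊥ := by
        rw [Subgroup.commutator_eq_bot_iff_le_centralizer]
        exact (Subgroup.commutator_mono hCG le_rfl).trans hG'Q
      have h3 : ⁅⁅G, Q⁆, C⁆ = ⊥ := Subgroup.commutator_commutator_eq_bot_of_rotate h1 h2
      rw [hW, Subgroup.commutator_comm, Subgroup.commutator_eq_bot_iff_le_centralizer] at h3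
      exact h3
    have hexp : ∀ x ∈ G, x ^ p = 1 := by
      have hmul : ∀ x ∈ G, ∀ y ∈ G, x ^ p = 1 → y ^ p = 1 → (x * y) ^ p = 1 := by
        intro x hx y hy hxp hyp
        obtain ⟨c, hc⟩ : ∃ c, c = y⁻¹ * x⁻¹ * y * x := ⟨_, rfl⟩
        have hcc : c ∈ Subgroup.centralizer (G : Set X) := by
          have h1 : c ∈ ⁅G, G⁆ := by
            have h0 := Subgroup.commutator_mem_commutator (G.inv_mem hy) (G.inv_mem hx)
            rw [commutatorElement_def, inv_inv, inv_inv] at h0
            rw [hc]; exact h0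
          exact hCZ ⟨hG'lt.le h1, hG'Q h1⟩
        have hcx : Commute c x := (Subgroup.mem_centralizer_iff.mp hcc x hx).symm
        have hcy : Commute c y := (Subgroup.mem_centralizer_iff.mp hcc y hy).symm
        have h : y * x = x * y * c := by rw [hc]; group
        have h1 := Cfsg.Agent.Lib.Helper6.pow_mul_of_central_comm x y c h hcy p
        rw [hyp, one_mul, mul_one] at h1
        have hcp : c ^ p = 1 := by
          have h0 : x * 1 = x * c ^ p := by rw [mul_one]; exact h1
          exact (mul_left_cancel h0).symm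
        have h2 := Cfsg.Agent.Lib.Helper6.mul_pow_of_central_comm x y c h hcx hcy p
        obtain ⟨k, hk⟩ := hpp.dvd_choose_self (k := 2) (by norm_num)
          (lt_of_le_of_ne hpp.two_le (Ne.symm hp2))
        rw [h2, hxp, hyp, one_mul, one_mul, hk, pow_mul, hcp, one_pow]
      let E : Subgroup X :=
        { carrier := {x | x ∈ G ∧ x ^ p = 1}
          mul_mem' := fun {a b} ha hb => ⟨G.mul_mem ha.1 hb.1, hmul a ha.1 b hb.1 ha.2 hb.2⟩
          one_mem' := ⟨G.one_mem, one_pow p⟩
          inv_mem' := fun {a} ha => ⟨G.inv_mem ha.1, by rw [inv_pow, ha.2, inv_one]⟩ }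
      have hEG : E ≤ G := fun x hx => hx.1
      by_cases hEeq : E = G
      · intro x hx
        have hxE : x ∈ E := hEeq ▸ hx
        exact hxE.2
      · exfalso
        have hElt : E < G := lt_of_le_of_ne hEG hEeq
        have hconj : ∀ a : X, a ∈ Subgroup.normalizer (G : Set X) →
            a ∈ Subgroup.normalizer (E : Set X) := by
          intro a ha
          rw [Subgroup.mem_normalizer_iff]
          intro x
          constructor
          · intro hx
            refine ⟨(Subgroup.mem_normalizer_iff.mp ha x).mp hx.1, ?_⟩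
            rw [conj_pow, hx.2]; group
          · intro hx
            refine ⟨(Subgroup.mem_normalizer_iff.mp ha x).mpr hx.1, ?_⟩
            have h1 : (a * x * a⁻¹) ^ p = 1 := hx.2
            rw [conj_pow] at h1
            have h2 : x ^ p = a⁻¹ * (a * x ^ p * a⁻¹) * a := by group
            rw [h2, h1]; group
        have hEQ : E ≤ Subgroup.centralizer (Q : Set X) :=
          ih' E hElt (fun a ha => hconj a (hPG ha)) (fun a ha => hconj a (hQG ha))
        have hQc : Q ≤ Subgroup.centralizer (G : Set X) := by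
          apply Cfsg.Agent.Lib.Helper6.centralizes_of_centralizes_omega Q G hQ hG hQG
          intro x hx hxp a ha
          have hxp' : x ^ p = 1 := by
            rcases hxp with h | ⟨h2, -⟩
            · exact h
            · exact absurd h2 hp2
          have hxE : x ∈ E := ⟨hx, hxp'⟩
          have h3 := Subgroup.mem_centralizer_iff.mp (hEQ hxE) a ha
          rw [h3]; group
        exact hnc (Subgroup.le_centralizer_iff.mp hQc)
    obtain ⟨x, hxG, hx1, hxP, hxQ⟩ :=
      exists_fixed_of_class_two p hp2 P Q G hP hQ hPQ hG hPG hQG hG'Q hCZ hnc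
    exact hxQ (hC x hxG hxP (hexp x hxG))
  · have hlt : ⁅G, Q⁆ < G := lt_of_le_of_ne hWG hW
    have h1 : ⁅G, Q⁆ ≤ Subgroup.centralizer (Q : Set X) :=
      ih' _ hlt (fun x hx => mem_normalizer_commutator (hPG hx) (hPQ hx))
        (le_normalizer_commutator_right G Q)
    rw [← hWW]
    exact Subgroup.commutator_eq_bot_iff_le_centralizer.mpr h1

/-- `Q` centralizes `G` (see `pq_odd`). -/
theorem pq_odd_le [Finite X] (p : ℕ) [Fact p.Prime] (hp2 : p ≠ 2) (P Q G : Subgroup X)
    (hP : IsPGroup p P) (hQ : (Nat.card Q).Coprime p)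
    (hPQ : P ≤ Subgroup.normalizer (Q : Set X)) (hG : IsPGroup p G)
    (hPG : P ≤ Subgroup.normalizer (G : Set X)) (hQG : Q ≤ Subgroup.normalizer (G : Set X))
    (hC : ∀ x ∈ G, x ∈ Subgroup.centralizer (P : Set X) → x ^ p = 1 →
      x ∈ Subgroup.centralizer (Q : Set X)) : Q ≤ Subgroup.centralizer (G : Set X) :=
  Subgroup.le_centralizer_iff.mp (Subgroup.commutator_eq_bot_iff_le_centralizer.mp
    (pq_odd p hp2 P Q hP hQ hPQ _ G rfl hG hPG hQG hC))

end Cfsg.Agent.Lib.Helper2.PQ
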