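import Mathlib
import Cfsg.Prelude.Def_OddOrderLocal

set_option autoImplicit false
set_option linter.unusedSectionVars false
set_option linter.style.haveILetI false

/-! the Puig series -/

namespace Cfsg.Agent.Lib.Helper2.Puig

open Cfsg

variable {G : Type*} [Group G]

theorem puigStep_anti {X Y : Subgroup G} (h : X ≤ Y) : puigStep Y ≤ puigStep X := by
  apply sSup_le_sSup
  intro A hA
  exact ⟨hA.1, h.trans hA.2⟩

theorem le_puigStep {X A : Subgroup G} (hA : IsMulCommutative A)
    (hX : X ≤ Subgroup.normalizer (A : Set G)) : A ≤ puigStep X := le_sSup ⟨hA, hX⟩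

theorem puigStep_bot : puigStep (⊥ : Subgroup G) = ⊤ := by
  rw [eq_top_iff]
  intro x _
  have h : Subgroup.zpowers x ≤ puigStep ⊥ := le_puigStep inferInstance bot_le
  exact h (Subgroup.mem_zpowers x)

theorem puigSeq_zero : puigSeq G 0 = ⊥ := rfl

theorem puigSeq_succ (n : ℕ) : puigSeq G (n + 1) = puigStep (puigSeq G n) := rfl

theorem puigSeq_one : puigSeq G 1 = ⊤ := puigStep_bot

theorem puig_chain (n : ℕ) : puigSeq G (2 * n) ≤ puigSeq G (2 * n + 2) ∧
    puigSeq G (2 * n + 3) ≤ puigSeq G (2 * n + 1) ∧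
    puigSeq G (2 * n) ≤ puigSeq G (2 * n + 1) ∧ puigSeq G (2 * n + 2) ≤ puigSeq G (2 * n + 1) := by
  induction n with
  | zero =>
    have h0 : puigSeq G 0 ≤ puigSeq G 2 := by rw [puigSeq_zero]; exact bot_le
    have h01 : puigSeq G 0 ≤ puigSeq G 1 := by rw [puigSeq_zero]; exact bot_le
    exact ⟨h0, puigStep_anti h0, h01, puigStep_anti h01⟩
  | succ n ih =>
    obtain ⟨a, b, c, d⟩ := ih
    have a' : puigSeq G (2 * n + 2) ≤ puigSeq G (2 * n + 4) := puigStep_anti b
    have b' : puigSeq G (2 * n + 5) ≤ puigSeq G (2 * n + 3) := puigStep_anti a'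
    have c' : puigSeq G (2 * n + 2) ≤ puigSeq G (2 * n + 3) := puigStep_anti d
    have d' : puigSeq G (2 * n + 4) ≤ puigSeq G (2 * n + 3) := puigStep_anti c'
    have e : 2 * (n + 1) = 2 * n + 2 := by ring
    rw [e]
    exact ⟨a', b', c', d'⟩

theorem even_mono : Monotone (fun n : ℕ => puigSeq G (2 * n)) := by
  apply monotone_nat_of_le_succ
  intro n
  have e : 2 * (n + 1) = 2 * n + 2 := by ring
  show puigSeq G (2 * n) ≤ puigSeq G (2 * (n + 1))
  rw [e]; exact (puig_chain n).1

theorem odd_anti : Antitone (fun n : ℕ => puigSeq G (2 * n + 1)) := by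
  apply antitone_nat_of_succ_le
  intro n
  have e : 2 * (n + 1) + 1 = 2 * n + 3 := by ring
  show puigSeq G (2 * (n + 1) + 1) ≤ puigSeq G (2 * n + 1)
  rw [e]; exact (puig_chain n).2.1

theorem even_le_odd (n m : ℕ) : puigSeq G (2 * n) ≤ puigSeq G (2 * m + 1) :=
  calc puigSeq G (2 * n) ≤ puigSeq G (2 * (max n m)) := even_mono (le_max_left n m)
    _ ≤ puigSeq G (2 * (max n m) + 1) := (puig_chain _).2.2.1
    _ ≤ puigSeq G (2 * m + 1) := odd_anti (le_max_right n m)

theorem exists_stable [Finite G] : ∃ k : ℕ, ∀ n : ℕ, k ≤ n →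
    puigSeq G (2 * n) = puigLower G ∧ puigSeq G (2 * n + 1) = puigSubgroup G := by
  obtain ⟨k₁, hk₁⟩ := WellFoundedGT.monotone_chain_condition
    (⟨fun n : ℕ => puigSeq G (2 * n), even_mono⟩ : ℕ →o Subgroup G)
  obtain ⟨k₂, hk₂⟩ := WellFoundedGT.monotone_chain_condition
    (⟨fun n : ℕ => OrderDual.toDual (puigSeq G (2 * n + 1)), fun a b h => odd_anti h⟩ :
      ℕ →o (Subgroup G)ᵒᵈ)
  have hL : puigLower G = puigSeq G (2 * k₁) := by
    apply le_antisymm
    · apply iSup_le
      intro n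
      have h1 := hk₁ (max n k₁) (le_max_right _ _)
      have h2 : puigSeq G (2 * n) ≤ puigSeq G (2 * (max n k₁)) := even_mono (le_max_left _ _)
      exact h2.trans (le_of_eq h1.symm)
    · exact le_iSup (fun n : ℕ => puigSeq G (2 * n)) k₁
  have hU : puigSubgroup G = puigSeq G (2 * k₂ + 1) := by
    apply le_antisymm
    · exact iInf_le (fun n : ℕ => puigSeq G (2 * n + 1)) k₂
    · apply le_iInf
      intro n
      have h1 : puigSeq G (2 * k₂ + 1) = puigSeq G (2 * (max n k₂) + 1) :=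
        congrArg OrderDual.ofDual (hk₂ (max n k₂) (le_max_right _ _))
      have h2 : puigSeq G (2 * (max n k₂) + 1) ≤ puigSeq G (2 * n + 1) :=
        odd_anti (le_max_left _ _)
      exact (le_of_eq h1).trans h2
  refine ⟨max k₁ k₂, fun n hn => ⟨?_, ?_⟩⟩
  · rw [hL]; exact (hk₁ n ((le_max_left _ _).trans hn)).symm
  · rw [hU]
    exact (congrArg OrderDual.ofDual (hk₂ n ((le_max_right _ _).trans hn))).symm

theorem puigLower_le_puigSubgroup : puigLower G ≤ puigSubgroup G :=
  iSup_le fun n => le_iInf fun m => even_le_odd n m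

end Cfsg.Agent.Lib.Helper2.Puig
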