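import Cfsg.Prelude.Def_LieRecognition
import Mathlib

set_option autoImplicit false

namespace Cfsg.Agent.Lib.Helper2.RankOne

variable {G Ω : Type*} [Group G] [MulAction G Ω] {a : Ω} {t : G} {Q : Subgroup G}

theorem tsmul_ne (hS : Cfsg.IsRankOneSetup G Ω a t Q) : t • a ≠ a :=
  fun h => hS.not_mem (MulAction.mem_stabilizer_iff.mpr h)

theorem t_inv (hS : Cfsg.IsRankOneSetup G Ω a t Q) : t⁻¹ = t :=
  inv_eq_of_mul_eq_one_left hS.mul_self

theorem tt_smul (hS : Cfsg.IsRankOneSetup G Ω a t Q) (c : Ω) : t • t • c = c := by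
  rw [← mul_smul, hS.mul_self, one_smul]

/-- `G_a = Q D`. -/
theorem stab_decomp (hS : Cfsg.IsRankOneSetup G Ω a t Q) (g : G)
    (hg : g ∈ MulAction.stabilizer G a) :
    ∃ x ∈ Q, ∃ d ∈ MulAction.stabilizer G a ⊓ MulAction.stabilizer G (t • a), g = x * d := by
  have hle : (MulAction.stabilizer G a ⊓ MulAction.stabilizer G (t • a))
      ≤ Subgroup.normalizer (Q : Set G) := by
    intro d hd
    rw [Subgroup.mem_normalizer_iff]
    intro x
    constructor
    · intro hx; exact hS.conj_mem d (Subgroup.mem_inf.mp hd).1 x hx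
    · intro hx
      have := hS.conj_mem d⁻¹ (inv_mem (Subgroup.mem_inf.mp hd).1) _ hx
      have e : d⁻¹ * (d * x * d⁻¹) * d⁻¹⁻¹ = x := by group
      rwa [e] at this
  have h := Subgroup.coe_mul_of_right_le_normalizer_left Q _ hle
  have hg' : g ∈ ((Q ⊔ (MulAction.stabilizer G a ⊓ MulAction.stabilizer G (t • a)) : Subgroup G)
      : Set G) := by
    rw [hS.sup_eq]; exact hg
  rw [h] at hg'
  obtain ⟨x, hx, d, hd, hxd⟩ := Set.mem_mul.mp hg'
  exact ⟨x, hx, d, hd, hxd.symm⟩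

/-- `Q` is transitive on the points other than `a`. -/
theorem exists_Q_smul (hS : Cfsg.IsRankOneSetup G Ω a t Q) (c : Ω) (hc : c ≠ a) :
    ∃ x ∈ Q, x • (t • a) = c := by
  have h2 : ∀ (a b c d : Ω), a ≠ b → c ≠ d → ∃ g : G, g • a = c ∧ g • b = d :=
    fun a b c d h h' => MulAction.is_two_pretransitive_iff.mp hS.two_transitive h h'
  obtain ⟨g, hga, hgb⟩ := h2 a (t • a) a c (tsmul_ne hS).symm hc.symm
  obtain ⟨x, hx, d, hd, rfl⟩ := stab_decomp hS g (MulAction.mem_stabilizer_iff.mpr hga)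
  refine ⟨x, hx, ?_⟩
  rw [mul_smul, MulAction.mem_stabilizer_iff.mp (Subgroup.mem_inf.mp hd).2] at hgb
  exact hgb

/-- `Q` acts freely on the points other than `a`. -/
theorem Q_free (hS : Cfsg.IsRankOneSetup G Ω a t Q) (x : G) (hx : x ∈ Q) (c : Ω) (hc : c ≠ a)
    (hxc : x • c = c) : x = 1 := by
  obtain ⟨y, hy, rfl⟩ := exists_Q_smul hS c hc
  have h1 : y⁻¹ * x * y ∈ Q ⊓ MulAction.stabilizer G (t • a) := by
    refine Subgroup.mem_inf.mpr ⟨mul_mem (mul_mem (inv_mem hy) hx) hy, ?_⟩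
    rw [MulAction.mem_stabilizer_iff, mul_smul, mul_smul, hxc, inv_smul_smul]
  rw [hS.inf_eq_bot, Subgroup.mem_bot] at h1
  have : x = y * (y⁻¹ * x * y) * y⁻¹ := by group
  rw [this, h1]; group

theorem Q_fix (hS : Cfsg.IsRankOneSetup G Ω a t Q) (x : G) (hx : x ∈ Q) : x • a = a :=
  MulAction.mem_stabilizer_iff.mp (hS.le hx)

/-- A non-identity element of `Q` fixes only `a`. -/
theorem Q_fixed_eq (hS : Cfsg.IsRankOneSetup G Ω a t Q) (x : G) (hx : x ∈ Q) (hx1 : x ≠ 1)
    (c : Ω) (hxc : x • c = c) : c = a := by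
  by_contra hc
  exact hx1 (Q_free hS x hx c hc hxc)

theorem Q_regular (hS : Cfsg.IsRankOneSetup G Ω a t Q) (b c : Ω) (hb : b ≠ a) (hc : c ≠ a) :
    ∃! x : Q, (x : G) • b = c := by
  obtain ⟨y, hy, rfl⟩ := exists_Q_smul hS b hb
  obtain ⟨y', hy', rfl⟩ := exists_Q_smul hS c hc
  refine ⟨⟨y' * y⁻¹, mul_mem hy' (inv_mem hy)⟩, ?_, ?_⟩
  · show (y' * y⁻¹) • y • t • a = y' • t • a
    rw [mul_smul, inv_smul_smul]
  · rintro ⟨x, hx⟩ hxe
    apply Subtype.ext
    show x = y' * y⁻¹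
    have hxe' : x • y • t • a = y' • t • a := hxe
    have h1 : (x * (y' * y⁻¹)⁻¹) • (y' • t • a) = y' • t • a := by
      rw [mul_smul, mul_inv_rev, inv_inv, mul_smul, inv_smul_smul, hxe']
    have := Q_free hS _ (mul_mem hx (inv_mem (mul_mem hy' (inv_mem hy)))) _ hc h1
    exact mul_inv_eq_one.mp this

/-- `t` normalizes the two-point stabilizer. -/
theorem D_conj_t (hS : Cfsg.IsRankOneSetup G Ω a t Q) (d : G)
    (hd : d ∈ MulAction.stabilizer G a ⊓ MulAction.stabilizer G (t • a)) :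
    t * d * t ∈ MulAction.stabilizer G a ⊓ MulAction.stabilizer G (t • a) := by
  have h1 := MulAction.mem_stabilizer_iff.mp (Subgroup.mem_inf.mp hd).1
  have h2 := MulAction.mem_stabilizer_iff.mp (Subgroup.mem_inf.mp hd).2
  refine Subgroup.mem_inf.mpr ⟨?_, ?_⟩
  · rw [MulAction.mem_stabilizer_iff, mul_smul, mul_smul, h2, tt_smul hS]
  · rw [MulAction.mem_stabilizer_iff, mul_smul, mul_smul, tt_smul hS, h1]

/-- Uniqueness in `G_a = Q D`. -/
theorem QD_unique (hS : Cfsg.IsRankOneSetup G Ω a t Q) (g g' h h' : G) (hg : g ∈ Q) (hg' : g' ∈ Q)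
    (hh : h ∈ MulAction.stabilizer G a ⊓ MulAction.stabilizer G (t • a))
    (hh' : h' ∈ MulAction.stabilizer G a ⊓ MulAction.stabilizer G (t • a))
    (heq : g * h = g' * h') : g = g' ∧ h = h' := by
  have h1 : g'⁻¹ * g ∈ Q ⊓ MulAction.stabilizer G (t • a) := by
    refine Subgroup.mem_inf.mpr ⟨mul_mem (inv_mem hg') hg, ?_⟩
    have e : g'⁻¹ * g = h' * h⁻¹ := by
      calc g'⁻¹ * g = g'⁻¹ * (g * h) * h⁻¹ := by group
        _ = g'⁻¹ * (g' * h') * h⁻¹ := by rw [heq]
        _ = h' * h⁻¹ := by group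
    rw [e]
    exact mul_mem (Subgroup.mem_inf.mp hh').2 (inv_mem (Subgroup.mem_inf.mp hh).2)
  rw [hS.inf_eq_bot, Subgroup.mem_bot] at h1
  have hgg : g = g' := by
    have : g = g' * (g'⁻¹ * g) := by group
    rw [this, h1, mul_one]
  subst hgg
  exact ⟨rfl, mul_left_cancel heq⟩

/-- Uniqueness of the canonical form `x t y`. -/
theorem canon_unique (hS : Cfsg.IsRankOneSetup G Ω a t Q) (x x' y y' : G)
    (hx : x ∈ MulAction.stabilizer G a) (hx' : x' ∈ MulAction.stabilizer G a)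
    (hy : y ∈ Q) (hy' : y' ∈ Q) (heq : x * t * y = x' * t * y') : x = x' ∧ y = y' := by
  have hxa : x⁻¹ • a = a := MulAction.mem_stabilizer_iff.mp (inv_mem hx)
  have hxa' : x'⁻¹ • a = a := MulAction.mem_stabilizer_iff.mp (inv_mem hx')
  have h1 : (x * t * y)⁻¹ • a = y⁻¹ • t • a := by
    rw [mul_inv_rev, mul_inv_rev, mul_smul, mul_smul, hxa, t_inv hS]
  have h2 : (x' * t * y')⁻¹ • a = y'⁻¹ • t • a := by
    rw [mul_inv_rev, mul_inv_rev, mul_smul, mul_smul, hxa', t_inv hS]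
  rw [heq, h2] at h1
  have h3 : (y * y'⁻¹) • (t • a) = t • a := by
    rw [mul_smul, h1, smul_inv_smul]
  have h4 := Q_free hS _ (mul_mem hy (inv_mem hy')) _ (tsmul_ne hS) h3
  have hyy : y = y' := mul_inv_eq_one.mp h4
  subst hyy
  refine ⟨?_, rfl⟩
  have := mul_right_cancel heq
  exact mul_right_cancel this

/-- Uniqueness of the form `g h t f`. -/
theorem canon3_unique (hS : Cfsg.IsRankOneSetup G Ω a t Q) (g g' h h' f f' : G)
    (hg : g ∈ Q) (hg' : g' ∈ Q)
    (hh : h ∈ MulAction.stabilizer G a ⊓ MulAction.stabilizer G (t • a))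
    (hh' : h' ∈ MulAction.stabilizer G a ⊓ MulAction.stabilizer G (t • a))
    (hf : f ∈ Q) (hf' : f' ∈ Q)
    (heq : g * h * t * f = g' * h' * t * f') : g = g' ∧ h = h' ∧ f = f' := by
  have h1 := canon_unique hS (g * h) (g' * h') f f'
    (mul_mem (hS.le hg) (Subgroup.mem_inf.mp hh).1)
    (mul_mem (hS.le hg') (Subgroup.mem_inf.mp hh').1) hf hf' heq
  have h2 := QD_unique hS g g' h h' hg hg' hh hh' h1.1
  exact ⟨h2.1, h2.2, h1.2⟩

/-- Existence of the canonical form. -/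
theorem canon_exists (hS : Cfsg.IsRankOneSetup G Ω a t Q) (g : G)
    (hg : g ∉ MulAction.stabilizer G a) :
    ∃ x ∈ MulAction.stabilizer G a, ∃ y ∈ Q, g = x * t * y := by
  have hga : g⁻¹ • a ≠ a := by
    intro h
    apply hg
    have := MulAction.mem_stabilizer_iff.mpr h
    simpa using inv_mem this
  obtain ⟨y', hy', hy'e⟩ := exists_Q_smul hS _ hga
  refine ⟨g * y' * t, ?_, y'⁻¹, inv_mem hy', ?_⟩
  · rw [MulAction.mem_stabilizer_iff, mul_smul, mul_smul, hy'e, smul_inv_smul]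
  · have : g * y' * t * t * y'⁻¹ = g * y' * (t * t) * y'⁻¹ := by group
    rw [this, hS.mul_self]; group

theorem Q_ne_bot [Finite G] (hS : Cfsg.IsRankOneSetup G Ω a t Q) : ∃ x ∈ Q, x ≠ 1 := by
  by_contra h
  push Not at h
  have hQ : Q = ⊥ := by
    rw [Subgroup.eq_bot_iff_forall]; exact h
  have h1 := hS.even_card
  rw [hQ, Subgroup.card_bot] at h1
  exact (by decide : ¬ Even 1) h1

/-- Involutions of `G_a` lie in `Q`. -/
theorem invol_mem_Q [Finite G] (hS : Cfsg.IsRankOneSetup G Ω a t Q) (s : G)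
    (hs : s ∈ MulAction.stabilizer G a) (hss : s * s = 1) : s ∈ Q := by
  obtain ⟨x, hx, d, hd, rfl⟩ := stab_decomp hS s hs
  have hdd : d * d ∈ Q ⊓ MulAction.stabilizer G (t • a) := by
    refine Subgroup.mem_inf.mpr ⟨?_, mul_mem (Subgroup.mem_inf.mp hd).2 (Subgroup.mem_inf.mp hd).2⟩
    have e : d * d = (x * (d * x * d⁻¹))⁻¹ * (x * d * (x * d)) := by group
    rw [e, hss, mul_one]
    exact inv_mem (mul_mem hx (hS.conj_mem d (Subgroup.mem_inf.mp hd).1 x hx))
  rw [hS.inf_eq_bot, Subgroup.mem_bot] at hdd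
  have h2 : orderOf d ∣ 2 := orderOf_dvd_of_pow_eq_one (by rw [pow_two]; exact hdd)
  have h3 : orderOf d ∣ Nat.card ↥(MulAction.stabilizer G a ⊓ MulAction.stabilizer G (t • a)) := by
    have h4 : (⟨d, hd⟩ : ↥(MulAction.stabilizer G a ⊓ MulAction.stabilizer G (t • a))) ^
        Nat.card ↥(MulAction.stabilizer G a ⊓ MulAction.stabilizer G (t • a)) = 1 :=
      pow_card_eq_one'
    have h5 : (((⟨d, hd⟩ : ↥(MulAction.stabilizer G a ⊓ MulAction.stabilizer G (t • a))) ^
        Nat.card ↥(MulAction.stabilizer G a ⊓ MulAction.stabilizer G (t • a)) :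
        ↥(MulAction.stabilizer G a ⊓ MulAction.stabilizer G (t • a))) : G) = 1 := by
      rw [h4]; rfl
    rw [Subgroup.coe_pow] at h5
    exact orderOf_dvd_of_pow_eq_one h5
  have h6 : orderOf d ∣ Nat.gcd 2
      (Nat.card ↥(MulAction.stabilizer G a ⊓ MulAction.stabilizer G (t • a))) :=
    Nat.dvd_gcd h2 h3
  rw [Nat.coprime_two_left.mpr hS.odd_card] at h6
  have hd1 : d = 1 := orderOf_eq_one_iff.mp (Nat.dvd_one.mp h6)
  rw [hd1, mul_one]; exact hx

theorem card_Omega [Finite G] (hS : Cfsg.IsRankOneSetup G Ω a t Q) :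
    Nat.card Ω = Nat.card Q + 1 := by
  rw [← Finite.card_option]
  symm
  apply Nat.card_eq_of_bijective (fun o : Option Q => match o with
    | none => a
    | some x => (x : G) • (t • a))
  constructor
  · intro o o' h
    match o, o' with
    | none, none => rfl
    | none, some x =>
      exfalso
      have h' : a = (x : G) • (t • a) := h
      apply tsmul_ne hS
      have h1 : (x : G)⁻¹ • a = t • a := inv_smul_eq_iff.mpr h'
      rw [← h1]
      exact Q_fix hS _ (inv_mem x.2)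
    | some x, none =>
      exfalso
      have h' : (x : G) • (t • a) = a := h
      apply tsmul_ne hS
      have h1 : (x : G)⁻¹ • a = t • a := inv_smul_eq_iff.mpr h'.symm
      rw [← h1]
      exact Q_fix hS _ (inv_mem x.2)
    | some x, some x' =>
      have h' : (x : G) • (t • a) = (x' : G) • (t • a) := h
      have h1 : ((x' : G)⁻¹ * (x : G)) • (t • a) = t • a := by
        rw [mul_smul, h', inv_smul_smul]
      have h2 := Q_free hS _ (mul_mem (inv_mem x'.2) x.2) _ (tsmul_ne hS) h1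
      have h3 : (x : G) = (x' : G) := by
        have : (x : G) = (x' : G) * ((x' : G)⁻¹ * (x : G)) := by group
        rw [this, h2, mul_one]
      rw [Subtype.ext h3]
  · intro c
    by_cases hc : c = a
    · exact ⟨none, hc.symm⟩
    · obtain ⟨x, hx, hxc⟩ := exists_Q_smul hS c hc
      exact ⟨some ⟨x, hx⟩, hxc⟩

theorem card_stab [Finite G] (hS : Cfsg.IsRankOneSetup G Ω a t Q) :
    Nat.card ↥(MulAction.stabilizer G a) = Nat.card Q *
      Nat.card ↥(MulAction.stabilizer G a ⊓ MulAction.stabilizer G (t • a)) := by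
  rw [← Nat.card_prod]
  symm
  apply Nat.card_eq_of_bijective
    (fun p : Q × ↥(MulAction.stabilizer G a ⊓ MulAction.stabilizer G (t • a)) =>
      (⟨(p.1 : G) * (p.2 : G), mul_mem (hS.le p.1.2) (Subgroup.mem_inf.mp p.2.2).1⟩ :
        ↥(MulAction.stabilizer G a)))
  constructor
  · rintro ⟨⟨x, hx⟩, ⟨d, hd⟩⟩ ⟨⟨x', hx'⟩, ⟨d', hd'⟩⟩ h
    have h' : x * d = x' * d' := congrArg Subtype.val h
    obtain ⟨rfl, rfl⟩ := QD_unique hS x x' d d' hx hx' hd hd' h'
    rfl
  · rintro ⟨g, hg⟩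
    obtain ⟨x, hx, d, hd, rfl⟩ := stab_decomp hS g hg
    exact ⟨(⟨x, hx⟩, ⟨d, hd⟩), rfl⟩

theorem card_G [Finite G] (hS : Cfsg.IsRankOneSetup G Ω a t Q) :
    Nat.card G = Nat.card Q *
      Nat.card ↥(MulAction.stabilizer G a ⊓ MulAction.stabilizer G (t • a)) * (Nat.card Q + 1) := by
  have := hS.two_transitive
  have hpre : MulAction.IsPretransitive G Ω := MulAction.isPretransitive_of_is_two_pretransitive
  have h1 := (MulAction.stabilizer G a).index_mul_card
  rw [MulAction.index_stabilizer_of_transitive G a, card_Omega hS, card_stab hS] at h1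
  rw [← h1]; ring

theorem sylow_le_Q [Finite G] (hS : Cfsg.IsRankOneSetup G Ω a t Q) :
    ∃ P : Sylow 2 G, (P : Subgroup G) ≤ Q := by
  have hne : Nonempty (Sylow 2 Q) := inferInstance
  obtain ⟨P₀⟩ := hne
  have hcard : Nat.card ↥((P₀ : Subgroup Q).map Q.subtype) = 2 ^ (Nat.card G).factorization 2 := by
    have h1 : Nat.card ↥((P₀ : Subgroup Q).map Q.subtype) = Nat.card ↥(P₀ : Subgroup Q) :=
      Nat.card_congr ((P₀ : Subgroup Q).equivMapOfInjective _ Q.subtype_injective).symm.toEquiv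
    rw [h1, P₀.card_eq_multiplicity, card_G hS]
    congr 1
    have hQpos : Nat.card Q ≠ 0 := Nat.card_pos.ne'
    have hDpos : Nat.card ↥(MulAction.stabilizer G a ⊓ MulAction.stabilizer G (t • a)) ≠ 0 :=
      Nat.card_pos.ne'
    have hodd1 : ¬ 2 ∣ Nat.card ↥(MulAction.stabilizer G a ⊓ MulAction.stabilizer G (t • a)) := by
      rw [← even_iff_two_dvd, Nat.not_even_iff_odd]; exact hS.odd_card
    have hodd2 : ¬ 2 ∣ Nat.card Q + 1 := by
      rw [← even_iff_two_dvd, Nat.not_even_iff_odd]; exact hS.even_card.add_one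
    rw [Nat.factorization_mul (Nat.mul_ne_zero hQpos hDpos) (by omega),
      Nat.factorization_mul hQpos hDpos]
    rw [Finsupp.add_apply, Finsupp.add_apply, Nat.factorization_eq_zero_of_not_dvd hodd1,
      Nat.factorization_eq_zero_of_not_dvd hodd2, add_zero, add_zero]
  refine ⟨Sylow.ofCard _ hcard, ?_⟩
  rw [Sylow.coe_ofCard]
  exact Subgroup.map_subtype_le _

end Cfsg.Agent.Lib.Helper2.RankOne
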