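import Cfsg.Agent.Lib.Helper2.RankOne
import Cfsg.Agent.Lib.Helper2.Isolated

set_option autoImplicit false

namespace Cfsg.Agent.Lib.Helper2.RankOne

variable {G Ω : Type*} [Group G] [MulAction G Ω] {a : Ω} {t : G} {Q : Subgroup G}

theorem finite_Omega [Finite G] (hS : Cfsg.IsRankOneSetup G Ω a t Q) : Finite Ω := by
  apply Nat.finite_of_card_ne_zero
  rw [card_Omega hS]; omega

/-- Every involution has a fixed point. -/
theorem invol_fixed_point [Finite G] (hS : Cfsg.IsRankOneSetup G Ω a t Q) (u : G) (hu1 : u ≠ 1)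
    (huu : u * u = 1) : ∃ c : Ω, u • c = c := by
  have hΩ : Finite Ω := finite_Omega hS
  have hord : orderOf u = 2 := orderOf_eq_prime (by rw [pow_two]; exact huu) hu1
  have hp : IsPGroup 2 (Subgroup.zpowers u) := by
    apply IsPGroup.of_card (n := 1)
    rw [Nat.card_zpowers, hord, pow_one]
  have hmod := hp.card_modEq_card_fixedPoints Ω
  have hoddΩ : Nat.card Ω % 2 = 1 := by
    rw [card_Omega hS]
    obtain ⟨k, hk⟩ := hS.even_card
    omega
  have hfix : Nat.card (MulAction.fixedPoints (Subgroup.zpowers u) Ω) ≠ 0 := by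
    intro h0
    rw [Nat.ModEq, h0, hoddΩ] at hmod
    omega
  have hne : Nonempty (MulAction.fixedPoints (Subgroup.zpowers u) Ω) := by
    by_contra hemp
    rw [not_nonempty_iff] at hemp
    exact hfix Nat.card_of_isEmpty
  obtain ⟨⟨c, hc⟩⟩ := hne
  exact ⟨c, hc ⟨u, Subgroup.mem_zpowers u⟩⟩

/-- An involution of `G_a` fixes only `a`. -/
theorem invol_fix_unique [Finite G] (hS : Cfsg.IsRankOneSetup G Ω a t Q) (s : G)
    (hs : s ∈ MulAction.stabilizer G a) (hs1 : s ≠ 1) (hss : s * s = 1) (c : Ω)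
    (hc : s • c = c) : c = a :=
  Q_fixed_eq hS s (invol_mem_Q hS s hs hss) hs1 c hc

/-- There is an involution in `G_a`. -/
theorem exists_invol [Finite G] (hS : Cfsg.IsRankOneSetup G Ω a t Q) :
    ∃ s ∈ Q, s ≠ 1 ∧ s * s = 1 := by
  have h2 : 2 ∣ Nat.card Q := even_iff_two_dvd.mp hS.even_card
  obtain ⟨x, hx⟩ := exists_prime_orderOf_dvd_card' 2 h2
  refine ⟨x, x.2, ?_, ?_⟩
  · intro h
    have hx1 : x = 1 := Subtype.ext h
    rw [hx1, orderOf_one] at hx
    omega
  · have h3 : x ^ 2 = 1 := by rw [← hx]; exact pow_orderOf_eq_one x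
    have h4 : ((x ^ 2 : Q) : G) = 1 := by rw [h3]; rfl
    rw [Subgroup.coe_pow, pow_two] at h4
    exact h4

/-- Product of an involution of `G_a` with one outside `G_a` has odd order. -/
theorem odd_order_mul [Finite G] (hS : Cfsg.IsRankOneSetup G Ω a t Q) (s u : G)
    (hs : s ∈ MulAction.stabilizer G a) (hs1 : s ≠ 1) (hss : s * s = 1)
    (hu : u ∉ MulAction.stabilizer G a) (huu : u * u = 1) : Odd (orderOf (s * u)) := by
  rw [← Nat.not_even_iff_odd]
  rintro ⟨m, hm⟩
  have hsinv : s⁻¹ = s := inv_eq_of_mul_eq_one_left hss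
  have huinv : u⁻¹ = u := inv_eq_of_mul_eq_one_left huu
  have hsr : s * (s * u) * s⁻¹ = (s * u)⁻¹ := by
    rw [mul_inv_rev, hsinv, huinv, ← mul_assoc, hss, one_mul]
  have hur : u * (s * u) * u⁻¹ = (s * u)⁻¹ := by
    rw [mul_inv_rev, hsinv, huinv, mul_assoc, mul_assoc, huu, mul_one]
  have hmpos : 0 < m := by
    have := orderOf_pos (s * u); omega
  have hz1 : (s * u) ^ m ≠ 1 := by
    intro h1
    have h2 := orderOf_dvd_of_pow_eq_one h1
    have := Nat.le_of_dvd hmpos h2; omega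
  have hzz : (s * u) ^ m * (s * u) ^ m = 1 := by
    rw [← pow_add, ← hm, pow_orderOf_eq_one]
  have hsz : s * (s * u) ^ m * s⁻¹ = (s * u) ^ m := by
    rw [Cfsg.Agent.Lib.Helper2.inv_conj_pow s (s * u) hsr m]; exact inv_eq_of_mul_eq_one_left hzz
  have huz : u * (s * u) ^ m * u⁻¹ = (s * u) ^ m := by
    rw [Cfsg.Agent.Lib.Helper2.inv_conj_pow u (s * u) hur m]; exact inv_eq_of_mul_eq_one_left hzz
  generalize (s * u) ^ m = z at hz1 hzz hsz huz
  have hsQ : s ∈ Q := invol_mem_Q hS s hs hss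
  have hsz' : s * z = z * s := by
    calc s * z = (s * z * s⁻¹) * s := by group
      _ = z * s := by rw [hsz]
  have huz' : u * z = z * u := by
    calc u * z = (u * z * u⁻¹) * u := by group
      _ = z * u := by rw [huz]
  have hza : z • a = a := by
    apply Q_fixed_eq hS s hsQ hs1
    rw [← mul_smul, hsz', mul_smul, Q_fix hS s hsQ]
  have hzQ : z ∈ Q := invol_mem_Q hS z (MulAction.mem_stabilizer_iff.mpr hza) hzz
  apply hu
  rw [MulAction.mem_stabilizer_iff]
  apply Q_fixed_eq hS z hzQ hz1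
  rw [← mul_smul, ← huz', mul_smul, hza]

end Cfsg.Agent.Lib.Helper2.RankOne
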