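import Cfsg.Agent.Lib.Helper2.RankOne2

set_option autoImplicit false

namespace Cfsg.Agent.Lib.Helper2.RankOne

variable {G Ω : Type*} [Group G] [MulAction G Ω] {a : Ω} {t : G} {Q : Subgroup G}

/-- An element of the two-point stabiliser with square one is trivial. -/
theorem D_sq_eq_one [Finite G] (hS : Cfsg.IsRankOneSetup G Ω a t Q) (d : G)
    (hd : d ∈ MulAction.stabilizer G a ⊓ MulAction.stabilizer G (t • a)) (hdd : d * d = 1) :
    d = 1 := by
  have h2 : orderOf d ∣ 2 := orderOf_dvd_of_pow_eq_one (by rw [pow_two]; exact hdd)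
  have h3 : orderOf d ∣ Nat.card ↥(MulAction.stabilizer G a ⊓ MulAction.stabilizer G (t • a)) := by
    have h4 : (⟨d, hd⟩ : ↥(MulAction.stabilizer G a ⊓ MulAction.stabilizer G (t • a))) ^
        Nat.card ↥(MulAction.stabilizer G a ⊓ MulAction.stabilizer G (t • a)) = 1 :=
      pow_card_eq_one'
    have h5 : (((⟨d, hd⟩ : ↥(MulAction.stabilizer G a ⊓ MulAction.stabilizer G (t • a))) ^
        Nat.card ↥(MulAction.stabilizer G a ⊓ MulAction.stabilizer G (t • a)) :
        ↥(MulAction.stabilizer G a ⊓ MulAction.stabilizer G (t • a))) : G) = 1 := by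
      rw [h4]; rfl
    rw [Subgroup.coe_pow] at h5
    exact orderOf_dvd_of_pow_eq_one h5
  have h6 : orderOf d ∣ Nat.gcd 2
      (Nat.card ↥(MulAction.stabilizer G a ⊓ MulAction.stabilizer G (t • a))) :=
    Nat.dvd_gcd h2 h3
  rw [Nat.coprime_two_left.mpr hS.odd_card] at h6
  exact orderOf_eq_one_iff.mp (Nat.dvd_one.mp h6)

/-- `t s' t` is an involution outside `G_a` fixing only `t • a`. -/
theorem conj_t_props [Finite G] (hS : Cfsg.IsRankOneSetup G Ω a t Q) (s' : G)
    (hs' : s' ∈ MulAction.stabilizer G a) (hs'1 : s' ≠ 1) (hs's' : s' * s' = 1) :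
    (t * s' * t) * (t * s' * t) = 1 ∧ t * s' * t ∉ MulAction.stabilizer G a ∧
      ∀ p : Ω, (t * s' * t) • p = p → p = t • a := by
  have htt := hS.mul_self
  have hfix : ∀ p : Ω, (t * s' * t) • p = p → p = t • a := by
    intro p hp
    rw [mul_smul, mul_smul] at hp
    have h2 : s' • (t • p) = t • p := by
      calc s' • (t • p) = t • (t • s' • t • p) := by rw [tt_smul hS]
        _ = t • p := by rw [hp]
    have h3 := invol_fix_unique hS s' hs' hs'1 hs's' _ h2
    calc p = t • (t • p) := by rw [tt_smul hS]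
      _ = t • a := by rw [h3]
  refine ⟨?_, ?_, hfix⟩
  · have : (t * s' * t) * (t * s' * t) = t * s' * (t * t) * s' * t := by group
    rw [this, htt, mul_one, mul_assoc t, hs's', mul_one, htt]
  · intro h
    exact tsmul_ne hS (hfix a (MulAction.mem_stabilizer_iff.mp h)).symm

/-- The midpoint involution of an involution `s` of `G_a` and `t s' t`. -/
theorem midpoint [Finite G] (hS : Cfsg.IsRankOneSetup G Ω a t Q) (s s' : G)
    (hs : s ∈ MulAction.stabilizer G a) (hs1 : s ≠ 1) (hss : s * s = 1)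
    (hs' : s' ∈ MulAction.stabilizer G a) (hs'1 : s' ≠ 1) (hs's' : s' * s' = 1) :
    ∃ w : G, w * w = 1 ∧ w * s * w⁻¹ = t * s' * t ∧ w • a = t • a ∧
      (∀ c : G, c * s = s * c → c * (t * s' * t) = (t * s' * t) * c → c * w = w * c) := by
  obtain ⟨hvv, hvGa, hvfix⟩ := conj_t_props hS s' hs' hs'1 hs's'
  obtain ⟨j, hj⟩ := odd_order_mul hS s (t * s' * t) hs hs1 hss hvGa hvv
  have hconj := Cfsg.Agent.Lib.Helper2.invol_conj_of_odd s (t * s' * t) hss hvv j hj
  generalize t * s' * t = v at *
  have hsinv : s⁻¹ = s := inv_eq_of_mul_eq_one_left hss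
  have hvinv : v⁻¹ = v := inv_eq_of_mul_eq_one_left hvv
  have hsq : s * (s * v) * s⁻¹ = (s * v)⁻¹ := by
    rw [mul_inv_rev, hsinv, hvinv, ← mul_assoc, hss, one_mul]
  have hsX := Cfsg.Agent.Lib.Helper2.inv_conj_pow s (s * v) hsq j
  have hcX : ∀ c : G, c * s = s * c → c * v = v * c → c * (s * v) ^ j = (s * v) ^ j * c := by
    intro c hcs hcv
    have h1 : Commute c (s * v) := (show Commute c s from hcs).mul_right (show Commute c v from hcv)
    exact (h1.pow_right j).eq
  generalize (s * v) ^ j = X at hconj hsX hcX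
  have hww : (X * s) * (X * s) = 1 := by
    have h1 : s * X = X⁻¹ * s := by
      calc s * X = (s * X * s⁻¹) * s := by group
        _ = X⁻¹ * s := by rw [hsX]
    calc (X * s) * (X * s) = X * (s * X) * s := by group
      _ = X * (X⁻¹ * s) * s := by rw [h1]
      _ = s * s := by group
      _ = 1 := hss
  have hwsw : (X * s) * s * (X * s)⁻¹ = v := by
    have : (X * s) * s * (X * s)⁻¹ = X * s * X⁻¹ := by group
    rw [this, hconj]
  refine ⟨X * s, hww, hwsw, ?_, ?_⟩
  · apply hvfix
    rw [← hwsw]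
    have : ((X * s) * s * (X * s)⁻¹) • ((X * s) • a) = (X * s) • (s • a) := by
      rw [← mul_smul, ← mul_smul]
      congr 1
      group
    rw [this, MulAction.mem_stabilizer_iff.mp hs]
  · intro c hcs hcv
    calc c * (X * s) = (c * X) * s := by group
      _ = (X * c) * s := by rw [hcX c hcs hcv]
      _ = X * (c * s) := by group
      _ = X * (s * c) := by rw [hcs]
      _ = X * s * c := by group

end Cfsg.Agent.Lib.Helper2.RankOne
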