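import Cfsg.Agent.Lib.Helper2.RankOne3

set_option autoImplicit false

namespace Cfsg.Agent.Lib.Helper2.RankOne

variable {G Ω : Type*} [Group G] [MulAction G Ω] {a : Ω} {t : G} {Q : Subgroup G}

/-- Elements of the two-point stabiliser have odd order. -/
theorem D_odd_order [Finite G] (hS : Cfsg.IsRankOneSetup G Ω a t Q) (d : G)
    (hd : d ∈ MulAction.stabilizer G a ⊓ MulAction.stabilizer G (t • a)) : Odd (orderOf d) := by
  have h4 : (⟨d, hd⟩ : ↥(MulAction.stabilizer G a ⊓ MulAction.stabilizer G (t • a))) ^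
      Nat.card ↥(MulAction.stabilizer G a ⊓ MulAction.stabilizer G (t • a)) = 1 :=
    pow_card_eq_one'
  have h5 : (((⟨d, hd⟩ : ↥(MulAction.stabilizer G a ⊓ MulAction.stabilizer G (t • a))) ^
      Nat.card ↥(MulAction.stabilizer G a ⊓ MulAction.stabilizer G (t • a)) :
      ↥(MulAction.stabilizer G a ⊓ MulAction.stabilizer G (t • a))) : G) = 1 := by
    rw [h4]; rfl
  rw [Subgroup.coe_pow] at h5
  exact Odd.of_dvd_nat hS.odd_card (orderOf_dvd_of_pow_eq_one h5)

theorem D_pow_card [Finite G] (d : G)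
    (hd : d ∈ MulAction.stabilizer G a ⊓ MulAction.stabilizer G (t • a)) :
    d ^ Nat.card ↥(MulAction.stabilizer G a ⊓ MulAction.stabilizer G (t • a)) = 1 := by
  have h4 : (⟨d, hd⟩ : ↥(MulAction.stabilizer G a ⊓ MulAction.stabilizer G (t • a))) ^
      Nat.card ↥(MulAction.stabilizer G a ⊓ MulAction.stabilizer G (t • a)) = 1 :=
    pow_card_eq_one'
  have h5 : (((⟨d, hd⟩ : ↥(MulAction.stabilizer G a ⊓ MulAction.stabilizer G (t • a))) ^
      Nat.card ↥(MulAction.stabilizer G a ⊓ MulAction.stabilizer G (t • a)) :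
      ↥(MulAction.stabilizer G a ⊓ MulAction.stabilizer G (t • a))) : G) = 1 := by
    rw [h4]; rfl
  rw [Subgroup.coe_pow] at h5
  exact h5

/-- In the two-point stabiliser, an element inverted by another is trivial. -/
theorem D_inverted_eq_one [Finite G] (hS : Cfsg.IsRankOneSetup G Ω a t Q) (d₂ d : G)
    (hd₂ : d₂ ∈ MulAction.stabilizer G a ⊓ MulAction.stabilizer G (t • a))
    (hd : d ∈ MulAction.stabilizer G a ⊓ MulAction.stabilizer G (t • a))
    (hinv : d₂ * d * d₂⁻¹ = d⁻¹) : d = 1 := by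
  obtain ⟨j, hj⟩ := D_odd_order hS d₂ hd₂
  have h1 : Commute (d₂ ^ 2) d := by
    show d₂ ^ 2 * d = d * d₂ ^ 2
    have h2 : d₂ * d⁻¹ * d₂⁻¹ = d := by
      calc d₂ * d⁻¹ * d₂⁻¹ = (d₂ * d * d₂⁻¹)⁻¹ := by group
        _ = d := by rw [hinv, inv_inv]
    rw [pow_two]
    calc d₂ * d₂ * d = d₂ * (d₂ * d * d₂⁻¹) * d₂ := by group
      _ = d₂ * d⁻¹ * d₂ := by rw [hinv]
      _ = (d₂ * d⁻¹ * d₂⁻¹) * (d₂ * d₂) := by group
      _ = d * (d₂ * d₂) := by rw [h2]
  have h3 : (d₂ ^ 2) ^ (j + 1) = d₂ := by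
    rw [← pow_mul]
    have : 2 * (j + 1) = orderOf d₂ + 1 := by omega
    rw [this, pow_succ, pow_orderOf_eq_one, one_mul]
  have h4 : Commute d₂ d := by
    have := h1.pow_left (j + 1)
    rwa [h3] at this
  have h5 : d⁻¹ = d := by
    rw [← hinv]
    calc d₂ * d * d₂⁻¹ = (d₂ * d) * d₂⁻¹ := by group
      _ = (d * d₂) * d₂⁻¹ := by rw [h4.eq]
      _ = d := by group
  apply D_sq_eq_one hS d hd
  calc d * d = d * d⁻¹ := by rw [h5]
    _ = 1 := mul_inv_cancel d

/-- Point-stabilisers of the centraliser of a set are transitive on the other fixed points. -/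
theorem exists_centralizing [Finite G] (hS : Cfsg.IsRankOneSetup G Ω a t Q) (X : Set G)
    (p c c' : Ω) (hp : ∀ x ∈ X, x • p = p) (hc : ∀ x ∈ X, x • c = c) (hc' : ∀ x ∈ X, x • c' = c')
    (hcp : c ≠ p) (hc'p : c' ≠ p) :
    ∃ r ∈ Subgroup.centralizer X, r • p = p ∧ r • c = c' := by
  have := hS.two_transitive
  have hpre : MulAction.IsPretransitive G Ω := MulAction.isPretransitive_of_is_two_pretransitive
  obtain ⟨g, hg⟩ := MulAction.exists_smul_eq G a p
  have hc₁ : g⁻¹ • c ≠ a := by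
    intro h
    apply hcp
    rw [← hg, ← h, smul_inv_smul]
  have hc₁' : g⁻¹ • c' ≠ a := by
    intro h
    apply hc'p
    rw [← hg, ← h, smul_inv_smul]
  obtain ⟨⟨y, hy⟩, hyc, -⟩ := Q_regular hS _ _ hc₁ hc₁'
  have hyc' : y • g⁻¹ • c = g⁻¹ • c' := hyc
  refine ⟨g * y * g⁻¹, ?_, ?_, ?_⟩
  · rw [Subgroup.mem_centralizer_iff]
    intro x hx
    have hxa : (g⁻¹ * x * g) ∈ MulAction.stabilizer G a := by
      rw [MulAction.mem_stabilizer_iff, mul_smul, mul_smul, hg, hp x hx, ← hg, inv_smul_smul]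
    have hxinv : x⁻¹ • c = c := by
      rw [inv_smul_eq_iff]; exact (hc x hx).symm
    have hz : y⁻¹ * ((g⁻¹ * x * g) * y * (g⁻¹ * x * g)⁻¹) ∈ Q :=
      mul_mem (inv_mem hy) (hS.conj_mem _ hxa y hy)
    have s1 : (g⁻¹ * x * g)⁻¹ • (g⁻¹ • c) = g⁻¹ • c := by
      rw [inv_smul_eq_iff, mul_smul, mul_smul, smul_inv_smul, hc x hx]
    have s2 : (g⁻¹ * x * g) • (g⁻¹ • c') = g⁻¹ • c' := by
      rw [mul_smul, mul_smul, smul_inv_smul, hc' x hx]
    have s3 : y⁻¹ • (g⁻¹ • c') = g⁻¹ • c := by rw [inv_smul_eq_iff, hyc']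
    have hzfix : (y⁻¹ * ((g⁻¹ * x * g) * y * (g⁻¹ * x * g)⁻¹)) • (g⁻¹ • c) = g⁻¹ • c := by
      generalize g⁻¹ * x * g = X' at s1 s2
      rw [mul_smul, mul_smul, mul_smul, s1, hyc', s2, s3]
    have hz1 := Q_free hS _ hz _ hc₁ hzfix
    have hcomm : (g⁻¹ * x * g) * y = y * (g⁻¹ * x * g) := by
      have : (g⁻¹ * x * g) * y = y * (y⁻¹ * ((g⁻¹ * x * g) * y * (g⁻¹ * x * g)⁻¹)) * (g⁻¹ * x * g) := by
        group
      rw [this, hz1, mul_one]
    calc x * (g * y * g⁻¹) = g * ((g⁻¹ * x * g) * y) * g⁻¹ := by group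
      _ = g * (y * (g⁻¹ * x * g)) * g⁻¹ := by rw [hcomm]
      _ = g * y * g⁻¹ * x := by group
  · rw [mul_smul, mul_smul, ← hg, inv_smul_smul, Q_fix hS y hy]
  · rw [mul_smul, mul_smul, hyc', smul_inv_smul]

/-- The centraliser of a set with at least three fixed points is doubly transitive on the
fixed points. -/
theorem two_trans_centralizer [Finite G] (hS : Cfsg.IsRankOneSetup G Ω a t Q) (X : Set G)
    (h3 : ∃ b c d : Ω, b ≠ c ∧ b ≠ d ∧ c ≠ d ∧ ∀ x ∈ X, x • b = b ∧ x • c = c ∧ x • d = d)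
    (b₁ b₂ c₁ c₂ : Ω)
    (hfix : ∀ x ∈ X, x • b₁ = b₁ ∧ x • b₂ = b₂ ∧ x • c₁ = c₁ ∧ x • c₂ = c₂)
    (hb : b₁ ≠ b₂) (hc : c₁ ≠ c₂) :
    ∃ g ∈ Subgroup.centralizer X, g • b₁ = c₁ ∧ g • b₂ = c₂ := by
  -- Step 1
  have step1 : ∃ g₁ ∈ Subgroup.centralizer X, g₁ • b₁ = c₁ := by
    by_cases hbc : b₁ = c₁
    · exact ⟨1, one_mem _, by rw [one_smul, hbc]⟩
    · obtain ⟨b, c, d, hbc', hbd, hcd, hX⟩ := h3
      have hp : ∃ p : Ω, (∀ x ∈ X, x • p = p) ∧ b₁ ≠ p ∧ c₁ ≠ p := by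
        by_cases h1 : b₁ ≠ b ∧ c₁ ≠ b
        · exact ⟨b, fun x hx => (hX x hx).1, h1.1, h1.2⟩
        · by_cases h2 : b₁ ≠ c ∧ c₁ ≠ c
          · exact ⟨c, fun x hx => (hX x hx).2.1, h2.1, h2.2⟩
          · refine ⟨d, fun x hx => (hX x hx).2.2, ?_, ?_⟩
            · intro h
              subst h
              push Not at h1 h2
              by_cases e1 : b₁ = b
              · exact hbd e1.symm
              · by_cases e2 : b₁ = c
                · exact hcd e2.symm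
                · have := h1 e1
                  have := h2 e2
                  exact hbc' (by rw [← ‹c₁ = b›, ← ‹c₁ = c›])
            · intro h
              subst h
              push Not at h1 h2
              by_cases e1 : b₁ = b
              · by_cases e2 : b₁ = c
                · exact hbc' (by rw [← e1, ← e2])
                · have := h2 e2
                  exact hcd this.symm
              · have := h1 e1
                exact hbd this.symm
      obtain ⟨p, hpfix, hb₁p, hc₁p⟩ := hp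
      obtain ⟨r, hr, -, hrb⟩ := exists_centralizing hS X p b₁ c₁ hpfix (fun x hx => (hfix x hx).1)
        (fun x hx => (hfix x hx).2.2.1) hb₁p hc₁p
      exact ⟨r, hr, hrb⟩
  obtain ⟨g₁, hg₁, hg₁b⟩ := step1
  have hg₁c := Subgroup.mem_centralizer_iff.mp hg₁
  have hfix2 : ∀ x ∈ X, x • (g₁ • b₂) = g₁ • b₂ := by
    intro x hx
    rw [← mul_smul, hg₁c x hx, mul_smul, (hfix x hx).2.1]
  have hne : g₁ • b₂ ≠ c₁ := by
    rw [← hg₁b]
    intro h
    exact hb (smul_left_cancel g₁ h).symm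
  obtain ⟨r, hr, hrc, hrb⟩ := exists_centralizing hS X c₁ (g₁ • b₂) c₂
    (fun x hx => (hfix x hx).2.2.1) hfix2 (fun x hx => (hfix x hx).2.2.2) hne hc.symm
  refine ⟨r * g₁, mul_mem hr hg₁, ?_, ?_⟩
  · rw [mul_smul, hg₁b, hrc]
  · rw [mul_smul, hrb]

/-- An involution swapping `a` and `t • a` is a conjugate of `t` by an inverted element. -/
theorem swap_invol_conj [Finite G] (hS : Cfsg.IsRankOneSetup G Ω a t Q) (u : G) (huu : u * u = 1)
    (hua : u • a = t • a) (hub : u • (t • a) = a) :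
    ∃ k ∈ Cfsg.invertedBy (MulAction.stabilizer G a ⊓ MulAction.stabilizer G (t • a)) t,
      k⁻¹ * t * k = u := by
  have htt := hS.mul_self
  have htinv := t_inv hS
  have huinv : u⁻¹ = u := inv_eq_of_mul_eq_one_left huu
  have hk₁D : u * t ∈ MulAction.stabilizer G a ⊓ MulAction.stabilizer G (t • a) := by
    refine Subgroup.mem_inf.mpr ⟨?_, ?_⟩
    · rw [MulAction.mem_stabilizer_iff, mul_smul, hub]
    · rw [MulAction.mem_stabilizer_iff, mul_smul, tt_smul hS, hua]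
  have hk₁inv : t * (u * t) * t⁻¹ = (u * t)⁻¹ := by
    rw [mul_inv_rev, htinv, huinv, mul_assoc, mul_assoc, htt, mul_one]
  obtain ⟨j, hj⟩ := D_odd_order hS (u * t) hk₁D
  have hkD : (u * t) ^ j ∈ MulAction.stabilizer G a ⊓ MulAction.stabilizer G (t • a) :=
    pow_mem hk₁D j
  have hkinv := Cfsg.Agent.Lib.Helper2.inv_conj_pow t (u * t) hk₁inv j
  have hk2 : (u * t) ^ j * (u * t) ^ j = (u * t)⁻¹ := by
    have h1 : (u * t) ^ (2 * j) * (u * t) = 1 := by
      rw [← pow_succ, ← hj, pow_orderOf_eq_one]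
    rw [← pow_add, ← two_mul]
    exact eq_inv_of_mul_eq_one_left h1
  generalize (u * t) ^ j = k at hkD hkinv hk2
  refine ⟨k, ⟨hkD, hkinv⟩, ?_⟩
  have h1 : t * k = k⁻¹ * t := by
    calc t * k = (t * k * t⁻¹) * t := by group
      _ = k⁻¹ * t := by rw [hkinv]
  calc k⁻¹ * t * k = k⁻¹ * (t * k) := by group
    _ = k⁻¹ * (k⁻¹ * t) := by rw [h1]
    _ = (k * k)⁻¹ * t := by group
    _ = (u * t) * t := by rw [hk2, inv_inv]
    _ = u * (t * t) := by group
    _ = u := by rw [htt, mul_one]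

/-- If `X ⊆ D` has at least three fixed points, some involution centralising `X` swaps
`a` and `t • a`. -/
theorem exists_swap_invol [Finite G] (hS : Cfsg.IsRankOneSetup G Ω a t Q) (X : Set G)
    (hX : X ⊆ ((MulAction.stabilizer G a ⊓ MulAction.stabilizer G (t • a) : Subgroup G) : Set G))
    (h3 : ∃ b c d : Ω, b ≠ c ∧ b ≠ d ∧ c ≠ d ∧ ∀ x ∈ X, x • b = b ∧ x • c = c ∧ x • d = d) :
    ∃ u ∈ Subgroup.centralizer X, u * u = 1 ∧ u • a = t • a ∧ u • (t • a) = a := by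
  have hXa : ∀ x ∈ X, x • a = a := fun x hx =>
    MulAction.mem_stabilizer_iff.mp (Subgroup.mem_inf.mp (hX hx)).1
  have hXb : ∀ x ∈ X, x • (t • a) = t • a := fun x hx =>
    MulAction.mem_stabilizer_iff.mp (Subgroup.mem_inf.mp (hX hx)).2
  obtain ⟨g, hg, hga, hgb⟩ := two_trans_centralizer hS X h3 a (t • a) (t • a) a
    (fun x hx => ⟨hXa x hx, hXb x hx, hXb x hx, hXa x hx⟩) (tsmul_ne hS).symm (tsmul_ne hS)
  have hggD : g * g ∈ MulAction.stabilizer G a ⊓ MulAction.stabilizer G (t • a) := by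
    refine Subgroup.mem_inf.mpr ⟨?_, ?_⟩
    · rw [MulAction.mem_stabilizer_iff, mul_smul, hga, hgb]
    · rw [MulAction.mem_stabilizer_iff, mul_smul, hgb, hga]
  obtain ⟨m, hm⟩ := hS.odd_card
  have hpow := D_pow_card (g * g) hggD
  rw [hm] at hpow
  have heven : ∀ n : ℕ, (g * g) ^ n • a = a ∧ (g * g) ^ n • (t • a) = t • a := by
    intro n
    induction n with
    | zero => simp
    | succ n ih =>
      rw [pow_succ, mul_smul, mul_smul, mul_smul, mul_smul, hga, hgb, hga]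
      exact ih
  have hu : g ^ (2 * m + 1) = (g * g) ^ m * g := by
    rw [pow_succ, pow_mul, pow_two]
  refine ⟨g ^ (2 * m + 1), pow_mem hg _, ?_, ?_, ?_⟩
  · rw [← pow_add]
    have : 2 * m + 1 + (2 * m + 1) = 2 * (2 * m + 1) := by ring
    rw [this, pow_mul, pow_two, hpow]
  · rw [hu, mul_smul, hga, (heven m).2]
  · rw [hu, mul_smul, hgb, (heven m).1]

/-- An involution has at most one fixed point. -/
theorem invol_fixed_unique [Finite G] (hS : Cfsg.IsRankOneSetup G Ω a t Q) (u : G) (hu1 : u ≠ 1)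
    (huu : u * u = 1) (p p' : Ω) (hp : u • p = p) (hp' : u • p' = p') : p' = p := by
  have := hS.two_transitive
  have hpre : MulAction.IsPretransitive G Ω := MulAction.isPretransitive_of_is_two_pretransitive
  obtain ⟨g, hg⟩ := MulAction.exists_smul_eq G a p
  have hs : g⁻¹ * u * g ∈ MulAction.stabilizer G a := by
    rw [MulAction.mem_stabilizer_iff, mul_smul, mul_smul, hg, hp, ← hg, inv_smul_smul]
  have hs1 : g⁻¹ * u * g ≠ 1 := by
    intro h
    apply hu1
    have : u = g * (g⁻¹ * u * g) * g⁻¹ := by group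
    rw [this, h]; group
  have hss : (g⁻¹ * u * g) * (g⁻¹ * u * g) = 1 := by
    have : (g⁻¹ * u * g) * (g⁻¹ * u * g) = g⁻¹ * (u * u) * g := by group
    rw [this, huu]; group
  have h1 : (g⁻¹ * u * g) • (g⁻¹ • p') = g⁻¹ • p' := by
    rw [mul_smul, mul_smul, smul_inv_smul, hp']
  have h2 := invol_fix_unique hS _ hs hs1 hss _ h1
  rw [← hg, ← h2, smul_inv_smul]

end Cfsg.Agent.Lib.Helper2.RankOne
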