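import Mathlib
import Cfsg.Prelude.Def_Local
import Cfsg.Agent.Lib.Helper2.Comp7
import Cfsg.Agent.Lib.Helper2.Comp9
import Cfsg.Agent.Lib.Lead.Coprime

set_option autoImplicit false
set_option linter.unusedSectionVars false
set_option linter.style.haveILetI false

/-! products `XY` with `Y ≤ N(X)`: order, solvability, centralizers under coprime action -/

namespace Cfsg.Agent.Lib.Helper2.Sig

open Cfsg
open Cfsg.Agent.Lib.Helper2.Comp

variable {G : Type*} [Group G]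

theorem sup_of_le_normalizer [Finite G] {X Y : Subgroup G}
    (hn : Y ≤ Subgroup.normalizer (X : Set G)) :
    Nat.card ↥(X ⊔ Y) ∣ Nat.card X * Nat.card Y ∧
      (Group.IsSolvable X → Group.IsSolvable Y → Group.IsSolvable ↥(X ⊔ Y)) := by
  have hXK : X ≤ X ⊔ Y := le_sup_left
  have hKn : X ⊔ Y ≤ Subgroup.normalizer (X : Set G) := sup_le Subgroup.le_normalizer hn
  haveI hX' : (X.subgroupOf (X ⊔ Y)).Normal :=
    (Subgroup.normal_subgroupOf_iff_le_normalizer hXK).mpr hKn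
  let φ : Y →* (↥(X ⊔ Y) ⧸ X.subgroupOf (X ⊔ Y)) :=
    (QuotientGroup.mk' (X.subgroupOf (X ⊔ Y))).comp
      (Subgroup.inclusion (le_sup_right : Y ≤ X ⊔ Y))
  have hφ : Function.Surjective φ := by
    intro q
    induction q using QuotientGroup.induction_on with
    | H k =>
    obtain ⟨x, hx, y, hy, hk⟩ := Cfsg.Agent.Lib.Lead.mem_sup_of_le_normalizer hn k.2
    refine ⟨⟨y, hy⟩, ?_⟩
    show (QuotientGroup.mk (Subgroup.inclusion (le_sup_right : Y ≤ X ⊔ Y) ⟨y, hy⟩) :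
      _ ⧸ X.subgroupOf (X ⊔ Y)) = QuotientGroup.mk k
    rw [QuotientGroup.eq, Subgroup.mem_subgroupOf]
    show (y⁻¹ * (k : G)) ∈ X
    rw [hk]
    have h1 := (Subgroup.mem_normalizer_iff.mp (hn (Y.inv_mem hy)) x).mp hx
    simpa [mul_assoc] using h1
  constructor
  · have h1 := Subgroup.card_dvd_of_surjective φ hφ
    have h2 := Subgroup.card_mul_index (X.subgroupOf (X ⊔ Y))
    rw [← h2, Nat.card_congr (Subgroup.subgroupOfEquivOfLe hXK).toEquiv]
    exact Nat.mul_dvd_mul_left _ h1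
  · intro hXs hYs
    haveI : Group.IsSolvable (X.subgroupOf (X ⊔ Y)) :=
      Group.isSolvable_of_isSolvable_injective
        (f := (Subgroup.subgroupOfEquivOfLe hXK).toMonoidHom)
        (Subgroup.subgroupOfEquivOfLe hXK).injective
    haveI : Group.IsSolvable (↥(X ⊔ Y) ⧸ X.subgroupOf (X ⊔ Y)) :=
      Group.isSolvable_of_surjective hφ
    exact Group.isSolvable_of_ker_le_range (X.subgroupOf (X ⊔ Y)).subtype
      (QuotientGroup.mk' (X.subgroupOf (X ⊔ Y)))
      (by rw [QuotientGroup.ker_mk', Subgroup.range_subtype])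

theorem zpowers_le_centralizer_singleton {a g : G} (h : g * a = a * g) :
    Subgroup.zpowers a ≤ Subgroup.centralizer ({g} : Set G) := by
  rw [Subgroup.zpowers_le, Subgroup.mem_centralizer_singleton_iff]
  exact h.symm

theorem isSolvable_zpowers (a : G) : Group.IsSolvable (Subgroup.zpowers a) := by
  apply Group.isSolvable_of_comm
  rintro ⟨u, hu⟩ ⟨v, hv⟩
  obtain ⟨i, rfl⟩ := Subgroup.mem_zpowers_iff.mp hu
  obtain ⟨j, rfl⟩ := Subgroup.mem_zpowers_iff.mp hv
  apply Subtype.ext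
  show a ^ i * a ^ j = a ^ j * a ^ i
  rw [← zpow_add, ← zpow_add, add_comm]

/-- `C_{XY}(a) ≤ C_X(a) C_Y(a)` for coprime action -/
theorem centralizer_sup_le [Finite G] {X Y : Subgroup G} {a : G}
    (hn : Y ≤ Subgroup.normalizer (X : Set G)) (haX : a ∈ Subgroup.normalizer (X : Set G))
    (haY : a ∈ Subgroup.normalizer (Y : Set G)) (hcop : (orderOf a).Coprime (Nat.card Y)) :
    (X ⊔ Y) ⊓ Subgroup.centralizer ({a} : Set G) ≤
      (X ⊓ Subgroup.centralizer ({a} : Set G)) ⊔ (Y ⊓ Subgroup.centralizer ({a} : Set G)) := by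
  intro g hg
  obtain ⟨hgK, hga⟩ := Subgroup.mem_inf.mp hg
  have hga' : g * a = a * g := Subgroup.mem_centralizer_singleton_iff.mp hga
  have hKn : X ⊔ Y ≤ Subgroup.normalizer (X : Set G) := sup_le Subgroup.le_normalizer hn
  obtain ⟨x, hx, y, hy, hk⟩ := Cfsg.Agent.Lib.Lead.mem_sup_of_le_normalizer hn hgK
  have hy' : y = x⁻¹ * g := by rw [hk]; group
  have hzX : Subgroup.zpowers a ≤ Subgroup.normalizer (X : Set G) := Subgroup.zpowers_le.mpr haX
  have hzY : Subgroup.zpowers a ≤ Subgroup.normalizer (Y : Set G) := Subgroup.zpowers_le.mpr haY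
  have hzg : Subgroup.zpowers a ≤ Subgroup.centralizer ({g} : Set G) :=
    zpowers_le_centralizer_singleton hga'
  have hinv : ∀ c ∈ Subgroup.zpowers a, y⁻¹ * c * y * c⁻¹ ∈ X ⊓ Y := by
    intro c hc
    refine Subgroup.mem_inf.mpr ⟨?_, ?_⟩
    · have hcg : c * g = g * c := Subgroup.mem_centralizer_singleton_iff.mp (hzg hc)
      have hcg' : g * c⁻¹ = c⁻¹ * g := by
        have e : g * c⁻¹ = c⁻¹ * (c * g) * c⁻¹ := by group
        rw [e, hcg]; group
      have hu : x * (c * x⁻¹ * c⁻¹) ∈ X :=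
        X.mul_mem hx ((Subgroup.mem_normalizer_iff.mp (hzX hc) x⁻¹).mp (X.inv_mem hx))
      have h1 := (Subgroup.mem_normalizer_iff.mp (hKn (Subgroup.inv_mem _ hgK)) _).mp hu
      have e : y⁻¹ * c * y * c⁻¹ = g⁻¹ * (x * (c * x⁻¹ * c⁻¹)) * g⁻¹⁻¹ := by
        calc y⁻¹ * c * y * c⁻¹ = g⁻¹ * x * c * x⁻¹ * (g * c⁻¹) := by rw [hy']; group
          _ = g⁻¹ * x * c * x⁻¹ * (c⁻¹ * g) := by rw [hcg']
          _ = g⁻¹ * (x * (c * x⁻¹ * c⁻¹)) * g⁻¹⁻¹ := by group
      rw [e]; exact h1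
    · have h1 := (Subgroup.mem_normalizer_iff.mp (hzY hc) y).mp hy
      have h2 := Y.mul_mem (Y.inv_mem hy) h1
      simpa [mul_assoc] using h2
  have hcop' : (Nat.card (Subgroup.zpowers a)).Coprime (Nat.card Y) := by
    rw [Nat.card_zpowers]; exact hcop
  obtain ⟨d, hd, hyd⟩ := Cfsg.Agent.Lib.Lead.coset_fixed_point (Subgroup.zpowers a) Y (X ⊓ Y)
    hzY hcop' inf_le_right (le_normalizer_inf hzX hzY) (Or.inl (isSolvable_zpowers a)) y hy hinv
  have hyda : (y * d) * a = a * (y * d) :=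
    (Subgroup.mem_centralizer_iff.mp hyd a (Subgroup.mem_zpowers a)).symm
  have hy'' : y * d ∈ Y ⊓ Subgroup.centralizer ({a} : Set G) :=
    Subgroup.mem_inf.mpr ⟨Y.mul_mem hy (Subgroup.mem_inf.mp hd).2,
      Subgroup.mem_centralizer_singleton_iff.mpr hyda⟩
  have hx'' : g * (y * d)⁻¹ ∈ X ⊓ Subgroup.centralizer ({a} : Set G) := by
    refine Subgroup.mem_inf.mpr ⟨?_, ?_⟩
    · have h1 := (Subgroup.mem_normalizer_iff.mp (hn hy) d⁻¹).mp (X.inv_mem (Subgroup.mem_inf.mp hd).1)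
      have h2 := X.mul_mem hx h1
      have e : g * (y * d)⁻¹ = x * (y * d⁻¹ * y⁻¹) := by rw [hk]; group
      rw [e]; exact h2
    · exact Subgroup.mul_mem _ hga (Subgroup.inv_mem _ (Subgroup.mem_inf.mp hy'').2)
  have e : g = (g * (y * d)⁻¹) * (y * d) := by group
  rw [e]
  exact Subgroup.mul_mem _ ((le_sup_left : X ⊓ Subgroup.centralizer ({a} : Set G) ≤ _) hx'')
    ((le_sup_right : Y ⊓ Subgroup.centralizer ({a} : Set G) ≤ _) hy'')

end Cfsg.Agent.Lib.Helper2.Sig
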