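import Mathlib
import Cfsg.Prelude
import Cfsg.Agent.Lib.Lead.BaerSuzuki
import Cfsg.Agent.Lib.Lead.Invol2
import Cfsg.Agent.S2007

/-! Tate's theorem: a normal subgroup meeting a Sylow `p`-subgroup `P` inside `Φ(P)` has a
normal `p`-complement.  Proof via the transfer in a pulled-back central extension. -/

namespace Cfsg.Agent.Lib.Helper2.Tate2

open Cfsg.Agent.Lib
open scoped commutatorElement

universe u

variable {G : Type u} [Group G]

/-- The transfer of a central element is a power. -/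
theorem transfer_central {X : Type*} [Group X] [Finite X] {A : Type*} [CommGroup A]
    (H : Subgroup X) (φ : ↥H →* A) :
    ∃ lam : X →* A, ∀ z : X, z ∈ Subgroup.center X →
      ∀ hz : z ∈ H, lam z = (φ ⟨z, hz⟩) ^ H.index := by
  refine ⟨MonoidHom.transfer φ, ?_⟩
  intro z hzc hz
  have key : ∀ (k : ℕ) (g₀ : X), g₀⁻¹ * z ^ k * g₀ ∈ H → g₀⁻¹ * z ^ k * g₀ = z ^ k := by
    intro k g₀ _
    have hc : Commute g₀ z := Subgroup.mem_center_iff.mp hzc g₀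
    have hc' : g₀ * z ^ k = z ^ k * g₀ := hc.pow_right k
    rw [mul_assoc, ← hc', inv_mul_cancel_left]
  rw [MonoidHom.transfer_eq_pow φ z key, ← map_pow]
  rfl

open scoped IsMulCommutative in
/-- The core contradiction: `N` normal, generated by its `p'`-elements, meeting `P` nontrivially
inside `Φ(P)` is impossible. -/
theorem key [Finite G] {p : ℕ} [Fact p.Prime] (P : Sylow p G) (N : Subgroup G) [N.Normal]
    (hΦ : N ⊓ (P : Subgroup G) ≤ (frattini ↥(P : Subgroup G)).map (P : Subgroup G).subtype) (hne : N ⊓ (P : Subgroup G) ≠ ⊥)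
    (hgen : ∀ K : Subgroup G, (∀ x ∈ N, (orderOf x).Coprime p → x ∈ K) → N ≤ K) : False := by
  classical
  have hp : p.Prime := Fact.out
  obtain ⟨Q', hQ'⟩ : ∃ Q' : Subgroup ↥(P : Subgroup G), Q' = N.subgroupOf (P : Subgroup G) := ⟨_, rfl⟩
  have hQ'mem : ∀ u : ↥(P : Subgroup G), u ∈ Q' ↔ (u : G) ∈ N := by
    intro u; rw [hQ']; exact Subgroup.mem_subgroupOf
  have hQ'n : Q'.Normal := by rw [hQ']; infer_instance
  obtain ⟨Q₁, hQ₁⟩ : ∃ Q₁ : Subgroup ↥(P : Subgroup G), Q₁ = ⁅Q', (⊤ : Subgroup ↥(P : Subgroup G))⁆ := ⟨_, rfl⟩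
  have hQ₁n : Q₁.Normal := by rw [hQ₁]; infer_instance
  have hQ₁Q' : Q₁ ≤ Q' := by rw [hQ₁]; exact Subgroup.commutator_le_left _ _
  -- `Q₁ < Q'`
  have hex : ∃ q ∈ Q', q ∉ Q₁ := by
    by_contra hcon
    push_neg at hcon
    have hle : Q' ≤ Q₁ := hcon
    have hnil : Group.IsNilpotent ↥(P : Subgroup G) := P.isPGroup'.isNilpotent
    obtain ⟨k, hk⟩ := Subgroup.nilpotent_iff_lowerCentralSeries.mp hnil
    have hlcs : ∀ j, Q' ≤ Subgroup.lowerCentralSeries (⊤ : Subgroup ↥(P : Subgroup G)) j := by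
      intro j
      induction j with
      | zero => rw [Subgroup.lowerCentralSeries_zero]; exact le_top
      | succ j ih =>
        refine hle.trans ?_
        rw [hQ₁, Subgroup.lowerCentralSeries_succ]
        exact Subgroup.commutator_mono ih le_rfl
    have hbot : Q' = ⊥ := by rw [eq_bot_iff, ← hk]; exact hlcs k
    apply hne
    rw [eq_bot_iff]
    intro x hx
    have hxQ : (⟨x, hx.2⟩ : ↥(P : Subgroup G)) ∈ Q' := (hQ'mem _).mpr hx.1
    rw [hbot, Subgroup.mem_bot] at hxQ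
    rw [Subgroup.mem_bot]
    exact congrArg Subtype.val hxQ
  -- quotient maps
  obtain ⟨α, hα⟩ : ∃ α : G →* G ⧸ N, α = QuotientGroup.mk' N := ⟨_, rfl⟩
  have hαker : ∀ g, α g = 1 ↔ g ∈ N := by
    intro g; rw [hα]; exact QuotientGroup.eq_one_iff g
  obtain ⟨mkE, hmkE⟩ : ∃ mkE : ↥(P : Subgroup G) →* (↥(P : Subgroup G) ⧸ Q₁), mkE = QuotientGroup.mk' Q₁ := ⟨_, rfl⟩
  have hmkEsurj : Function.Surjective mkE := by
    rw [hmkE]; exact QuotientGroup.mk'_surjective Q₁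
  have hmkEker : ∀ u, mkE u = 1 ↔ u ∈ Q₁ := by
    intro u; rw [hmkE]; exact QuotientGroup.eq_one_iff u
  obtain ⟨β, hβ⟩ : ∃ β : (↥(P : Subgroup G) ⧸ Q₁) →* G ⧸ N, ∀ u, β (mkE u) = α (u : G) := by
    refine ⟨QuotientGroup.lift Q₁ (α.comp (P : Subgroup G).subtype) ?_, ?_⟩
    · intro u hu
      rw [MonoidHom.mem_ker, MonoidHom.comp_apply, Subgroup.subtype_apply, hαker]
      exact (hQ'mem u).mp (hQ₁Q' hu)
    · intro u; rw [hmkE]; rfl
  -- images of `Q'` are central in `E`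
  have hcen : ∀ q ∈ Q', mkE q ∈ Subgroup.center (↥(P : Subgroup G) ⧸ Q₁) := by
    intro q hq
    rw [Subgroup.mem_center_iff]
    intro e
    obtain ⟨w, rfl⟩ := hmkEsurj e
    rw [← map_mul, ← map_mul]
    have hc : (w * q)⁻¹ * (q * w) ∈ Q₁ := by
      rw [hQ₁]
      have h1 : ⁅q⁻¹, w⁻¹⁆ ∈ ⁅Q', (⊤ : Subgroup ↥(P : Subgroup G))⁆ :=
        Subgroup.commutator_mem_commutator (Q'.inv_mem hq) (Subgroup.mem_top _)
      have e : (w * q)⁻¹ * (q * w) = ⁅q⁻¹, w⁻¹⁆ := by rw [commutatorElement_def]; group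
      rw [e]; exact h1
    have h2 : mkE ((w * q)⁻¹ * (q * w)) = 1 := (hmkEker _).mpr hc
    rw [map_mul, map_inv] at h2
    exact inv_mul_eq_one.mp h2
  -- Frattini: `Q'` consists of non-generators
  have hfr : ∀ P₁ : Subgroup ↥(P : Subgroup G), (∀ u : ↥(P : Subgroup G), ∃ q ∈ Q', u * q ∈ P₁) → P₁ = ⊤ := by
    intro P₁ h
    apply frattini_nongenerating
    rw [eq_top_iff]
    intro u _
    obtain ⟨q, hq, huq⟩ := h u
    have hqf : q ∈ frattini ↥(P : Subgroup G) := by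
      have h1 : (q : G) ∈ N ⊓ (P : Subgroup G) := ⟨(hQ'mem q).mp hq, q.2⟩
      obtain ⟨f, hf, hfe⟩ := hΦ h1
      have : f = q := Subtype.ext hfe
      rw [← this]; exact hf
    have e : u = (u * q) * q⁻¹ := by group
    rw [e]
    exact Subgroup.mul_mem _ ((le_sup_left : P₁ ≤ P₁ ⊔ frattini ↥(P : Subgroup G)) huq)
      ((le_sup_right : frattini ↥(P : Subgroup G) ≤ P₁ ⊔ frattini ↥(P : Subgroup G)) (inv_mem hqf))
  -- the pullback
  obtain ⟨Gh, hGh⟩ : ∃ Gh : Subgroup (G × (↥(P : Subgroup G) ⧸ Q₁)), ∀ x : G × (↥(P : Subgroup G) ⧸ Q₁), x ∈ Gh ↔ α x.1 = β x.2 := by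
    refine ⟨{ carrier := {x | α x.1 = β x.2}, mul_mem' := ?_, one_mem' := ?_, inv_mem' := ?_ },
      fun x => Iff.rfl⟩
    · intro a b ha hb
      simp only [Set.mem_ofPred_eq, Prod.fst_mul, Prod.snd_mul, map_mul] at ha hb ⊢
      rw [ha, hb]
    · simp
    · intro a ha
      simp only [Set.mem_ofPred_eq, Prod.fst_inv, Prod.snd_inv, map_inv] at ha ⊢
      rw [ha]
  obtain ⟨π₁, hπ₁⟩ : ∃ π₁ : ↥Gh →* G, ∀ x : ↥Gh, π₁ x = (x : G × (↥(P : Subgroup G) ⧸ Q₁)).1 :=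
    ⟨(MonoidHom.fst G (↥(P : Subgroup G) ⧸ Q₁)).comp Gh.subtype, fun x => rfl⟩
  obtain ⟨Ph, hPh⟩ : ∃ Ph : Subgroup ↥Gh, Ph = (P : Subgroup G).comap π₁ := ⟨_, rfl⟩
  have hPhmem : ∀ x : ↥Gh, x ∈ Ph ↔ (x : G × (↥(P : Subgroup G) ⧸ Q₁)).1 ∈ (P : Subgroup G) := by
    intro x; rw [hPh, Subgroup.mem_comap, hπ₁]
  have hidx : ¬ p ∣ Ph.index := by
    rw [hPh, Subgroup.index_comap]
    have hle : (P : Subgroup G) ≤ π₁.range := by
      intro u hu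
      refine ⟨⟨(u, mkE ⟨u, hu⟩), (hGh _).mpr (hβ ⟨u, hu⟩).symm⟩, ?_⟩
      rw [hπ₁]
    have h1 := Subgroup.relIndex_mul_index hle
    intro hdvd
    exact P.not_dvd_index (h1 ▸ Dvd.dvd.mul_right hdvd _)
  -- representatives
  have hrep : ∀ x : ↥Gh, ∀ hx : (x : G × (↥(P : Subgroup G) ⧸ Q₁)).1 ∈ (P : Subgroup G),
      ∃ q ∈ Q', mkE q = (x : G × (↥(P : Subgroup G) ⧸ Q₁)).2 * (mkE ⟨(x : G × (↥(P : Subgroup G) ⧸ Q₁)).1, hx⟩)⁻¹ := by
    intro x hx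
    obtain ⟨w, hw⟩ := hmkEsurj (x : G × (↥(P : Subgroup G) ⧸ Q₁)).2
    have hxG := (hGh _).mp x.2
    rw [← hw, hβ] at hxG
    refine ⟨w * (⟨(x : G × (↥(P : Subgroup G) ⧸ Q₁)).1, hx⟩ : ↥(P : Subgroup G))⁻¹, ?_, ?_⟩
    · rw [hQ'mem]
      have h1 : α ((w : G) * ((x : G × (↥(P : Subgroup G) ⧸ Q₁)).1)⁻¹) = 1 := by
        rw [map_mul, map_inv, ← hxG, mul_inv_cancel]
      exact (hαker _).mp h1
    · rw [map_mul, map_inv, hw]
  have hval : ∀ x : ↥Ph, ((x : ↥Gh) : G × (↥(P : Subgroup G) ⧸ Q₁)).2 *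
      (mkE ⟨((x : ↥Gh) : G × (↥(P : Subgroup G) ⧸ Q₁)).1, (hPhmem _).mp x.2⟩)⁻¹ ∈ Subgroup.center (↥(P : Subgroup G) ⧸ Q₁) := by
    intro x
    obtain ⟨q, hq, hqe⟩ := hrep (x : ↥Gh) ((hPhmem _).mp x.2)
    rw [← hqe]; exact hcen q hq
  obtain ⟨φ₀, hφ₀⟩ : ∃ φ₀ : ↥Ph →* ↥(Subgroup.center (↥(P : Subgroup G) ⧸ Q₁)), ∀ x : ↥Ph,
      ((φ₀ x : ↥(Subgroup.center (↥(P : Subgroup G) ⧸ Q₁))) : (↥(P : Subgroup G) ⧸ Q₁)) = ((x : ↥Gh) : G × (↥(P : Subgroup G) ⧸ Q₁)).2 *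
        (mkE ⟨((x : ↥Gh) : G × (↥(P : Subgroup G) ⧸ Q₁)).1, (hPhmem _).mp x.2⟩)⁻¹ := by
    refine ⟨MonoidHom.mk' (fun x => ⟨_, hval x⟩) ?_, fun x => rfl⟩
    intro a b
    apply Subtype.ext
    have hb := Subgroup.mem_center_iff.mp (hval b)
      (mkE ⟨((a : ↥Gh) : G × (↥(P : Subgroup G) ⧸ Q₁)).1, (hPhmem _).mp a.2⟩)⁻¹
    have e1 : mkE ⟨(((a * b : ↥Ph) : ↥Gh) : G × (↥(P : Subgroup G) ⧸ Q₁)).1, (hPhmem _).mp (a * b).2⟩ =
        mkE ⟨((a : ↥Gh) : G × (↥(P : Subgroup G) ⧸ Q₁)).1, (hPhmem _).mp a.2⟩ *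
          mkE ⟨((b : ↥Gh) : G × (↥(P : Subgroup G) ⧸ Q₁)).1, (hPhmem _).mp b.2⟩ := by
      rw [← map_mul]; rfl
    show (((a * b : ↥Ph) : ↥Gh) : G × (↥(P : Subgroup G) ⧸ Q₁)).2 *
        (mkE ⟨(((a * b : ↥Ph) : ↥Gh) : G × (↥(P : Subgroup G) ⧸ Q₁)).1, (hPhmem _).mp (a * b).2⟩)⁻¹ =
      (((a : ↥Gh) : G × (↥(P : Subgroup G) ⧸ Q₁)).2 * (mkE ⟨((a : ↥Gh) : G × (↥(P : Subgroup G) ⧸ Q₁)).1, (hPhmem _).mp a.2⟩)⁻¹) *
        (((b : ↥Gh) : G × (↥(P : Subgroup G) ⧸ Q₁)).2 * (mkE ⟨((b : ↥Gh) : G × (↥(P : Subgroup G) ⧸ Q₁)).1, (hPhmem _).mp b.2⟩)⁻¹)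
    rw [e1, mul_inv_rev]
    have e2 : (((a * b : ↥Ph) : ↥Gh) : G × (↥(P : Subgroup G) ⧸ Q₁)).2 =
        ((a : ↥Gh) : G × (↥(P : Subgroup G) ⧸ Q₁)).2 * ((b : ↥Gh) : G × (↥(P : Subgroup G) ⧸ Q₁)).2 := rfl
    rw [e2, mul_assoc (((a : ↥Gh) : G × (↥(P : Subgroup G) ⧸ Q₁)).2)
      ((mkE ⟨((a : ↥Gh) : G × (↥(P : Subgroup G) ⧸ Q₁)).1, (hPhmem _).mp a.2⟩)⁻¹), hb]
    simp only [mul_assoc]
  -- the transfer
  obtain ⟨lam, hlam⟩ := transfer_central (A := ↥φ₀.range) Ph φ₀.rangeRestrict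
  have hAp : IsPGroup p ↥φ₀.range := by
    have h1 : IsPGroup p (↥(P : Subgroup G) ⧸ Q₁) := P.isPGroup'.to_quotient Q₁
    exact (h1.to_subgroup (Subgroup.center (↥(P : Subgroup G) ⧸ Q₁))).to_subgroup φ₀.range
  have hcop : (Nat.card ↥φ₀.range).Coprime Ph.index := by
    obtain ⟨k, hk⟩ := IsPGroup.iff_card.mp hAp
    rw [hk]; exact Nat.Coprime.pow_left k ((Nat.Prime.coprime_iff_not_dvd hp).mpr hidx)
  -- special elements of the pullback
  have hzmem : ∀ q ∈ Q', ((1 : G), mkE q) ∈ Gh := by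
    intro q hq
    rw [hGh]
    show α 1 = β (mkE q)
    rw [hβ, map_one]; exact ((hαker _).mpr ((hQ'mem q).mp hq)).symm
  have hnmem : ∀ g ∈ N, (g, (1 : (↥(P : Subgroup G) ⧸ Q₁))) ∈ Gh := by
    intro g hg
    rw [hGh]
    show α g = β 1
    rw [map_one]; exact (hαker g).mpr hg
  have hgmem : ∀ u : ↥(P : Subgroup G), ((u : G), mkE u) ∈ Gh := by
    intro u; rw [hGh]; exact (hβ u).symm
  -- value of `lam` on the central elements `(1, mkE q)`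
  have hlamz : ∀ q (hq : q ∈ Q'), ∀ y : ↥Ph, ((φ₀ y : ↥(Subgroup.center (↥(P : Subgroup G) ⧸ Q₁))) : (↥(P : Subgroup G) ⧸ Q₁)) = mkE q →
      lam ⟨((1 : G), mkE q), hzmem q hq⟩ = (φ₀.rangeRestrict y) ^ Ph.index := by
    intro q hq y hy
    have hzc : (⟨((1 : G), mkE q), hzmem q hq⟩ : ↥Gh) ∈ Subgroup.center ↥Gh := by
      rw [Subgroup.mem_center_iff]
      intro g
      apply Subtype.ext
      apply Prod.ext
      · show (g : G × (↥(P : Subgroup G) ⧸ Q₁)).1 * 1 = 1 * (g : G × (↥(P : Subgroup G) ⧸ Q₁)).1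
        rw [mul_one, one_mul]
      · exact Subgroup.mem_center_iff.mp (hcen q hq) (g : G × (↥(P : Subgroup G) ⧸ Q₁)).2
    have hzP : (⟨((1 : G), mkE q), hzmem q hq⟩ : ↥Gh) ∈ Ph := by
      rw [hPhmem]; exact Subgroup.one_mem _
    rw [hlam _ hzc hzP]
    congr 1
    apply Subtype.ext
    apply Subtype.ext
    show ((φ₀ ⟨⟨((1 : G), mkE q), hzmem q hq⟩, hzP⟩ : ↥(Subgroup.center (↥(P : Subgroup G) ⧸ Q₁))) : (↥(P : Subgroup G) ⧸ Q₁)) =
      ((φ₀ y : ↥(Subgroup.center (↥(P : Subgroup G) ⧸ Q₁))) : (↥(P : Subgroup G) ⧸ Q₁))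
    rw [hy, hφ₀]
    show mkE q * (mkE (1 : ↥(P : Subgroup G)))⁻¹ = mkE q
    rw [map_one, inv_one, mul_one]
  -- `N × 1` lies in the kernel
  have hNker : ∀ g (hg : g ∈ N), lam ⟨(g, (1 : (↥(P : Subgroup G) ⧸ Q₁))), hnmem g hg⟩ = 1 := by
    obtain ⟨K, hK⟩ : ∃ K : Subgroup G, ∀ g, g ∈ K ↔
        ∃ hg : g ∈ N, lam ⟨(g, (1 : (↥(P : Subgroup G) ⧸ Q₁))), hnmem g hg⟩ = 1 := by
      refine ⟨{ carrier := Set.ofPred (fun g => ∃ hg : g ∈ N, lam ⟨(g, (1 : (↥(P : Subgroup G) ⧸ Q₁))), hnmem g hg⟩ = 1)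
                mul_mem' := ?_
                one_mem' := ?_
                inv_mem' := ?_ }, fun g => Iff.rfl⟩
      · rintro a b ⟨ha, ha'⟩ ⟨hb, hb'⟩
        refine ⟨N.mul_mem ha hb, ?_⟩
        have e : (⟨(a * b, (1 : (↥(P : Subgroup G) ⧸ Q₁))), hnmem _ (N.mul_mem ha hb)⟩ : ↥Gh) =
            ⟨(a, (1 : (↥(P : Subgroup G) ⧸ Q₁))), hnmem a ha⟩ * ⟨(b, (1 : (↥(P : Subgroup G) ⧸ Q₁))), hnmem b hb⟩ := by
          apply Subtype.ext
          apply Prod.ext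
          · rfl
          · show (1 : (↥(P : Subgroup G) ⧸ Q₁)) = 1 * 1
            rw [mul_one]
        rw [e, map_mul, ha', hb', mul_one]
      · refine ⟨N.one_mem, ?_⟩
        have e : (⟨((1 : G), (1 : (↥(P : Subgroup G) ⧸ Q₁))), hnmem _ N.one_mem⟩ : ↥Gh) = 1 := rfl
        rw [e, map_one]
      · rintro a ⟨ha, ha'⟩
        refine ⟨N.inv_mem ha, ?_⟩
        have e : (⟨(a⁻¹, (1 : (↥(P : Subgroup G) ⧸ Q₁))), hnmem _ (N.inv_mem ha)⟩ : ↥Gh) =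
            (⟨(a, (1 : (↥(P : Subgroup G) ⧸ Q₁))), hnmem a ha⟩ : ↥Gh)⁻¹ := by
          apply Subtype.ext
          apply Prod.ext
          · rfl
          · show (1 : (↥(P : Subgroup G) ⧸ Q₁)) = 1⁻¹
            rw [inv_one]
        rw [e, map_inv, ha', inv_one]
    have hNK : N ≤ K := by
      apply hgen
      intro x hxN hxcop
      rw [hK]
      refine ⟨hxN, ?_⟩
      obtain ⟨j, hj⟩ := hAp (lam ⟨(x, (1 : (↥(P : Subgroup G) ⧸ Q₁))), hnmem x hxN⟩)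
      have h1 : (lam ⟨(x, (1 : (↥(P : Subgroup G) ⧸ Q₁))), hnmem x hxN⟩) ^ orderOf x = 1 := by
        rw [← map_pow]
        have e : (⟨(x, (1 : (↥(P : Subgroup G) ⧸ Q₁))), hnmem x hxN⟩ : ↥Gh) ^ orderOf x = 1 := by
          apply Subtype.ext
          apply Prod.ext
          · show x ^ orderOf x = 1
            exact pow_orderOf_eq_one x
          · show (1 : (↥(P : Subgroup G) ⧸ Q₁)) ^ orderOf x = 1
            exact one_pow _
        rw [e, map_one]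
      have h2 := pow_gcd_eq_one.mpr ⟨h1, hj⟩
      have h3 : (orderOf x).gcd (p ^ j) = 1 := Nat.Coprime.pow_right j hxcop
      rw [h3, pow_one] at h2
      exact h2
    intro g hg
    obtain ⟨_, h⟩ := (hK g).mp (hNK hg)
    exact h
  -- the subgroup `P*`
  obtain ⟨Ps, hPs⟩ : ∃ Ps : Subgroup ↥(P : Subgroup G), ∀ u, u ∈ Ps ↔ lam ⟨((u : G), mkE u), hgmem u⟩ = 1 := by
    refine ⟨{ carrier := Set.ofPred (fun u => lam ⟨((u : G), mkE u), hgmem u⟩ = 1)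
              mul_mem' := ?_
              one_mem' := ?_
              inv_mem' := ?_ }, fun g => Iff.rfl⟩
    · intro a b ha hb
      have e : (⟨(((a * b : ↥(P : Subgroup G)) : G), mkE (a * b)), hgmem (a * b)⟩ : ↥Gh) =
          ⟨((a : G), mkE a), hgmem a⟩ * ⟨((b : G), mkE b), hgmem b⟩ := by
        apply Subtype.ext
        apply Prod.ext
        · rfl
        · show mkE (a * b) = mkE a * mkE b
          rw [map_mul]
      show lam ⟨(((a * b : ↥(P : Subgroup G)) : G), mkE (a * b)), hgmem (a * b)⟩ = 1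
      rw [e, map_mul]
      have ha' : lam ⟨((a : G), mkE a), hgmem a⟩ = 1 := ha
      have hb' : lam ⟨((b : G), mkE b), hgmem b⟩ = 1 := hb
      rw [ha', hb', mul_one]
    · have e : (⟨(((1 : ↥(P : Subgroup G)) : G), mkE 1), hgmem 1⟩ : ↥Gh) = 1 := by
        apply Subtype.ext
        apply Prod.ext
        · rfl
        · show mkE 1 = 1
          rw [map_one]
      show lam ⟨(((1 : ↥(P : Subgroup G)) : G), mkE 1), hgmem 1⟩ = 1
      rw [e, map_one]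
    · intro a ha
      have e : (⟨(((a⁻¹ : ↥(P : Subgroup G)) : G), mkE a⁻¹), hgmem a⁻¹⟩ : ↥Gh) =
          (⟨((a : G), mkE a), hgmem a⟩ : ↥Gh)⁻¹ := by
        apply Subtype.ext
        apply Prod.ext
        · rfl
        · show mkE a⁻¹ = (mkE a)⁻¹
          rw [map_inv]
      show lam ⟨(((a⁻¹ : ↥(P : Subgroup G)) : G), mkE a⁻¹), hgmem a⁻¹⟩ = 1
      have ha' : lam ⟨((a : G), mkE a), hgmem a⟩ = 1 := ha
      rw [e, map_inv, ha', inv_one]
  -- decomposition of graph elements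
  have hdec : ∀ (u : ↥(P : Subgroup G)) (q : ↥(P : Subgroup G)) (hq : q ∈ Q'),
      lam ⟨(((u * q : ↥(P : Subgroup G)) : G), mkE (u * q)), hgmem (u * q)⟩ =
        lam ⟨((u : G), mkE u), hgmem u⟩ * lam ⟨((1 : G), mkE q), hzmem q hq⟩ := by
    intro u q hq
    have e : (⟨(((u * q : ↥(P : Subgroup G)) : G), mkE (u * q)), hgmem (u * q)⟩ : ↥Gh) =
        ⟨((u : G), mkE u), hgmem u⟩ * ⟨((q : G), (1 : (↥(P : Subgroup G) ⧸ Q₁))), hnmem _ ((hQ'mem q).mp hq)⟩ *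
          ⟨((1 : G), mkE q), hzmem q hq⟩ := by
      apply Subtype.ext
      apply Prod.ext
      · show (u : G) * (q : G) = (u : G) * (q : G) * 1
        rw [mul_one]
      · show mkE (u * q) = mkE u * 1 * mkE q
        rw [map_mul, mul_one]
    rw [e, map_mul, map_mul, hNker _ ((hQ'mem q).mp hq), mul_one]
  have hPstop : Ps = ⊤ := by
    apply hfr
    intro u
    -- solve for the correction
    obtain ⟨d, hd⟩ := (powCoprime hcop).surjective (lam ⟨((u : G), mkE u), hgmem u⟩)⁻¹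
    have hd' : d ^ Ph.index = (lam ⟨((u : G), mkE u), hgmem u⟩)⁻¹ := hd
    obtain ⟨y, hy⟩ := MonoidHom.rangeRestrict_surjective φ₀ d
    obtain ⟨q, hq, hqe⟩ := hrep (y : ↥Gh) ((hPhmem _).mp y.2)
    refine ⟨q, hq, ?_⟩
    rw [hPs, hdec u q hq, hlamz q hq y (by rw [hφ₀, hqe]), hy, hd', mul_inv_cancel]
  obtain ⟨q₀, hq₀, hq₀'⟩ := hex
  apply hq₀'
  have h1 : q₀ ∈ Ps := by rw [hPstop]; exact Subgroup.mem_top _
  rw [hPs] at h1
  have h2 := hdec 1 q₀ hq₀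
  have h3 : lam ⟨(((1 : ↥(P : Subgroup G)) : G), mkE 1), hgmem 1⟩ = 1 := by
    have e : (⟨(((1 : ↥(P : Subgroup G)) : G), mkE 1), hgmem 1⟩ : ↥Gh) = 1 := by
      apply Subtype.ext
      apply Prod.ext
      · rfl
      · show mkE 1 = 1
        rw [map_one]
    rw [e, map_one]
  have h4 : lam ⟨(((1 * q₀ : ↥(P : Subgroup G)) : G), mkE (1 * q₀)), hgmem (1 * q₀)⟩ = 1 := by
    have e : (⟨(((1 * q₀ : ↥(P : Subgroup G)) : G), mkE (1 * q₀)), hgmem (1 * q₀)⟩ : ↥Gh) =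
        ⟨((q₀ : G), mkE q₀), hgmem q₀⟩ := by
      apply Subtype.ext
      apply Prod.ext
      · show ((1 * q₀ : ↥(P : Subgroup G)) : G) = (q₀ : G)
        rw [one_mul]
      · show mkE (1 * q₀) = mkE q₀
        rw [one_mul]
    rw [e]; exact h1
  rw [h4, h3, one_mul] at h2
  -- `lam (1, mkE q₀) = 1`
  have hzP : (⟨((1 : G), mkE q₀), hzmem q₀ hq₀⟩ : ↥Gh) ∈ Ph := by
    rw [hPhmem]; exact Subgroup.one_mem _
  have h5 := hlamz q₀ hq₀ ⟨⟨((1 : G), mkE q₀), hzmem q₀ hq₀⟩, hzP⟩ (by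
    rw [hφ₀]
    show mkE q₀ * (mkE (1 : ↥(P : Subgroup G)))⁻¹ = mkE q₀
    rw [map_one, inv_one, mul_one])
  rw [← h2] at h5
  have h6 : φ₀.rangeRestrict ⟨⟨((1 : G), mkE q₀), hzmem q₀ hq₀⟩, hzP⟩ = 1 := by
    apply (powCoprime hcop).injective
    show (φ₀.rangeRestrict ⟨⟨((1 : G), mkE q₀), hzmem q₀ hq₀⟩, hzP⟩) ^ Ph.index = 1 ^ Ph.index
    rw [one_pow]; exact h5.symm
  have h7 : ((φ₀ ⟨⟨((1 : G), mkE q₀), hzmem q₀ hq₀⟩, hzP⟩ : ↥(Subgroup.center (↥(P : Subgroup G) ⧸ Q₁))) : (↥(P : Subgroup G) ⧸ Q₁)) = 1 := by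
    have := congrArg (fun t : ↥φ₀.range => ((t : ↥(Subgroup.center (↥(P : Subgroup G) ⧸ Q₁))) : (↥(P : Subgroup G) ⧸ Q₁))) h6
    exact this
  rw [hφ₀] at h7
  have h8 : mkE q₀ * (mkE (1 : ↥(P : Subgroup G)))⁻¹ = 1 := h7
  rw [map_one, inv_one, mul_one] at h8
  exact (hmkEker q₀).mp h8

/-- Tate's theorem, internal form: the `p'`-elements of `N` form a subgroup `Y` with `N/Y` a
`p`-group. -/
theorem tate_aux [Finite G] {p : ℕ} [Fact p.Prime] (P : Sylow p G) :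
    ∀ (n : ℕ) (N : Subgroup G), N.Normal → Nat.card N = n →
      N ⊓ (P : Subgroup G) ≤ (frattini ↥(P : Subgroup G)).map (P : Subgroup G).subtype →
      ∃ Y : Subgroup G, (∀ x, x ∈ Y ↔ x ∈ N ∧ (orderOf x).Coprime p) ∧
        ∀ x ∈ N, ∃ k : ℕ, x ^ (p ^ k) ∈ Y := by
  classical
  have hp : p.Prime := Fact.out
  intro n
  induction n using Nat.strong_induction_on with
  | _ n ih =>
  intro N hNn hn hΦ
  obtain ⟨M, hM⟩ : ∃ M : Subgroup G,
      M = Subgroup.closure {x | x ∈ N ∧ (orderOf x).Coprime p} := ⟨_, rfl⟩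
  have hMN : M ≤ N := by
    rw [hM, Subgroup.closure_le]
    intro x hx; exact hx.1
  have hSM : ∀ x ∈ N, (orderOf x).Coprime p → x ∈ M := by
    intro x hx hc
    rw [hM]; exact Subgroup.subset_closure ⟨hx, hc⟩
  have hMn : M.Normal := by
    rw [hM]
    apply Lead.closure_normal_of_conj_invariant
    rintro k ⟨hkN, hkc⟩ g
    exact ⟨hNn.conj_mem k hkN g, by rw [Lead.orderOf_conj_eq]; exact hkc⟩
  have hpowM : ∀ x ∈ N, ∃ k : ℕ, x ^ (p ^ k) ∈ M := by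
    intro x hx
    have ho : orderOf x ≠ 0 := (orderOf_pos x).ne'
    obtain ⟨k, m, hm, hkm⟩ := Nat.exists_eq_pow_mul_and_not_dvd ho p hp.ne_one
    refine ⟨k, hSM _ (N.pow_mem hx _) ?_⟩
    have hdvd : p ^ k ∣ orderOf x := ⟨m, hkm⟩
    rw [orderOf_pow_of_dvd (pow_ne_zero k hp.ne_zero) hdvd, hkm,
      Nat.mul_div_cancel_left m (pow_pos hp.pos k)]
    exact (Nat.Prime.coprime_iff_not_dvd hp).mpr hm |>.symm
  by_cases hMeq : M = N
  · by_cases hQ : N ⊓ (P : Subgroup G) = ⊥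
    · refine ⟨N, fun x => ⟨fun hx => ⟨hx, ?_⟩, fun hx => hx.1⟩, fun x hx => ⟨0, by simpa using hx⟩⟩
      by_contra hnc
      have hdvd : p ∣ orderOf x := by
        by_contra hnd
        exact hnc ((Nat.Prime.coprime_iff_not_dvd hp).mpr hnd).symm
      obtain ⟨m, hm⟩ := hdvd
      have hmpos : 0 < m := by
        rcases Nat.eq_zero_or_pos m with h0 | h0
        · rw [h0, mul_zero] at hm; exact absurd hm (orderOf_pos x).ne'
        · exact h0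
      have hy : orderOf (x ^ m) = p := by
        rw [orderOf_pow_of_dvd hmpos.ne' ⟨p, by rw [hm, mul_comm]⟩, hm,
          Nat.mul_div_cancel _ hmpos]
      have hyp : IsPGroup p (Subgroup.zpowers (x ^ m)) := by
        rw [IsPGroup.iff_card, Nat.card_zpowers, hy]
        exact ⟨1, (pow_one p).symm⟩
      obtain ⟨g, hg⟩ := Lead.exists_conj_into_sylow P _ hyp
      have h1 := hg (x ^ m) (Subgroup.mem_zpowers _)
      have h2 : g * x ^ m * g⁻¹ ∈ N ⊓ (P : Subgroup G) := ⟨hNn.conj_mem _ (N.pow_mem hx _) g, h1⟩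
      rw [hQ, Subgroup.mem_bot] at h2
      have h3 : x ^ m = 1 := by
        have e : x ^ m = g⁻¹ * (g * x ^ m * g⁻¹) * g := by group
        rw [e, h2]; group
      rw [h3, orderOf_one] at hy
      exact hp.one_lt.ne hy
    · exfalso
      have := hNn
      apply key P N hΦ hQ
      intro K hK
      rw [← hMeq, hM, Subgroup.closure_le]
      intro x hx
      exact hK x hx.1 hx.2
  · have hlt : Nat.card M < Nat.card N := by
      rcases (Subgroup.card_le_of_le hMN).lt_or_eq with h | h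
      · exact h
      · exact absurd (Subgroup.eq_of_le_of_card_ge hMN h.ge) hMeq
    obtain ⟨Y, hY1, hY2⟩ := ih (Nat.card M) (hn ▸ hlt) M hMn rfl
      ((inf_le_inf_right _ hMN).trans hΦ)
    refine ⟨Y, fun x => ⟨fun hx => ?_, fun hx => ?_⟩, fun x hx => ?_⟩
    · obtain ⟨h1, h2⟩ := (hY1 x).mp hx
      exact ⟨hMN h1, h2⟩
    · exact (hY1 x).mpr ⟨hSM x hx.1 hx.2, hx.2⟩
    · obtain ⟨a, ha⟩ := hpowM x hx
      obtain ⟨b, hb⟩ := hY2 _ ha
      refine ⟨a + b, ?_⟩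
      rw [pow_add, pow_mul]; exact hb

/-- Tate's theorem: a normal subgroup meeting a Sylow `p`-subgroup `P` inside `Φ(P)` has a normal
`p`-complement. -/
theorem tate_normal [Finite G] {p : ℕ} [Fact p.Prime] (P : Sylow p G) (N : Subgroup G)
    [hNn : N.Normal] (h : N ⊓ (P : Subgroup G) ≤ (frattini ↥(P : Subgroup G)).map (P : Subgroup G).subtype) :
    Cfsg.HasNormalPComplement p ↥N := by
  classical
  have hp : p.Prime := Fact.out
  obtain ⟨Y, hY1, hY2⟩ := tate_aux P _ N hNn rfl h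
  have hYn : (Y.subgroupOf N).Normal := by
    constructor
    intro x hx g
    rw [Subgroup.mem_subgroupOf] at hx ⊢
    obtain ⟨h1, h2⟩ := (hY1 _).mp hx
    refine (hY1 _).mpr ⟨(g * x * g⁻¹ : ↥N).2, ?_⟩
    have e : (((g * x * g⁻¹ : ↥N)) : G) = (g : G) * (x : G) * (g : G)⁻¹ := rfl
    rw [e, Lead.orderOf_conj_eq]; exact h2
  apply Cfsg.Agent.S2007.hasNormalPComplement_of_normal (Y.subgroupOf N)
  · by_contra hnc
    have hdvd : p ∣ Nat.card ↥(Y.subgroupOf N) := by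
      by_contra hnd
      exact hnc ((Nat.Prime.coprime_iff_not_dvd hp).mpr hnd).symm
    obtain ⟨x, hx⟩ := exists_prime_orderOf_dvd_card' p hdvd
    have h1 : ((x : ↥N) : G) ∈ Y := Subgroup.mem_subgroupOf.mp x.2
    have h2 := ((hY1 _).mp h1).2
    rw [Subgroup.orderOf_coe, Subgroup.orderOf_coe, hx] at h2
    exact hp.one_lt.ne' ((Nat.coprime_self p).mp h2)
  · intro x
    obtain ⟨k, hk⟩ := hY2 (x : G) x.2
    exact ⟨k, Subgroup.mem_subgroupOf.mpr hk⟩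

end Cfsg.Agent.Lib.Helper2.Tate2
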