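import Mathlib
import Cfsg.Agent.Lib.Lead.Hall
import Cfsg.Agent.Lib.Lead.FrobCenter2

/-!
# Lucido's three primes lemma

In a finite solvable group, among any three distinct prime divisors of the order two are joined in
the prime graph: there is an element whose order is the product of two of them.
-/

namespace Cfsg.Agent.Lib.Helper2.ThreePrimes

open Cfsg.Agent.Lib

universe u

theorem lift_order {G : Type*} [Group G] [Finite G] (M : Subgroup G) [M.Normal] (x : G ⧸ M)
    (k : ℕ) (hk : 0 < k) (hx : orderOf x = k) : ∃ g : G, orderOf g = k := by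
  obtain ⟨g, rfl⟩ := QuotientGroup.mk_surjective x
  have hdvd : k ∣ orderOf g := by rw [← hx]; exact orderOf_map_dvd (QuotientGroup.mk' M) g
  have hpos : 0 < orderOf g / k := Nat.div_pos (Nat.le_of_dvd (orderOf_pos g) hdvd) hk
  refine ⟨g ^ (orderOf g / k), ?_⟩
  rw [orderOf_pow_of_dvd hpos.ne' (Nat.div_dvd_of_dvd hdvd)]
  exact Nat.div_div_self hdvd (orderOf_pos g).ne'

theorem pow_order_prime {G : Type*} [Group G] [Finite G] (x : G) (t : ℕ) (ht : t.Prime)
    (hdvd : t ∣ orderOf x) : orderOf (x ^ (orderOf x / t)) = t := by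
  have hpos : 0 < orderOf x / t := Nat.div_pos (Nat.le_of_dvd (orderOf_pos x) hdvd) ht.pos
  rw [orderOf_pow_of_dvd hpos.ne' (Nat.div_dvd_of_dvd hdvd)]
  exact Nat.div_div_self hdvd (orderOf_pos x).ne'

theorem prime_dvd_qr {q r a b t : ℕ} (hq : q.Prime) (hr : r.Prime) (ht : t.Prime)
    (h : t ∣ q ^ a * r ^ b) : t = q ∨ t = r := by
  rcases (Nat.Prime.dvd_mul ht).mp h with h1 | h1
  · left; exact (Nat.prime_dvd_prime_iff_eq ht hq).mp (ht.dvd_of_dvd_pow h1)
  · right; exact (Nat.prime_dvd_prime_iff_eq ht hr).mp (ht.dvd_of_dvd_pow h1)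

theorem step {G : Type u} [Group G] [Finite G] [Group.IsSolvable G] (p q r : ℕ) (hp : p.Prime)
    (hq : q.Prime) (hr : r.Prime) (hpq : p ≠ q) (hpr : p ≠ r) (hqr : q ≠ r)
    (hqG : q ∣ Nat.card G) (hrG : r ∣ Nat.card G) (M : Subgroup G) [M.Normal] (hM1 : M ≠ ⊥)
    (hMp : IsPGroup p M) :
    ∃ g : G, orderOf g = p * q ∨ orderOf g = p * r ∨ orderOf g = q * r := by
  have hG0 : Nat.card G ≠ 0 := Nat.card_pos.ne'
  obtain ⟨a, ha⟩ : ∃ a, a = (Nat.card G).factorization q := ⟨_, rfl⟩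
  obtain ⟨b, hb⟩ : ∃ b, b = (Nat.card G).factorization r := ⟨_, rfl⟩
  have ha1 : 0 < a := ha ▸ hq.factorization_pos_of_dvd hG0 hqG
  have hb1 : 0 < b := hb ▸ hr.factorization_pos_of_dvd hG0 hrG
  have hqa : q ^ a ∣ Nat.card G := ha ▸ Nat.ordProj_dvd _ _
  have hrb : r ^ b ∣ Nat.card G := hb ▸ Nat.ordProj_dvd _ _
  have hcqr : Nat.Coprime (q ^ a) (r ^ b) :=
    Nat.Coprime.pow a b ((Nat.coprime_primes hq hr).mpr hqr)
  obtain ⟨n', hn'⟩ := hcqr.mul_dvd_of_dvd_of_dvd hqa hrb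
  have hqn : ¬ q ∣ n' := by
    intro h
    apply Nat.pow_succ_factorization_not_dvd hG0 hq
    rw [← ha, hn', pow_succ]
    obtain ⟨c, hc⟩ := h
    exact ⟨r ^ b * c, by rw [hc]; ring⟩
  have hrn : ¬ r ∣ n' := by
    intro h
    apply Nat.pow_succ_factorization_not_dvd hG0 hr
    rw [← hb, hn', pow_succ]
    obtain ⟨c, hc⟩ := h
    exact ⟨q ^ a * c, by rw [hc]; ring⟩
  have hcop : Nat.Coprime (q ^ a * r ^ b) n' :=
    Nat.Coprime.mul_left (Nat.Coprime.pow_left a ((Nat.Prime.coprime_iff_not_dvd hq).mpr hqn))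
      (Nat.Coprime.pow_left b ((Nat.Prime.coprime_iff_not_dvd hr).mpr hrn))
  obtain ⟨K, hK, -⟩ := Lead.hallD_all (Nat.card G) G rfl (q ^ a * r ^ b) n' hn' hcop ⊥
    (by rw [Subgroup.card_bot]; exact Nat.coprime_one_left _)
  have hqK : q ∣ Nat.card K := by
    rw [hK]; exact Dvd.dvd.mul_right (dvd_pow_self q ha1.ne') _
  have hrK : r ∣ Nat.card K := by
    rw [hK]; exact Dvd.dvd.mul_left (dvd_pow_self r hb1.ne') _
  have hK1 : K ≠ ⊥ := by
    intro h
    rw [h, Subgroup.card_bot] at hqK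
    exact hq.one_lt.ne' (Nat.dvd_one.mp hqK)
  have hKord : ∀ k ∈ K, k ≠ 1 → ∃ t : ℕ, t.Prime ∧ t ∣ orderOf k ∧ (t = q ∨ t = r) := by
    intro k hk hk1
    have ho1 : orderOf k ≠ 1 := fun h => hk1 (orderOf_eq_one_iff.mp h)
    obtain ⟨t, ht, htd⟩ := Nat.exists_prime_and_dvd ho1
    have hdK : orderOf k ∣ Nat.card K := by
      have := orderOf_dvd_natCard (⟨k, hk⟩ : K)
      rwa [Subgroup.orderOf_mk] at this
    rw [hK] at hdK
    exact ⟨t, ht, htd, prime_dvd_qr hq hr ht (htd.trans hdK)⟩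
  by_cases hfix : ∃ k ∈ K, k ≠ 1 ∧ ∃ x ∈ M, x ≠ 1 ∧ k * x = x * k
  · obtain ⟨k, hkK, hk1, x, hxM, hx1, hkx⟩ := hfix
    obtain ⟨t, ht, htd, htqr⟩ := hKord k hkK hk1
    haveI := Fact.mk hp
    obtain ⟨j, hj⟩ := (IsPGroup.iff_orderOf.mp hMp) ⟨x, hxM⟩
    rw [Subgroup.orderOf_mk] at hj
    have hpx : p ∣ orderOf x := by
      rw [hj]
      have hj0 : j ≠ 0 := by
        intro h0; rw [h0, pow_zero] at hj; exact hx1 (orderOf_eq_one_iff.mp hj)
      exact dvd_pow_self p hj0
    have ho1 := pow_order_prime k t ht htd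
    have ho2 := pow_order_prime x p hp hpx
    have hcomm : Commute (x ^ (orderOf x / p)) (k ^ (orderOf k / t)) :=
      (Commute.pow_pow (show Commute x k from hkx.symm) _ _)
    have hpt : p ≠ t := by rcases htqr with h | h <;> rw [h] <;> assumption
    have ho := hcomm.orderOf_mul_eq_mul_orderOf_of_coprime
      (by rw [ho1, ho2]; exact (Nat.coprime_primes hp ht).mpr hpt)
    rw [ho1, ho2] at ho
    refine ⟨x ^ (orderOf x / p) * k ^ (orderOf k / t), ?_⟩
    rcases htqr with h | h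
    · left; rw [ho, h]
    · right; left; rw [ho, h]
  · push_neg at hfix
    have hfpf : ∀ h ∈ K, h ≠ 1 → M ⊓ Subgroup.centralizer {h} = ⊥ := by
      intro h hh hh1
      rw [eq_bot_iff]
      rintro x ⟨hxM, hxC⟩
      rw [Subgroup.mem_bot]
      by_contra hx1
      exact hfix h hh hh1 x hxM hx1 (Subgroup.mem_centralizer_iff.mp hxC h (Set.mem_singleton h))
    have hcen := Lead.frob_compl_center_ne_bot M K hM1 hK1 hfpf
    obtain ⟨⟨z, hzc⟩, hz1⟩ := (Subgroup.ne_bot_iff_exists_ne_one).mp hcen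
    have hz1' : (z : G) ≠ 1 := fun h => hz1 (Subtype.ext (Subtype.ext h))
    obtain ⟨t, ht, htd, htqr⟩ := hKord (z : G) z.2 hz1'
    have htd' : t ∣ orderOf z := by rwa [Subgroup.orderOf_coe] at htd
    have ho1 := pow_order_prime z t ht htd'
    have key : ∀ t' : ℕ, t'.Prime → t' ∣ Nat.card K → t ≠ t' →
        ∃ g : G, orderOf g = t * t' := by
      intro t' ht' hdvd hne
      haveI := Fact.mk ht'
      obtain ⟨y, hy⟩ := exists_prime_orderOf_dvd_card' (G := K) t' hdvd
      have hcomm : Commute (z ^ (orderOf z / t)) y := by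
        apply Commute.pow_left
        exact (Subgroup.mem_center_iff.mp hzc y).symm
      have ho := hcomm.orderOf_mul_eq_mul_orderOf_of_coprime
        (by rw [ho1, hy]; exact (Nat.coprime_primes ht ht').mpr hne)
      rw [ho1, hy] at ho
      exact ⟨((z ^ (orderOf z / t) * y : K) : G), by rw [Subgroup.orderOf_coe]; exact ho⟩
    rcases htqr with h | h
    · obtain ⟨g, hg⟩ := key r hr hrK (by rw [h]; exact hqr)
      exact ⟨g, Or.inr (Or.inr (by rw [hg, h]))⟩
    · obtain ⟨g, hg⟩ := key q hq hqK (by rw [h]; exact hqr.symm)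
      exact ⟨g, Or.inr (Or.inr (by rw [hg, h, mul_comm]))⟩

theorem three_primes : ∀ (N : ℕ) (G : Type u) [Group G] [Finite G] [Group.IsSolvable G],
    Nat.card G = N → ∀ p q r : ℕ, p.Prime → q.Prime → r.Prime → p ≠ q → p ≠ r → q ≠ r →
    p ∣ Nat.card G → q ∣ Nat.card G → r ∣ Nat.card G →
    ∃ g : G, orderOf g = p * q ∨ orderOf g = p * r ∨ orderOf g = q * r := by
  intro N
  induction N using Nat.strong_induction_on with
  | _ N ih =>
    intro G _ _ _ hN p q r hp hq hr hpq hpr hqr hpG hqG hrG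
    haveI : Nontrivial G := by
      rw [← Finite.one_lt_card_iff_nontrivial]
      exact lt_of_lt_of_le hp.one_lt (Nat.le_of_dvd Nat.card_pos hpG)
    obtain ⟨s, hs, M, hMn, hM1, hMs⟩ := Lead.exists_normal_pgroup_of_solvable G
    haveI := hMn
    by_cases hsp : s = p
    · subst hsp
      exact step s q r hs hq hr hpq hpr hqr hqG hrG M hM1 hMs
    by_cases hsq : s = q
    · subst hsq
      obtain ⟨g, hg⟩ := step s p r hs hp hr (Ne.symm hpq) hqr hpr hpG hrG M hM1 hMs
      refine ⟨g, ?_⟩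
      rcases hg with h | h | h
      · left; rw [h, mul_comm]
      · right; right; exact h
      · right; left; exact h
    by_cases hsr : s = r
    · subst hsr
      obtain ⟨g, hg⟩ := step s p q hs hp hq (Ne.symm hpr) (Ne.symm hqr) hpq hpG hqG M hM1 hMs
      refine ⟨g, ?_⟩
      rcases hg with h | h | h
      · right; left; rw [h, mul_comm]
      · right; right; rw [h, mul_comm]
      · left; exact h
    · haveI := Fact.mk hs
      obtain ⟨k, hk⟩ := IsPGroup.iff_card.mp hMs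
      have hcard := Subgroup.card_eq_card_quotient_mul_card_subgroup M
      have hM2 : 2 ≤ Nat.card M := by
        have h1 : Nat.card M ≠ 1 := fun h => hM1 (Subgroup.card_eq_one.mp h)
        have h0 : 0 < Nat.card M := Nat.card_pos
        omega
      have hlt : Nat.card (G ⧸ M) < N := by
        rw [← hN, hcard]
        have h0 : 0 < Nat.card (G ⧸ M) := Nat.card_pos
        nlinarith
      have hdv : ∀ t : ℕ, t.Prime → t ≠ s → t ∣ Nat.card G → t ∣ Nat.card (G ⧸ M) := by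
        intro t ht hts htG
        rw [hcard, hk] at htG
        exact (Nat.Coprime.pow_right k ((Nat.coprime_primes ht hs).mpr hts)).dvd_of_dvd_mul_right htG
      obtain ⟨x, hx⟩ := ih _ hlt (G ⧸ M) rfl p q r hp hq hr hpq hpr hqr
        (hdv p hp (Ne.symm hsp) hpG) (hdv q hq (Ne.symm hsq) hqG) (hdv r hr (Ne.symm hsr) hrG)
      rcases hx with h | h | h
      · obtain ⟨g, hg⟩ := lift_order M x _ (Nat.mul_pos hp.pos hq.pos) h
        exact ⟨g, Or.inl hg⟩
      · obtain ⟨g, hg⟩ := lift_order M x _ (Nat.mul_pos hp.pos hr.pos) h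
        exact ⟨g, Or.inr (Or.inl hg)⟩
      · obtain ⟨g, hg⟩ := lift_order M x _ (Nat.mul_pos hq.pos hr.pos) h
        exact ⟨g, Or.inr (Or.inr hg)⟩

theorem exists_primes (n : ℕ) (hn : 7 ≤ n) : ∃ p q r : ℕ, p.Prime ∧ q.Prime ∧ r.Prime ∧
    p ≠ q ∧ p ≠ r ∧ q ≠ r ∧ p ≤ n ∧ q ≤ n ∧ r ≤ n ∧ n < p * q ∧ n < p * r ∧ n < q * r := by
  by_cases h1 : n ≤ 14
  · exact ⟨3, 5, 7, by norm_num, by norm_num, by norm_num, by norm_num, by norm_num, by norm_num,
      by omega, by omega, by omega, by omega, by omega, by omega⟩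
  by_cases h2 : n ≤ 31
  · exact ⟨5, 7, 11, by norm_num, by norm_num, by norm_num, by norm_num, by norm_num, by norm_num,
      by omega, by omega, by omega, by omega, by omega, by omega⟩
  · obtain ⟨a, ha⟩ : ∃ a, a = n / 8 := ⟨_, rfl⟩
    have ha4 : 4 ≤ a := by omega
    have hna : n < (a + 1) * 9 := by omega
    have han : 8 * a ≤ n := by omega
    obtain ⟨p1, hp1, h1a, h1b⟩ := Nat.exists_prime_lt_and_le_two_mul a (by omega)
    obtain ⟨p2, hp2, h2a, h2b⟩ := Nat.exists_prime_lt_and_le_two_mul (2 * a) (by omega)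
    obtain ⟨p3, hp3, h3a, h3b⟩ := Nat.exists_prime_lt_and_le_two_mul (4 * a) (by omega)
    refine ⟨p1, p2, p3, hp1, hp2, hp3, by omega, by omega, by omega, by omega, by omega, by omega,
      ?_, ?_, ?_⟩
    · exact lt_of_lt_of_le hna (Nat.mul_le_mul (by omega) (by omega))
    · exact lt_of_lt_of_le hna (Nat.mul_le_mul (by omega) (by omega))
    · exact lt_of_lt_of_le hna (Nat.mul_le_mul (by omega) (by omega))

end Cfsg.Agent.Lib.Helper2.ThreePrimes
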