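import Mathlib

/-!
# Two primes between `n` and `2n`

A strengthening of Bertrand's postulate: for `6 ≤ n` there are two primes in `(n, 2n]`.
-/

set_option autoImplicit false

namespace Cfsg.Agent.Lib.Helper2.TwoPrimes

open Real in
theorem real_main2 {x : ℝ} (x_large : (512 : ℝ) ≤ x) :
    2 * Real.log x + Real.log 2 + √(2 * x) * Real.log (2 * x) - Real.log 4 / 3 * x ≤ 0 := by
  let f : ℝ → ℝ := fun x => 2 * log x + log 2 + √(2 * x) * log (2 * x) - log 4 / 3 * x
  have h : ConcaveOn ℝ (Set.Ioi 0.5) f := by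
    apply ConcaveOn.sub
    · apply ConcaveOn.add
      · apply ConcaveOn.add_const
        have h1 : ConcaveOn ℝ (Set.Ioi (0.5 : ℝ)) log :=
          strictConcaveOn_log_Ioi.concaveOn.subset
            (Set.Ioi_subset_Ioi (by norm_num)) (convex_Ioi 0.5)
        have h2 := h1.smul (c := (2 : ℝ)) (by norm_num)
        exact h2
      convert!
        ((strictConcaveOn_sqrt_mul_log_Ioi.concaveOn.comp_linearMap ((2 : ℝ) • LinearMap.id)))
        using 1
      ext x
      simp only [Set.mem_Ioi, Set.mem_preimage, LinearMap.smul_apply,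
        LinearMap.id_coe, id_eq, smul_eq_mul]
      rw [← mul_lt_mul_iff_right₀ (two_pos)]
      norm_num1
      rfl
    apply ConvexOn.smul
    · refine div_nonneg (log_nonneg (by norm_num1)) (by norm_num1)
    · exact convexOn_id (convex_Ioi (0.5 : ℝ))
  suffices ∃ x1 x2, 0.5 < x1 ∧ x1 < x2 ∧ x2 ≤ x ∧ 0 ≤ f x1 ∧ f x2 ≤ 0 by
    obtain ⟨x1, x2, h1, h2, h0, h3, h4⟩ := this
    exact (h.right_le_of_le_left'' h1 ((h1.trans h2).trans_le h0) h2 h0 (h4.trans h3)).trans h4
  have hl2 : 0 < log 2 := log_pos (by norm_num)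
  have hl3 : 0 < log 3 := log_pos (by norm_num)
  have hl4 : log 4 = 2 * log 2 := by
    rw [show (4 : ℝ) = 2 ^ 2 by norm_num, log_pow]; norm_num
  refine ⟨18, 512, by norm_num1, by norm_num1, x_large, ?_, ?_⟩
  · have hs : √(2 * 18 : ℝ) = 6 := (sqrt_eq_iff_mul_self_eq_of_pos (by norm_num1)).mpr (by norm_num1)
    have h18 : log 18 = log 2 + 2 * log 3 := by
      rw [show (18 : ℝ) = 2 * 3 ^ 2 by norm_num, log_mul (by norm_num) (by norm_num), log_pow]
      norm_num
    have h36 : log (2 * 18) = 2 * log 2 + 2 * log 3 := by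
      rw [show (2 * 18 : ℝ) = 2 ^ 2 * 3 ^ 2 by norm_num, log_mul (by norm_num) (by norm_num),
        log_pow, log_pow]
      norm_num
    show 0 ≤ 2 * log 18 + log 2 + √(2 * 18) * log (2 * 18) - log 4 / 3 * 18
    rw [hs, h18, h36, hl4]
    nlinarith
  · have hs : √(2 * 512 : ℝ) = 32 :=
      (sqrt_eq_iff_mul_self_eq_of_pos (by norm_num1)).mpr (by norm_num1)
    have h512 : log 512 = 9 * log 2 := by
      rw [show (512 : ℝ) = 2 ^ 9 by norm_num, log_pow]; norm_num
    have h1024 : log (2 * 512) = 10 * log 2 := by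
      rw [show (2 * 512 : ℝ) = 2 ^ 10 by norm_num, log_pow]; norm_num
    show 2 * log 512 + log 2 + √(2 * 512) * log (2 * 512) - log 4 / 3 * 512 ≤ 0
    rw [hs, h512, h1024, hl4]
    nlinarith

theorem nat_main2 {n : ℕ} (n_large : 512 ≤ n) :
    n * (2 * n) * (2 * n) ^ Nat.sqrt (2 * n) * 4 ^ (2 * n / 3) ≤ 4 ^ n := by
  have hn0 : (0 : ℝ) < n := by exact_mod_cast (by omega : 0 < n)
  have hx : (512 : ℝ) ≤ n := by exact_mod_cast n_large
  have hmain := real_main2 hx
  have h2n : (0 : ℝ) < 2 * n := by positivity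
  have hlog2n : Real.log (2 * n) = Real.log 2 + Real.log n :=
    Real.log_mul (by norm_num) hn0.ne'
  have hlogn : 0 ≤ Real.log n := Real.log_nonneg (by linarith)
  have hl2 : 0 < Real.log 2 := Real.log_pos (by norm_num)
  have hl4 : 0 < Real.log 4 := Real.log_pos (by norm_num)
  have hlog2n0 : 0 ≤ Real.log (2 * n) := by rw [hlog2n]; linarith
  have hsq : ((Nat.sqrt (2 * n) : ℕ) : ℝ) ≤ √(2 * (n : ℝ)) := by
    have := Real.nat_sqrt_le_real_sqrt (a := 2 * n)
    simpa using this
  have hdiv : ((2 * n / 3 : ℕ) : ℝ) ≤ 2 * (n : ℝ) / 3 := by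
    have := Nat.cast_div_le (α := ℝ) (m := 2 * n) (n := 3)
    simpa using this
  have h1 : ((Nat.sqrt (2 * n) : ℕ) : ℝ) * Real.log (2 * n) ≤ √(2 * (n : ℝ)) * Real.log (2 * n) :=
    mul_le_mul_of_nonneg_right hsq hlog2n0
  have h2 : ((2 * n / 3 : ℕ) : ℝ) * Real.log 4 ≤ 2 * (n : ℝ) / 3 * Real.log 4 :=
    mul_le_mul_of_nonneg_right hdiv hl4.le
  have hcast : ((n * (2 * n) * (2 * n) ^ Nat.sqrt (2 * n) * 4 ^ (2 * n / 3) : ℕ) : ℝ)
      ≤ ((4 ^ n : ℕ) : ℝ) := by
    push_cast
    have hpos1 : (0 : ℝ) < (n : ℝ) * (2 * n) * (2 * (n : ℝ)) ^ Nat.sqrt (2 * n) * 4 ^ (2 * n / 3) := by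
      positivity
    rw [← Real.log_le_log_iff hpos1 (by positivity)]
    rw [Real.log_mul (by positivity) (by positivity), Real.log_mul (by positivity) (by positivity),
      Real.log_mul (by positivity) (by positivity), Real.log_pow, Real.log_pow, Real.log_pow]
    rw [hlog2n] at h1 hmain ⊢
    nlinarith
  exact_mod_cast hcast

open Nat in
theorem centralBinom_le_of_one_prime (n : ℕ) (n_large : 2 < n) (p0 : ℕ)
    (one_prime : ∀ p : ℕ, p.Prime → n < p → p ≤ 2 * n → p = p0) :
    centralBinom n ≤ (2 * n) ^ sqrt (2 * n) * 4 ^ (2 * n / 3) * (2 * n) := by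
  have n_pos : 0 < n := (Nat.zero_le _).trans_lt n_large
  have n2_pos : 1 ≤ 2 * n := mul_pos (zero_lt_two' ℕ) n_pos
  let S := {p ∈ Finset.range (2 * n / 3 + 1) | Nat.Prime p}
  let f : ℕ → ℕ := fun x => x ^ n.centralBinom.factorization x
  have e1 : centralBinom n = ∏ p ∈ Finset.range (2 * n + 1), f p :=
    (prod_pow_factorization_centralBinom n).symm
  have e2 : ∏ p ∈ Finset.range (2 * n + 1), f p
      = (∏ p ∈ Finset.range (2 * n / 3 + 1), f p) * ∏ p ∈ Finset.Ico (2 * n / 3 + 1) (2 * n + 1), f p :=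
    (Finset.prod_range_mul_prod_Ico f (by omega)).symm
  have hone : ∀ b ∈ Finset.Ico (2 * n / 3 + 1) (2 * n + 1), b ≠ p0 → f b = 1 := by
    intro b hb hne
    rw [Finset.mem_Ico] at hb
    show b ^ n.centralBinom.factorization b = 1
    by_cases hbp : b.Prime
    · by_cases hbn : b ≤ n
      · rw [factorization_centralBinom_of_two_mul_self_lt_three_mul n_large hbn (by omega),
          Nat.pow_zero]
      · exact absurd (one_prime b hbp (by omega) (by omega)) hne
    · rw [factorization_eq_zero_of_not_prime n.centralBinom hbp, Nat.pow_zero]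
  have e3 : ∏ p ∈ Finset.Ico (2 * n / 3 + 1) (2 * n + 1), f p ≤ 2 * n := by
    by_cases hp0 : p0 ∈ Finset.Ico (2 * n / 3 + 1) (2 * n + 1)
    · rw [Finset.prod_eq_single_of_mem p0 hp0 (fun b hb hne => hone b hb hne)]
      exact pow_factorization_choose_le (mul_pos two_pos n_pos)
    · rw [Finset.prod_eq_one (fun b hb => hone b hb (fun h => hp0 (h ▸ hb)))]
      exact n2_pos
  have e4 : ∏ p ∈ Finset.range (2 * n / 3 + 1), f p ≤ (2 * n) ^ sqrt (2 * n) * 4 ^ (2 * n / 3) := by
    have : ∏ x ∈ S, f x = ∏ x ∈ Finset.range (2 * n / 3 + 1), f x := by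
      refine Finset.prod_filter_of_ne fun p _ h => ?_
      contrapose h; dsimp only [f]
      rw [factorization_eq_zero_of_not_prime n.centralBinom h, _root_.pow_zero]
    rw [← this, ← Finset.prod_filter_mul_prod_filter_not S (· ≤ sqrt (2 * n))]
    apply mul_le_mul'
    · refine (Finset.prod_le_prod' fun p _ => (?_ : f p ≤ 2 * n)).trans ?_
      · exact pow_factorization_choose_le (mul_pos two_pos n_pos)
      have : (Finset.Icc 1 (sqrt (2 * n))).card = sqrt (2 * n) := by rw [card_Icc, Nat.add_sub_cancel]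
      rw [Finset.prod_const]
      refine pow_right_mono₀ n2_pos ((Finset.card_le_card fun x hx => ?_).trans this.le)
      obtain ⟨h1, h2⟩ := Finset.mem_filter.1 hx
      exact Finset.mem_Icc.mpr ⟨(Finset.mem_filter.1 h1).2.one_lt.le, h2⟩
    · refine le_trans ?_ (primorial_le_four_pow (2 * n / 3))
      refine (Finset.prod_le_prod' fun p hp => (?_ : f p ≤ p)).trans ?_
      · obtain ⟨h1, h2⟩ := Finset.mem_filter.1 hp
        refine (pow_right_mono₀ (Finset.mem_filter.1 h1).2.one_lt.le ?_).trans (pow_one p).le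
        exact Nat.factorization_choose_le_one (sqrt_lt'.mp <| not_le.1 h2)
      refine Finset.prod_le_prod_of_subset_of_one_le' (Finset.filter_subset _ _) ?_
      exact fun p hp _ => (Finset.mem_filter.1 hp).2.one_lt.le
  rw [e1, e2]
  exact Nat.mul_le_mul e4 e3

theorem two_primes_large (n : ℕ) (n_large : 512 ≤ n) :
    ∃ p q : ℕ, p.Prime ∧ q.Prime ∧ n < p ∧ p < q ∧ q ≤ 2 * n := by
  obtain ⟨p0, hp0, h1, h2⟩ := Nat.exists_prime_lt_and_le_two_mul n (by omega)
  by_contra hcon
  have one_prime : ∀ p : ℕ, p.Prime → n < p → p ≤ 2 * n → p = p0 := by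
    intro p hp hnp hp2
    by_contra hne
    rcases lt_or_gt_of_ne hne with h | h
    · exact hcon ⟨p, p0, hp, hp0, hnp, h, h2⟩
    · exact hcon ⟨p0, p, hp0, hp, h1, h, hp2⟩
  have hlow : 4 ^ n < n * n.centralBinom :=
    Nat.four_pow_lt_mul_centralBinom n (le_trans (by norm_num1) n_large)
  have hup := centralBinom_le_of_one_prime n (by omega) p0 one_prime
  have hmain := nat_main2 n_large
  have : n * n.centralBinom ≤ 4 ^ n := by
    calc n * n.centralBinom ≤ n * ((2 * n) ^ Nat.sqrt (2 * n) * 4 ^ (2 * n / 3) * (2 * n)) :=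
          Nat.mul_le_mul_left n hup
      _ = n * (2 * n) * (2 * n) ^ Nat.sqrt (2 * n) * 4 ^ (2 * n / 3) := by ring
      _ ≤ 4 ^ n := hmain
  omega

theorem two_primes (n : ℕ) (hn : 6 ≤ n) :
    ∃ p q : ℕ, p.Prime ∧ q.Prime ∧ n < p ∧ p < q ∧ q ≤ 2 * n := by
  by_cases h0 : 512 ≤ n
  · exact two_primes_large n h0
  by_cases h1 : n < 7
  · exact ⟨7, 11, by norm_num, by norm_num, by omega, by omega, by omega⟩
  by_cases h2 : n < 11
  · exact ⟨11, 13, by norm_num, by norm_num, by omega, by omega, by omega⟩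
  by_cases h3 : n < 13
  · exact ⟨13, 19, by norm_num, by norm_num, by omega, by omega, by omega⟩
  by_cases h4 : n < 19
  · exact ⟨19, 23, by norm_num, by norm_num, by omega, by omega, by omega⟩
  by_cases h5 : n < 23
  · exact ⟨23, 37, by norm_num, by norm_num, by omega, by omega, by omega⟩
  by_cases h6 : n < 37
  · exact ⟨37, 43, by norm_num, by norm_num, by omega, by omega, by omega⟩
  by_cases h7 : n < 43
  · exact ⟨43, 73, by norm_num, by norm_num, by omega, by omega, by omega⟩
  by_cases h8 : n < 73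
  · exact ⟨73, 83, by norm_num, by norm_num, by omega, by omega, by omega⟩
  by_cases h9 : n < 83
  · exact ⟨83, 139, by norm_num, by norm_num, by omega, by omega, by omega⟩
  by_cases h10 : n < 139
  · exact ⟨139, 163, by norm_num, by norm_num, by omega, by omega, by omega⟩
  by_cases h11 : n < 163
  · exact ⟨163, 277, by norm_num, by norm_num, by omega, by omega, by omega⟩
  by_cases h12 : n < 277
  · exact ⟨277, 317, by norm_num, by norm_num, by omega, by omega, by omega⟩
  by_cases h13 : n < 317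
  · exact ⟨317, 547, by norm_num, by norm_num, by omega, by omega, by omega⟩
  · exact ⟨547, 631, by norm_num, by norm_num, by omega, by omega, by omega⟩

end Cfsg.Agent.Lib.Helper2.TwoPrimes
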